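import Mathlib

/-! An elementary abelian 2-subgroup with a symplectic "lift commutator" form: duality. -/

set_option autoImplicit false

namespace Cfsg.Lib.C6B

open Subgroup

variable {G : Type*} [Group G]

theorem z2 (a : ZMod 2) : a = 0 ∨ a = 1 := by revert a; decide

theorem z2_add (a : ZMod 2) : a + a = 0 := by revert a; decide

theorem card_two {A B : Subgroup G} (h : A ≤ B) {a : G} (ha : a ∈ B) (hn : a ∉ A)
    (k : ∀ x ∈ B, x ∈ A ∨ x * a ∈ A) : Nat.card B = 2 * Nat.card A := by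
  have e : A.relIndex B = 2 := by
    rw [relIndex, index_eq_two_iff]
    refine ⟨⟨a, ha⟩, fun b => ?_⟩
    simp only [mem_subgroupOf, coe_mul]
    rcases k b b.2 with h1 | h1
    · exact .inr ⟨h1, fun h2 => hn ((mul_mem_cancel_left h1).1 h2)⟩
    · exact .inl ⟨h1, fun h2 => hn ((mul_mem_cancel_left h2).1 h1)⟩
  rw [← (A.subgroupOf B).card_mul_index, ← relIndex, e,
    Nat.card_congr (subgroupOfEquivOfLe h).toEquiv, mul_comm]

/-- The commutation form of lifts and the squaring form. -/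
structure Bt (H : Subgroup G) (β : G → G → ZMod 2) (Q : G → ZMod 2) : Prop where
  symm : ∀ a b, β a b = β b a
  add : ∀ a a' b, a * b = b * a → a' * b = b * a' → b * b = 1 → β (a * a') b = β a b + β a' b
  add' : ∀ a a' b, a * b = b * a → a' * b = b * a' → a * a = 1 → a' * a' = 1 →
    β (a * a') b = β a b + β a' b
  self : ∀ a, β a a = 0
  sq : ∀ a, β a (a * a) = 0
  conj : ∀ g a b, β (g * a * g⁻¹) (g * b * g⁻¹) = β a b
  qconj : ∀ g ∈ H, ∀ a, Q (g * a * g⁻¹) = Q a

/-- An elementary abelian subgroup on which `β` is non-degenerate. -/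
structure Nd (H : Subgroup G) (β : G → G → ZMod 2) (Q : G → ZMod 2) (E : Subgroup G) : Prop
    extends Bt H β Q where
  two : ∀ e ∈ E, e * e = 1
  schur : ∀ g, (∀ e ∈ E, g * e = e * g ∧ β g e = 0) → g = 1

variable {H E A B : Subgroup G} {β : G → G → ZMod 2} {Q : G → ZMod 2} {a b c e t : G}

namespace Nd
variable (h : Nd H β Q E)
include h

theorem inv (ha : a ∈ E) : a⁻¹ = a := inv_eq_of_mul_eq_one_right (h.two a ha)

theorem comm (ha : a ∈ E) (hb : b ∈ E) : a * b = b * a := by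
  rw [← h.inv (mul_mem ha hb), mul_inv_rev, h.inv ha, h.inv hb]

theorem addl (ha : a ∈ E) (hb : b ∈ E) (hc : c ∈ E) : β (a * b) c = β a c + β b c :=
  h.add _ _ _ (h.comm ha hc) (h.comm hb hc) (h.two c hc)

theorem addr (ha : a ∈ E) (hb : b ∈ E) (hc : c ∈ E) : β a (b * c) = β a b + β a c := by
  rw [h.symm, h.addl hb hc ha, h.symm b, h.symm c]

theorem one_left (hb : b * b = 1) : β 1 b = 0 := by
  have := h.add 1 1 b (by simp) (by simp) hb
  rw [mul_one, z2_add] at this
  exact this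

theorem one_right (hb : b * b = 1) : β b 1 = 0 := by rw [h.symm, h.one_left hb]

theorem eq_one (ha : a ∈ E) (k : ∀ e ∈ E, β a e = 0) : a = 1 :=
  h.schur a fun e he => ⟨h.comm ha he, k e he⟩

theorem ext (ha : a ∈ E) (hb : b ∈ E) (k : ∀ e ∈ E, β a e = β b e) : a = b := by
  have := h.eq_one (mul_mem ha hb) fun e he => by rw [h.addl ha hb he, k e he, z2_add]
  rw [← h.inv hb]
  exact eq_inv_of_mul_eq_one_left this

/-- The orthogonal complement. -/
def perp (A : Subgroup G) : Subgroup G where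
  carrier := {e | e ∈ E ∧ ∀ a ∈ A, a ∈ E → β e a = 0}
  one_mem' := ⟨one_mem _, fun a _ ha => h.one_left (h.two a ha)⟩
  mul_mem' hx hy := ⟨mul_mem hx.1 hy.1, fun a ha ha' => by
    rw [h.addl hx.1 hy.1 ha', hx.2 a ha ha', hy.2 a ha ha', add_zero]⟩
  inv_mem' hx := by rw [h.inv hx.1]; exact hx

theorem mem_perp : e ∈ h.perp A ↔ e ∈ E ∧ ∀ a ∈ A, a ∈ E → β e a = 0 := Iff.rfl

theorem perp_le : h.perp A ≤ E := fun _ hx => hx.1

theorem perp_anti (k : A ≤ B) : h.perp B ≤ h.perp A := fun _ hx => ⟨hx.1, fun a ha => hx.2 a (k ha)⟩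

theorem le_perp_perp (k : A ≤ E) : A ≤ h.perp (h.perp A) := fun a ha =>
  ⟨k ha, fun b hb _ => by rw [h.symm]; exact hb.2 a ha (k ha)⟩

theorem mem_sup (k : A ≤ E) (ha : a ∈ E) : e ∈ A ⊔ zpowers a ↔ e ∈ A ∨ e * a ∈ A := by
  refine ⟨fun he => ?_, fun he => he.elim (fun he => mem_sup_left he) fun he => by
    simpa using mul_mem (mem_sup_left he) (inv_mem (mem_sup_right (mem_zpowers a)) :
      a⁻¹ ∈ A ⊔ zpowers a)⟩
  have h2 := h.two a ha
  let W : Subgroup G :=
    { carrier := {e | e ∈ A ∨ e * a ∈ A}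
      one_mem' := .inl (one_mem _)
      mul_mem' := by
        intro x y hx hy
        have c1 : ∀ {z}, z * a ∈ A → z ∈ E := fun hz => (mul_mem_cancel_right ha).1 (k hz)
        rcases hx with hx | hx <;> rcases hy with hy | hy
        · exact .inl (mul_mem hx hy)
        · exact .inr (by rw [mul_assoc]; exact mul_mem hx hy)
        · exact .inr (by rw [mul_assoc, h.comm (k hy) ha, ← mul_assoc]; exact mul_mem hx hy)
        · refine .inl ?_
          have := mul_mem hx hy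
          rwa [h.comm (c1 hy) ha, mul_assoc, ← mul_assoc a, h2, one_mul] at this
      inv_mem' := by
        intro x hx
        have : x ∈ E := hx.elim (fun hx => k hx) fun hx => (mul_mem_cancel_right ha).1 (k hx)
        rwa [h.inv this] }
  exact (sup_le (fun x hx => .inl hx) ((zpowers_le (H := W)).2 (.inr (h2 ▸ one_mem _))) : _ ≤ W) he

theorem sup_le' (k : A ≤ E) (ha : a ∈ E) : A ⊔ zpowers a ≤ E := sup_le k ((zpowers_le).2 ha)

theorem mem_perp_sup (k : A ≤ E) (ha : a ∈ E) :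
    e ∈ h.perp (A ⊔ zpowers a) ↔ e ∈ h.perp A ∧ β e a = 0 := by
  refine ⟨fun he => ⟨h.perp_anti le_sup_left he, he.2 a (mem_sup_right (mem_zpowers a)) ha⟩,
    fun he => ⟨he.1.1, fun x hx hx' => ?_⟩⟩
  rcases (h.mem_sup k ha).1 hx with h1 | h1
  · exact he.1.2 x h1 hx'
  · have := he.1.2 _ h1 (k h1)
    rwa [h.addr he.1.1 hx' ha, he.2, add_zero] at this

theorem card_sup (k : A ≤ E) (ha : a ∈ E) (hn : a ∉ A) :
    Nat.card ↥(A ⊔ zpowers a) = 2 * Nat.card A :=
  card_two le_sup_left (mem_sup_right (mem_zpowers a)) hn fun _ hx => (h.mem_sup k ha).1 hx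

variable [Finite G]

theorem dual (k : A ≤ E) :
    h.perp (h.perp A) ≤ A ∧ Nat.card A * Nat.card (h.perp A) = Nat.card E := by
  classical
  suffices H : ∀ s : Finset G, ∀ A, A = Subgroup.closure (s : Set G) → A ≤ E →
      h.perp (h.perp A) ≤ A ∧ Nat.card A * Nat.card (h.perp A) = Nat.card E from
    H (Set.toFinite (A : Set G)).toFinset A (by simp) k
  rintro s _ rfl
  induction s using Finset.induction_on with
  | empty =>
    have e : h.perp ⊥ = E := le_antisymm h.perp_le fun x hx => ⟨hx, fun a ha _ => by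
      rw [mem_bot.1 ha, h.one_right (h.two x hx)]⟩
    simp only [Finset.coe_empty, Subgroup.closure_empty, e, card_bot, one_mul, and_true]
    exact fun _ x hx => mem_bot.2 (h.eq_one hx.1 fun e he => hx.2 e he he)
  | insert a s _ ih =>
    rw [Finset.coe_insert, Set.insert_eq, Subgroup.closure_union, sup_comm, ← zpowers_eq_closure]
    generalize Subgroup.closure (s : Set G) = A at ih
    intro k
    have k1 : A ≤ E := le_sup_left.trans k
    have ha : a ∈ E := k (mem_sup_right (mem_zpowers a))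
    obtain ⟨i1, i2⟩ := ih k1
    by_cases hn : a ∈ A
    · rw [sup_eq_left.2 ((zpowers_le).2 hn)]; exact ⟨i1, i2⟩
    obtain ⟨v, hv, hva⟩ : ∃ v ∈ h.perp A, β v a = 1 := by
      by_contra! k2
      exact hn (i1 ⟨ha, fun v hv _ => by rw [h.symm]; exact (z2 _).resolve_right (k2 v hv)⟩)
    have sp : ∀ x ∈ h.perp A, x ∈ h.perp (A ⊔ zpowers a) ∨ x * v ∈ h.perp (A ⊔ zpowers a) := by
      intro x hx
      rw [h.mem_perp_sup k1 ha, h.mem_perp_sup k1 ha]
      rcases z2 (β x a) with e | e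
      · exact .inl ⟨hx, e⟩
      · exact .inr ⟨mul_mem hx hv, by rw [h.addl hx.1 hv.1 ha, e, hva]; rfl⟩
    refine ⟨fun x hx => (h.mem_sup k1 ha).2 ?_, ?_⟩
    · have hv' := (h.mem_perp_sup k1 ha (e := v)).not.2 (by simp [hva])
      rcases z2 (β x v) with e | e
      · refine .inl (i1 ⟨hx.1, fun w hw _ => ?_⟩)
        rcases sp w hw with h1 | h1
        · exact hx.2 w h1 hw.1
        · have := hx.2 _ h1 h1.1
          rwa [h.addr hx.1 hw.1 hv.1, e, add_zero] at this
      · refine .inr (i1 ⟨mul_mem hx.1 ha, fun w hw _ => ?_⟩)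
        rw [h.addl hx.1 ha hw.1, h.symm a]
        rcases sp w hw with h1 | h1
        · rw [hx.2 w h1 hw.1, ((h.mem_perp_sup k1 ha).1 h1).2, add_zero]
        · have e1 := hx.2 _ h1 h1.1
          have e2 := ((h.mem_perp_sup k1 ha).1 h1).2
          rw [h.addr hx.1 hw.1 hv.1, e] at e1
          rw [h.addl hw.1 hv.1 ha, hva] at e2
          revert e1 e2; generalize β x w = p; generalize β w a = q; revert p q; decide
    · rw [h.card_sup k1 ha hn, ← i2, card_two (h.perp_anti le_sup_left) hv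
        ((h.mem_perp_sup k1 ha).not.2 (by simp [hva])) sp]
      ring

theorem perp_perp (k : A ≤ E) : h.perp (h.perp A) = A :=
  le_antisymm (h.dual k).1 (h.le_perp_perp k)

theorem card_perp (k : A ≤ E) : Nat.card A * Nat.card (h.perp A) = Nat.card E := (h.dual k).2

theorem exists_dual (k : A ≤ E) (ha : a ∈ E) (hn : a ∉ A) : ∃ v ∈ h.perp A, β v a = 1 := by
  by_contra! k2
  exact hn ((h.dual k).1 ⟨ha, fun v hv _ => by
    rw [h.symm]; exact (z2 _).resolve_right (k2 v hv)⟩)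

theorem exists_one (ha : a ∈ E) (hn : a ≠ 1) : ∃ v ∈ E, β v a = 1 :=
  let ⟨v, hv, e⟩ := h.exists_dual bot_le ha (by simpa)
  ⟨v, hv.1, e⟩

theorem exists_two (ha : a ∈ E) (hb : b ∈ E) (h1 : a ≠ 1) (h2 : a ≠ b) :
    ∃ v ∈ E, β v b = 0 ∧ β v a = 1 := by
  obtain ⟨v, hv, e⟩ := h.exists_dual (h.sup_le' bot_le hb) ha (by
    rw [h.mem_sup bot_le hb]
    simpa [h1, mul_eq_one_iff_eq_inv, h.inv hb] using h2)
  exact ⟨v, hv.1, ((h.mem_perp_sup bot_le hb).1 hv).2, e⟩

theorem mem_of_cent {g : G} (k : ∀ e ∈ E, g * e = e * g) : g ∈ E := by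
  have ad : ∀ a ∈ E, ∀ b ∈ E, β (a * b) g = β a g + β b g := fun a ha b hb =>
    h.add' _ _ _ (k a ha).symm (k b hb).symm (h.two a ha) (h.two b hb)
  suffices H : ∃ r ∈ E, ∀ e ∈ E, β r e = β g e by
    obtain ⟨r, hr, H⟩ := H
    have := h.schur (g * r) fun e he => ⟨by
      rw [mul_assoc, h.comm hr he, ← mul_assoc, k e he, mul_assoc], by
      rw [h.add _ _ _ (k e he) (h.comm hr he) (h.two e he), H e he, z2_add]⟩
    rw [eq_inv_of_mul_eq_one_left this]
    exact inv_mem hr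
  let W : Subgroup G :=
    { carrier := {e | e ∈ E ∧ β e g = 0}
      one_mem' := ⟨one_mem _, by simpa [z2_add] using ad 1 (one_mem _) 1 (one_mem _)⟩
      mul_mem' := fun hx hy => ⟨mul_mem hx.1 hy.1, by rw [ad _ hx.1 _ hy.1, hx.2, hy.2, add_zero]⟩
      inv_mem' := fun hx => by rw [h.inv hx.1]; exact hx }
  by_cases h0 : ∀ e ∈ E, β e g = 0
  · exact ⟨1, one_mem _, fun e he => by rw [h.one_left (h.two e he), h.symm, h0 e he]⟩
  push Not at h0
  obtain ⟨a, ha, h1⟩ := h0
  obtain ⟨v, hv, e1⟩ := h.exists_dual (A := W) (fun _ hx => hx.1) ha fun hx => h1 hx.2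
  replace h1 := (z2 _).resolve_left h1
  refine ⟨v, hv.1, fun e he => ?_⟩
  rw [h.symm g]
  rcases z2 (β e g) with e2 | e2
  · rw [e2, hv.2 e ⟨he, e2⟩ he]
  · have := hv.2 (e * a) ⟨mul_mem he ha, by rw [ad _ he _ ha, e2, h1]; rfl⟩ (mul_mem he ha)
    rw [h.addr hv.1 he ha, e1] at this
    rw [e2]
    revert this; generalize β v e = p; revert p; decide

/-- A totally isotropic subgroup lies in a Lagrangian. -/
theorem exists_lag (k : A ≤ h.perp A) : ∃ L, A ≤ L ∧ h.perp L = L := by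
  obtain ⟨L, h1, h2⟩ := Finite.exists_le_maximal (p := fun L : Subgroup G => L ≤ h.perp L) k
  refine ⟨L, h1, le_antisymm (fun x hx => ?_) h2.1⟩
  have kL : L ≤ E := h2.1.trans h.perp_le
  refine h2.2 (y := L ⊔ zpowers x) (sup_le (fun y hy => ?_) ((zpowers_le).2 ?_)) le_sup_left
    (mem_sup_right (mem_zpowers x)) <;> rw [h.mem_perp_sup kL hx.1]
  · exact ⟨h2.1 hy, by rw [h.symm]; exact hx.2 y hy (kL hy)⟩
  · exact ⟨hx, h.self x⟩

theorem card_le_sq (k : A ≤ E) (k' : h.perp A ≤ A) : Nat.card E ≤ Nat.card A * Nat.card A := by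
  rw [← h.card_perp k]
  exact Nat.mul_le_mul_left _ (card_le_of_le k')

section act
variable (ht : t ∈ normalizer (E : Set G)) (t2 : t * t = 1)
include ht

omit h [Finite G] in
theorem cj (he : e ∈ E) : t * e * t⁻¹ ∈ E := (mem_normalizer_iff.1 ht e).1 he

omit h [Finite G] in
theorem cm (he : e ∈ E) : t * e * t⁻¹ * e ∈ E := mul_mem (cj ht he) he

omit [Finite G] in
theorem cm_perp (he : e ∈ E) : t * e * t⁻¹ * e ∈ h.perp (centralizer {t}) :=
  ⟨cm ht he, fun c hc hc' => by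
    have := h.conj t e c
    rw [← mem_centralizer_singleton_iff.1 hc, mul_inv_cancel_right] at this
    rw [h.addl (cj ht he) he hc', this, z2_add]⟩

include t2

omit [Finite G] in
theorem cm_comm (he : e ∈ E) : t * (t * e * t⁻¹ * e) = t * e * t⁻¹ * e * t := by
  rw [inv_eq_of_mul_eq_one_right t2]
  calc _ = t * t * (e * (t * e * t⁻¹)) * t := by group
    _ = _ := by rw [t2, one_mul, h.comm he (cj ht he), inv_eq_of_mul_eq_one_right t2]

omit [Finite G] in
/-- The basic identity. -/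
theorem key (he : e ∈ E) : β t (t * e * t⁻¹ * e) = β e (t * e * t⁻¹ * e) := by
  have e1 := h.sq (t * e)
  have e2 : t * e * (t * e) = t * e * t⁻¹ * e := by
    rw [inv_eq_of_mul_eq_one_right t2, mul_assoc (t * e)]
  rw [e2, h.add _ _ _ (h.cm_comm ht t2 he) (h.comm he (cm ht he)) (h.two _ (cm ht he))] at e1
  revert e1
  generalize β t _ = p; generalize β e _ = q; revert p q; decide

omit [Finite G] in
theorem comm_of_perp (hc : c ∈ E) (k : ∀ e ∈ E, β c (t * e * t⁻¹ * e) = 0) : c * t = t * c := by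
  have := h.ext (cj ht hc) hc fun e he => by
    have e1 := k e he
    have e2 := h.conj t (t * c * t⁻¹) e
    rw [show t * (t * c * t⁻¹) * t⁻¹ = (t * t) * c * (t * t)⁻¹ by group, t2, one_mul, inv_one,
      mul_one] at e2
    rw [h.addr hc (cj ht he) he, e2] at e1
    revert e1
    generalize β c e = p; generalize β _ e = q; revert p q; decide
  rw [← mul_inv_eq_iff_eq_mul.1 this]

omit [Finite G] in
theorem perp_cent_le : h.perp (E ⊓ centralizer {t}) ≤ E ⊓ centralizer {t} := fun c hc =>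
  ⟨hc.1, mem_centralizer_singleton_iff.2 (h.comm_of_perp ht t2 hc.1 fun e he =>
    hc.2 _ ⟨cm ht he, mem_centralizer_singleton_iff.2 (h.cm_comm ht t2 he).symm⟩ (cm ht he))⟩

theorem exists_cm (hc : c ∈ h.perp (E ⊓ centralizer {t})) : ∃ e ∈ E, c = t * e * t⁻¹ * e := by
  let W : Subgroup G :=
    { carrier := {c | ∃ e ∈ E, c = t * e * t⁻¹ * e}
      one_mem' := ⟨1, one_mem _, by simp⟩
      mul_mem' := by
        rintro _ _ ⟨x, hx, rfl⟩ ⟨y, hy, rfl⟩
        refine ⟨x * y, mul_mem hx hy, ?_⟩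
        calc _ = t * x * t⁻¹ * (x * (t * y * t⁻¹)) * y := by group
          _ = _ := by rw [h.comm hx (cj ht hy)]; group
      inv_mem' := by
        rintro _ ⟨x, hx, rfl⟩
        exact ⟨x, hx, h.inv (cm ht hx)⟩ }
  have kW : W ≤ E := by rintro _ ⟨x, hx, rfl⟩; exact cm ht hx
  exact (h.dual kW).1 (h.perp_anti (A := h.perp W) (B := E ⊓ centralizer {t}) (fun x hx => ⟨hx.1, mem_centralizer_singleton_iff.2
    (h.comm_of_perp ht t2 hx.1 fun e he => hx.2 _ ⟨e, he, rfl⟩ (cm ht he))⟩) hc)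

end act

/-- A space of non-degenerate alternating forms is small. -/
theorem alt_bound {T : Subgroup G} (hT : T ≤ normalizer (E : Set G)) (k : A ≤ E) (k1 : A ≠ E)
    (k2 : ∀ t ∈ T, t ≠ 1 → E ⊓ centralizer {t} = A)
    (k3 : ∀ t ∈ T, ∀ e ∈ E, β e (t * e * t⁻¹ * e) = 0) :
    2 * Nat.card T * Nat.card A ≤ Nat.card E := by
  obtain ⟨e, he, hn⟩ := SetLike.exists_of_lt (k.lt_of_ne k1)
  have k4 : ∀ t : T, t.1 * e * t.1⁻¹ * e ∈ h.perp (A ⊔ zpowers e) := fun t => by
    rw [h.mem_perp_sup k he, h.symm]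
    refine ⟨?_, k3 t t.2 e he⟩
    by_cases h1 : t.1 = 1
    · rw [h1, one_mul, inv_one, mul_one, h.two e he]; exact one_mem _
    · exact h.perp_anti ((k2 t t.2 h1).ge.trans inf_le_right) (h.cm_perp (hT t.2) he)
  have k5 := Nat.card_le_card_of_injective (fun t : T => (⟨_, k4 t⟩ : h.perp (A ⊔ zpowers e)))
    fun s t hst => by
      by_contra hne
      have e1 : s.1 * e * s.1⁻¹ = t.1 * e * t.1⁻¹ := mul_right_cancel (congrArg Subtype.val hst)
      refine hn ((k2 (t.1⁻¹ * s.1) (mul_mem (inv_mem t.2) s.2) fun e2 =>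
        hne (Subtype.ext (inv_mul_eq_one.1 e2).symm)).le ⟨he, mem_centralizer_singleton_iff.2 ?_⟩)
      calc e * (t.1⁻¹ * s.1) = t.1⁻¹ * (t.1 * e * t.1⁻¹) * s.1 := by group
        _ = _ := by rw [← e1]; group
  rw [← h.card_perp (h.sup_le' k he), h.card_sup k he hn]
  nlinarith [Nat.zero_le (Nat.card A)]

end Nd

end Cfsg.Lib.C6B
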