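import Cfsg.Agent.Lib.C6.BigA

/-! A singular element normalises only one conjugate of `E`. -/

set_option autoImplicit false

namespace Cfsg.Lib.C6B

open Subgroup

variable {G : Type*} [Group G]

structure Gd (H : Subgroup G) (β : G → G → ZMod 2) (Q : G → ZMod 2) (E : Subgroup G) : Prop
    extends Nd H β Q E where
  le : E ≤ H
  big : 64 ≤ Nat.card E
  loc : ∀ x ∈ E, x ≠ 1 → Q x = 0 → ∀ g ∈ H, g * x = x * g → g ∈ normalizer (E : Set G)
  trans : ∀ x ∈ E, ∀ y ∈ E, x ≠ 1 → y ≠ 1 → Q x = 0 → Q y = 0 →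
    ∃ g ∈ H, g ∈ normalizer (E : Set G) ∧ g * x * g⁻¹ = y

/-- Quadratic type. -/
def SO (β : G → G → ZMod 2) (Q : G → ZMod 2) (E : Subgroup G) : Prop :=
  ∀ a ∈ E, ∀ b ∈ E, Q (a * b) = Q a + Q b + β a b

/-- Symplectic type. -/
def LU (H : Subgroup G) (β : G → G → ZMod 2) (Q : G → ZMod 2) (E : Subgroup G) : Prop :=
  (∀ a ∈ E, Q a = 0) ∧ ∀ u ∈ E, ∃ τ ∈ H, τ * τ = u ∧ ∀ t, t * u = u * t →
    (β t u = 0 → t * τ = τ * t ∧ β t τ = 0) ∧ (β t u = 1 → t * τ * t⁻¹ = u * τ)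

variable {H E F A : Subgroup G} {β : G → G → ZMod 2} {Q : G → ZMod 2} {a b c e g t x : G}

theorem norm_conj (hF : ∀ x, x ∈ F ↔ g⁻¹ * x * g ∈ E) {n : G} :
    n ∈ normalizer (F : Set G) ↔ g⁻¹ * n * g ∈ normalizer (E : Set G) := by
  simp only [mem_normalizer_iff, SetLike.mem_coe, hF]
  refine ⟨fun k x => ?_, fun k x => ?_⟩
  · have := k (g * x * g⁻¹)
    convert this using 2 <;> group
  · have := k (g⁻¹ * x * g)
    convert this using 2; group

theorem card_conj (hF : ∀ x, x ∈ F ↔ g⁻¹ * x * g ∈ E) : Nat.card F = Nat.card E :=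
  Nat.card_congr ⟨fun x => ⟨_, (hF x).1 x.2⟩, fun x => ⟨g * x * g⁻¹, (hF _).2 (by
    convert x.2 using 1; group)⟩, fun x => Subtype.ext (by simp only []; group),
    fun x => Subtype.ext (by simp only []; group)⟩

theorem Bt.conj' (h : Bt H β Q) (g a b : G) : β (g⁻¹ * a * g) (g⁻¹ * b * g) = β a b := by
  simpa using h.conj g⁻¹ a b

theorem Bt.qconj' (h : Bt H β Q) (hg : g ∈ H) (a : G) : Q (g⁻¹ * a * g) = Q a := by
  simpa using h.qconj g⁻¹ (inv_mem hg) a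

theorem Gd.conjugate (h : Gd H β Q E) (hg : g ∈ H) (hF : ∀ x, x ∈ F ↔ g⁻¹ * x * g ∈ E) :
    Gd H β Q F where
  toBt := h.toBt
  two e he := by
    have := h.two _ ((hF e).1 he)
    calc e * e = g * (g⁻¹ * e * g * (g⁻¹ * e * g)) * g⁻¹ := by group
      _ = 1 := by rw [this]; group
  schur a k := by
    have := h.schur (g⁻¹ * a * g) fun e he => by
      obtain ⟨k1, k2⟩ := k (g * e * g⁻¹) ((hF _).2 (by convert he using 1; group))
      refine ⟨?_, by rw [← k2, ← h.conj g]; congr 1; group⟩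
      calc _ = g⁻¹ * (a * (g * e * g⁻¹)) * g := by group
        _ = _ := by rw [k1]; group
    calc a = g * (g⁻¹ * a * g) * g⁻¹ := by group
      _ = 1 := by rw [this]; group
  le x hx := by
    have := mul_mem (mul_mem hg (h.le ((hF x).1 hx))) (inv_mem hg)
    convert this using 1; group
  big := card_conj hF ▸ h.big
  loc x hx h1 h2 n hn e := (norm_conj hF).2 (h.loc _ ((hF x).1 hx)
    (fun k => h1 (by simpa [mul_assoc, inv_mul_eq_one, eq_comm] using k)) (by rwa [h.qconj' hg]) _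
    (mul_mem (mul_mem (inv_mem hg) hn) hg) (by
      calc _ = g⁻¹ * (n * x) * g := by group
        _ = _ := by rw [e]; group))
  trans x hx y hy x1 y1 qx qy := by
    obtain ⟨n, hn, n1, n2⟩ := h.trans _ ((hF x).1 hx) _ ((hF y).1 hy)
      (fun k => x1 (by simpa [mul_assoc, inv_mul_eq_one, eq_comm] using k))
      (fun k => y1 (by simpa [mul_assoc, inv_mul_eq_one, eq_comm] using k))
      (by rwa [h.qconj' hg]) (by rwa [h.qconj' hg])
    refine ⟨g * n * g⁻¹, mul_mem (mul_mem hg hn) (inv_mem hg), (norm_conj hF).2 ?_, ?_⟩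
    · convert n1 using 1; group
    · calc _ = g * (n * (g⁻¹ * x * g) * n⁻¹) * g⁻¹ := by group
        _ = _ := by rw [n2]; group

theorem SO.conjugate (h : Bt H β Q) (s : SO β Q E) (hg : g ∈ H)
    (hF : ∀ x, x ∈ F ↔ g⁻¹ * x * g ∈ E) : SO β Q F := fun a ha b hb => by
  have := s _ ((hF a).1 ha) _ ((hF b).1 hb)
  rwa [show g⁻¹ * a * g * (g⁻¹ * b * g) = g⁻¹ * (a * b) * g by group, h.qconj' hg, h.qconj' hg,
    h.qconj' hg, h.conj'] at this

theorem exists_not_mem_of_card [Finite G] {A B : Subgroup G} (h : Nat.card A < Nat.card B) :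
    ∃ b ∈ B, b ∉ A := by
  by_contra! k
  exact (card_le_of_le k).not_gt h

namespace Nd
variable (h : Nd H β Q E)
include h

theorem q_one (s : SO β Q E) : Q 1 = 0 := by
  have := s 1 (one_mem _) 1 (one_mem _)
  rwa [mul_one, z2_add, h.self, add_zero] at this

theorem q_cm (s : SO β Q E) (ht : t ∈ normalizer (E : Set G)) (tH : t ∈ H) (he : e ∈ E) :
    Q (t * e * t⁻¹ * e) = β e (t * e * t⁻¹ * e) := by
  rw [s _ (cj ht he) _ he, h.qconj t tH, z2_add, zero_add, h.addr he (cj ht he) he, h.self,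
    add_zero, h.symm]

theorem le_perp_comm {B : Subgroup G} (k : A ≤ h.perp B) (kB : B ≤ E) : B ≤ h.perp A :=
  fun b hb => ⟨kB hb, fun a ha _ => by rw [h.symm]; exact (k ha).2 b hb (kB hb)⟩

variable [Finite G]

theorem exists_three (k : A ≤ E) (k3 : 4 < Nat.card A) (ha : a ∈ E) (hb : b ∈ E) :
    ∃ c ∈ A, c ≠ 1 ∧ c ≠ a ∧ c ≠ b ∧ c ≠ a * b := by
  classical
  by_contra! k1
  have : Nat.card A ≤ ({1, a, b, a * b} : Finset G).card := by
    rw [← Fintype.card_coe, ← Nat.card_eq_fintype_card]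
    exact Nat.card_le_card_of_injective (fun x : A => (⟨x.1, by
      have := k1 x x.2; simp only [Finset.mem_insert, Finset.mem_singleton]; tauto⟩ :
        ({1, a, b, a * b} : Finset G))) fun x y e => Subtype.ext (congrArg (·.1) e)
  have := Finset.card_le_four (a := (1 : G)) (b := a) (c := b) (d := a * b)
  omega

theorem exists_sing (s : SO β Q E) (k : A ≤ E) (k3 : 4 < Nat.card A) :
    ∃ x ∈ A, x ≠ 1 ∧ Q x = 0 := by
  by_contra! k1
  replace k1 : ∀ x ∈ A, x ≠ 1 → Q x = 1 := fun x hx h1 => (z2 _).resolve_left (k1 x hx h1)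
  have k2 : ∀ x ∈ A, ∀ y ∈ A, x ≠ 1 → y ≠ 1 → x ≠ y → β x y = 1 := fun x hx y hy x1 y1 xy => by
    have := s x (k hx) y (k hy)
    rw [k1 x hx x1, k1 y hy y1, k1 _ (mul_mem hx hy) (by
      rwa [Ne, mul_eq_one_iff_eq_inv, h.inv (k hy)]), z2_add, zero_add] at this
    exact this.symm
  obtain ⟨a, ha, a1, -⟩ := h.exists_three k k3 (one_mem _) (one_mem _)
  obtain ⟨b, hb, b1, ba, -⟩ := h.exists_three k k3 (k ha) (one_mem _)
  obtain ⟨c, hc, c1, ca, cb, cab⟩ := h.exists_three k k3 (k ha) (k hb)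
  have := k2 c hc _ (mul_mem ha hb) c1 (by
    rw [Ne, mul_eq_one_iff_eq_inv, h.inv (k hb)]; exact ba.symm) cab
  rw [h.addr (k hc) (k ha) (k hb), k2 c hc a ha c1 a1 ca, k2 c hc b hb c1 b1 cb] at this
  exact absurd this (by decide)

end Nd

variable [Finite G]

theorem lt_of_sq {n m : ℕ} (h : 64 ≤ n) (k : n ≤ m * m) : 8 ≤ m := by
  by_contra! k1
  nlinarith

theorem half_so (h : Gd H β Q E) (h' : Gd H β Q F) (s : SO β Q E) (s' : SO β Q F)
    (hc : Nat.card F = Nat.card E) (hI : ∀ a ∈ E, a ∈ F → Q a = 0 → a = 1) (he : e ∈ E)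
    (eN : e ∈ normalizer (F : Set G)) (e1 : e ≠ 1) (qe : Q e = 0) :
    (∀ u ∈ E, u ∈ normalizer (F : Set G) → Q u = 0) ∧
    (∃ v ∈ F, v ∈ normalizer (E : Set G) ∧ Q v ≠ 0) ∧
    ∃ f ∈ F, f ∈ normalizer (E : Set G) ∧ f ≠ 1 ∧ Q f = 0 := by
  have e2 := h.two e he
  have hW := h'.perp_cent_le eN e2
  set C := F ⊓ centralizer {e}
  have IC : E ⊓ F ≤ C := fun a ha => ⟨ha.2, mem_centralizer_singleton_iff.2 (h.comm ha.1 he)⟩
  have r1 : (E ⊓ F) ⊓ h'.perp (E ⊓ F) ≤ F := inf_le_left.trans inf_le_right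
  have r2 : h'.perp C ≤ h'.perp ((E ⊓ F) ⊓ h'.perp (E ⊓ F)) := h'.perp_anti (inf_le_left.trans IC)
  have r3 := sup_le h'.perp_le r1 (a := h'.perp C)
  obtain ⟨L, L1, L2⟩ := h'.exists_lag (A := h'.perp C ⊔ (E ⊓ F) ⊓ h'.perp (E ⊓ F)) (sup_le
    (h'.le_perp_comm (sup_le (h'.le_perp_perp inf_le_left |>.trans' hW)
      (h'.le_perp_comm r2 r1)) h'.perp_le)
    (h'.le_perp_comm (sup_le r2 (inf_le_right.trans (h'.perp_anti inf_le_left))) r1))
  have LF : L ≤ F := L2.ge.trans h'.perp_le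
  have LC : L ≤ C := L2.ge.trans ((h'.perp_anti (le_sup_left.trans L1)).trans
    (h'.perp_perp inf_le_left).le)
  have LN : L ≤ normalizer (E : Set G) := fun t ht => h.loc e he e1 qe t (h'.le (LF ht))
    (mem_centralizer_singleton_iff.1 (LC ht).2)
  have Lb : ∀ a ∈ L, ∀ b ∈ L, β a b = 0 := fun a ha b hb => (L2.ge ha).2 b hb (LF hb)
  have Lc := h'.card_perp LF
  rw [L2, hc] at Lc
  let T : Subgroup G :=
    { carrier := {t | t ∈ L ∧ Q t = 0}
      one_mem' := ⟨one_mem _, h.q_one s⟩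
      mul_mem' := fun ha hb => ⟨mul_mem ha.1 hb.1, by
        rw [s' _ (LF ha.1) _ (LF hb.1), ha.2, hb.2, Lb _ ha.1 _ hb.1]; rfl⟩
      inv_mem' := fun ha => by rw [h'.inv (LF ha.1)]; exact ha }
  have TL : T ≤ L := fun _ ht => ht.1
  have Tc : Nat.card L ≤ 2 * Nat.card T := by
    by_cases k : L ≤ T
    · have := card_le_of_le k; omega
    obtain ⟨v, hv, k⟩ := SetLike.not_le_iff_exists.1 k
    refine (card_two TL hv k fun x hx => ?_).le
    rcases z2 (Q x) with e | e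
    · exact .inl ⟨hx, e⟩
    · refine .inr ⟨mul_mem hx hv, ?_⟩
      rw [s' _ (LF hx) _ (LF hv), e, (z2 _).resolve_left fun e => k ⟨hv, e⟩, Lb _ hx _ hv]; rfl
  have L8 := lt_of_sq h.big Lc.ge
  set E₀ := E ⊓ normalizer (F : Set G)
  have TC : ∀ t ∈ T, ∀ a ∈ E₀, a * t = t * a := fun t ht a ha => by
    have t2 := h'.two t (LF ht.1)
    have e3 : t * a * t⁻¹ * a = t * (a * t * a⁻¹) := by
      rw [h.inv ha.1, h'.inv (LF ht.1)]; group
    have u1 := Nd.cm (LN ht.1) ha.1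
    have u2 : t * a * t⁻¹ * a ∈ F := e3 ▸ mul_mem (LF ht.1) (Nd.cj ha.2 (LF ht.1))
    have u3 : t * a * t⁻¹ * a ∈ L := L1 (mem_sup_right ⟨⟨u1, u2⟩, u2, fun c hc _ =>
      (h.cm_perp (LN ht.1) ha.1).2 c (mem_centralizer_singleton_iff.2 (h'.comm hc.2 (LF ht.1)))
        hc.1⟩)
    have u4 := s' t (LF ht.1) _ u2
    rw [Lb _ ht.1 _ u3, e3, ← mul_assoc, t2, one_mul, h.qconj a (h.le ha.1), ← e3, add_zero,
      left_eq_add] at u4
    have := hI _ u1 u2 u4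
    rw [mul_eq_one_iff_eq_inv, h.inv ha.1, mul_inv_eq_iff_eq_mul] at this
    exact this.symm
  have TE : ∀ t ∈ T, t ≠ 1 → E ⊓ centralizer {t} = E₀ := fun t ht t1 => le_antisymm
    (fun a ha => ⟨ha.1, h'.loc t (LF ht.1) t1 ht.2 a (h.le ha.1)
      (mem_centralizer_singleton_iff.1 ha.2)⟩)
    fun a ha => ⟨ha.1, mem_centralizer_singleton_iff.2 (TC t ht a ha)⟩
  obtain ⟨t, ht, t1⟩ := exists_not_mem_of_card (A := ⊥) (B := T) (by rw [card_bot]; omega)
  obtain ⟨t', ht', t2⟩ := exists_not_mem_of_card (A := ⊥ ⊔ zpowers t) (B := T) (by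
    rw [h'.card_sup bot_le (LF ht.1) t1, card_bot]; omega)
  rw [h'.mem_sup bot_le (LF ht.1), mem_bot, mem_bot, not_or] at t2
  rw [mem_bot] at t1
  have pE : h.perp E₀ ≤ E₀ := TE t ht t1 ▸ h.perp_cent_le (LN ht.1) (h'.two t (LF ht.1))
  have q1 : ∀ t ∈ T, t ≠ 1 → ∀ u ∈ h.perp E₀, β t u = Q u := fun t ht t1 u hu => by
    obtain ⟨a, ha, rfl⟩ := h.exists_cm (LN ht.1) (h'.two t (LF ht.1)) (TE t ht t1 ▸ hu)
    rw [h.key (LN ht.1) (h'.two t (LF ht.1)) ha, h.q_cm s (LN ht.1) (h'.le (LF ht.1)) ha]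
  have q2 : ∀ u ∈ h.perp E₀, Q u = 0 := fun u hu => by
    rw [← q1 _ (mul_mem ht' ht) t2.2 u hu, h.add _ _ _ (TC _ ht' _ (pE hu)).symm
      (TC _ ht _ (pE hu)).symm (h.two u hu.1), q1 _ ht t1 u hu, q1 _ ht' t2.1 u hu, z2_add]
  have b1 := h.alt_bound (TL.trans LN) (A := E₀) inf_le_left (fun k => t1 (hI t
    (h.mem_of_cent fun a ha => (TC t ht a (k.ge ha)).symm) (LF ht.1) ht.2)) TE fun t ht a ha => by
      rw [← h.q_cm s (LN ht.1) (h'.le (LF ht.1)) ha]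
      by_cases t1 : t = 1
      · rw [t1, one_mul, inv_one, mul_one, h.two a ha, h.q_one s]
      · exact q2 _ (h.perp_anti ((TE t ht t1).ge.trans inf_le_right) (h.cm_perp (LN ht.1) ha))
  have b2 := h.card_le_sq inf_le_left pE
  have b3 := h.card_perp (A := E₀) inf_le_left
  have b4 : Nat.card E₀ ≤ Nat.card L := by nlinarith
  have b5 : Nat.card L ≤ Nat.card E₀ := by nlinarith
  refine ⟨fun u hu hu' => q2 u ((eq_of_le_of_card_ge pE (by nlinarith)).ge ⟨hu, hu'⟩), ?_,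
    t, LF ht.1, LN ht.1, t1, ht.2⟩
  obtain ⟨v, hv, k⟩ := exists_not_mem_of_card (A := T) (B := L) (by nlinarith)
  exact ⟨v, LF hv, LN hv, fun e => k ⟨hv, e⟩⟩

theorem Gd.cent_le (h : Gd H β Q E) (h' : Gd H β Q F) (ht : t ∈ F) (t1 : t ≠ 1) (qt : Q t = 0) :
    E ⊓ centralizer {t} ≤ E ⊓ normalizer (F : Set G) := fun a ha =>
  ⟨ha.1, h'.loc t ht t1 qt a (h.le ha.1) (mem_centralizer_singleton_iff.1 ha.2)⟩

theorem Gd.card_le (h : Gd H β Q E) (h' : Gd H β Q F) (ht : t ∈ F) (t1 : t ≠ 1) (qt : Q t = 0)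
    (tN : t ∈ normalizer (E : Set G)) : Nat.card E ≤
      Nat.card ↥(E ⊓ normalizer (F : Set G)) * Nat.card ↥(E ⊓ normalizer (F : Set G)) :=
  (h.card_le_sq inf_le_left (h.perp_cent_le tN (h'.two t ht))).trans
    (Nat.mul_self_le_mul_self (card_le_of_le (h.cent_le h' ht t1 qt)))

theorem false_lu (h : Gd H β Q E) (h' : Gd H β Q F) (s : LU H β Q E) (s' : ∀ a ∈ F, Q a = 0)
    (hc : Nat.card F = Nat.card E) (hI : ∀ a ∈ E, a ∈ F → a = 1) (ht : t ∈ F)
    (tN : t ∈ normalizer (E : Set G)) (t1 : t ≠ 1) : False := by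
  have b1 := h.card_le h' ht t1 (s' t ht) tN
  have b2 := lt_of_sq h.big b1
  obtain ⟨e, he, e1⟩ := exists_not_mem_of_card (A := ⊥) (B := E ⊓ normalizer (F : Set G))
    (by rw [card_bot]; omega)
  have b3 := h'.card_le h he.1 e1 (s.1 e he.1) he.2
  have b4 := lt_of_sq h'.big b3
  set E₀ := E ⊓ normalizer (F : Set G)
  set T := F ⊓ normalizer (E : Set G)
  have TC : ∀ t ∈ T, ∀ a ∈ E₀, a * t = t * a := fun t ht a ha => by
    have e3 : t * a * t⁻¹ * a = t * (a * t * a⁻¹) := by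
      rw [h.inv ha.1, h'.inv ht.1]; group
    have := hI _ (Nd.cm ht.2 ha.1) (e3 ▸ mul_mem ht.1 (Nd.cj ha.2 ht.1))
    rw [mul_eq_one_iff_eq_inv, h.inv ha.1, mul_inv_eq_iff_eq_mul] at this
    exact this.symm
  have TE : ∀ t ∈ T, t ≠ 1 → E ⊓ centralizer {t} = E₀ := fun t ht t1 => le_antisymm
    (h.cent_le h' ht.1 t1 (s' t ht.1))
    fun a ha => ⟨ha.1, mem_centralizer_singleton_iff.2 (TC t ht a ha)⟩
  have q1 : ∀ u ∈ E₀, ∀ t ∈ T, β t u = 0 := fun u hu t ht => by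
    by_contra k
    replace k := (z2 _).resolve_left k
    obtain ⟨τ, hτ, -, k1⟩ := s.2 u hu.1
    obtain ⟨r, hr, r1, r2⟩ : ∃ r ∈ T, r ≠ 1 ∧ β r u = 0 := by
      obtain ⟨c, hc, c1, c2, -⟩ := h'.exists_three (A := T) inf_le_left (by omega) ht.1 (one_mem _)
      rcases z2 (β c u) with e | e
      · exact ⟨c, hc, c1, e⟩
      · exact ⟨c * t, mul_mem hc ht, by rwa [Ne, mul_eq_one_iff_eq_inv, h'.inv ht.1], by
          rw [h.add _ _ _ (TC c hc u hu).symm (TC t ht u hu).symm (h.two u hu.1), e, k]; rfl⟩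
    have k2 := h'.loc r hr.1 r1 (s' r hr.1) τ hτ ((k1 r (TC r hr u hu).symm).1 r2).1.symm
    have k3 := (k1 t (TC t ht u hu).symm).2 k
    have k4 := hI u hu.1 (by
      rw [← mul_inv_eq_iff_eq_mul.2 k3]
      simpa [mul_assoc] using mul_mem ht.1 (Nd.cj k2 (inv_mem ht.1)))
    rw [k4, h.one_right (h'.two t ht.1)] at k
    exact absurd k (by decide)
  have b5 := h.alt_bound (T := T) inf_le_right (A := E₀) inf_le_left (fun k => t1 (hI t
    (h.mem_of_cent fun a ha => (TC t ⟨ht, tN⟩ a (k.ge ha)).symm) ht)) TE fun t ht a ha => by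
      rw [← h.key ht.2 (h'.two t ht.1) ha]
      by_cases t1 : t = 1
      · rw [t1, h.one_left (by simpa using h.two _ (mul_mem ha ha))]
      · exact q1 _ ((TE t ht t1).le ⟨Nd.cm ht.2 ha, mem_centralizer_singleton_iff.2
          (h.cm_comm ht.2 (h'.two t ht.1) ha).symm⟩) t ht
  rw [hc] at b3
  nlinarith [Nat.mul_le_mul b1 b3]

/-- A singular element lies in the normaliser of only one conjugate. -/
theorem Gd.ti (h : Gd H β Q E) (s : SO β Q E ∨ LU H β Q E) (hx : x ∈ E) (x1 : x ≠ 1)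
    (qx : Q x = 0) (hg : g ∈ H) (k : g * x * g⁻¹ ∈ normalizer (E : Set G)) :
    g ∈ normalizer (E : Set G) := by
  by_contra hn
  have hF : ∀ y, y ∈ E.comap (MulAut.conj g⁻¹).toMonoidHom ↔ g⁻¹ * y * g ∈ E := fun y => by simp
  generalize E.comap (MulAut.conj g⁻¹).toMonoidHom = F at hF
  have h' := h.conjugate hg hF
  have hI : ∀ a ∈ E, a ∈ F → Q a = 0 → a = 1 := fun a ha ha' qa => by
    by_contra a1
    obtain ⟨n, n1, n2, n3⟩ := h.trans a ha _ ((hF a).1 ha') a1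
      (fun k => a1 (by simpa [mul_assoc, inv_mul_eq_one, eq_comm] using k)) qa
      (by rwa [h.qconj' hg])
    refine hn ((mul_mem_cancel_right n2).1 (h.loc a ha a1 qa _ (mul_mem hg n1) ?_))
    calc g * n * a = g * (n * a * n⁻¹) * n := by group
      _ = _ := by rw [n3]; group
  have f1 : g * x * g⁻¹ ∈ F := (hF _).2 (by convert hx using 1; group)
  have f2 : g * x * g⁻¹ ≠ 1 := by simpa using x1
  rcases s with s | s
  · have s' := s.conjugate h.toBt hg hF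
    obtain ⟨a1, -, e, e1, e2, e3, e4⟩ := half_so h' h s' s (card_conj hF).symm
      (fun a ha ha' => hI a ha' ha) f1 k f2 (by rwa [h.qconj g hg])
    obtain ⟨-, ⟨v, v1, v2, v3⟩, -⟩ := half_so h h' s s' (card_conj hF) hI e1 e2 e3 e4
    exact v3 (a1 v v1 v2)
  · exact false_lu h h' s (fun a ha => by rw [← h.qconj' hg, s.1 _ ((hF a).1 ha)]) (card_conj hF)
      (fun a ha ha' => hI a ha ha' (s.1 a ha)) f1 k f2

end Cfsg.Lib.C6B
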