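import Cfsg.Agent.Lib.C6.BigB

/-! Commutators of isometries of a quadratic space over `F₂` with products of two reflections. -/

set_option autoImplicit false

namespace Cfsg.Lib.C6B

section add

variable {V : Type*} [AddCommGroup V] [Module (ZMod 2) V]

/-- A quadratic space over the field with two elements. -/
structure QS (B : V → V → ZMod 2) (Q : V → ZMod 2) : Prop where
  addl : ∀ a b c, B (a + b) c = B a c + B b c
  symm : ∀ a b, B a b = B b a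
  self : ∀ a, B a a = 0
  q : ∀ a b, Q (a + b) = Q a + Q b + B a b

/-- Reflection. -/
def rf (B : V → V → ZMod 2) (a v : V) : V := v + B v a • a

structure Iso (B : V → V → ZMod 2) (Q : V → ZMod 2) (f : V → V) : Prop where
  add : ∀ a b, f (a + b) = f a + f b
  b : ∀ a b, B (f a) (f b) = B a b
  q : ∀ a, Q (f a) = Q a

variable {B : V → V → ZMod 2} {Q : V → ZMod 2} {a b c v : V}

theorem add_self' (a : V) : a + a = 0 := by
  rw [← two_smul (ZMod 2), show (2 : ZMod 2) = 0 from rfl, zero_smul]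

theorem add_eq_zero'' : a + b = 0 ↔ a = b :=
  ⟨fun h => by rw [← add_zero a, ← add_self' b, ← add_assoc, h, zero_add], fun h => h ▸ add_self' a⟩

theorem rf_zero (h : B v a = 0) : rf B a v = v := by simp [rf, h]

theorem rf_one (h : B v a = 1) : rf B a v = v + a := by simp [rf, h]

namespace QS
variable (h : QS B Q)
include h

theorem addr (a b c : V) : B a (b + c) = B a b + B a c := by
  rw [h.symm, h.addl, h.symm b, h.symm c]

theorem zero_left (a : V) : B 0 a = 0 := by simpa [z2_add] using h.addl 0 0 a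

theorem q_zero : Q 0 = 0 := by simpa [z2_add, h.self] using h.q 0 0

theorem smul_left (c : ZMod 2) (a b : V) : B (c • a) b = c * B a b := by
  rcases z2 c with rfl | rfl <;> simp [h.zero_left]

theorem rf_rf (a v : V) : rf B a (rf B a v) = v := by
  simp only [rf, h.addl, h.smul_left, h.self, mul_zero, add_zero, add_assoc, add_self']

theorem rf_conj (a b v : V) : rf B a (rf B b (rf B a v)) = rf B (rf B a b) v := by
  have := h.symm a b
  rcases z2 (B v a) with e1 | e1 <;> rcases z2 (B v b) with e2 | e2 <;>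
    rcases z2 (B b a) with e3 | e3 <;>
    simp [rf, h.addl, h.addr, h.smul_left, h.self, e1, e2, e3, this, z2_add, add_assoc, add_self',
      add_comm a b]

theorem fix {K D : Set (V → V)} (hK : K ⊆ D) (hD : ∀ f ∈ D, Iso B Q f)
    (k1 : ∀ f ∈ D, ∀ a b, Q a = 1 → Q b = 1 →
      ∃ k ∈ K, ∀ v, k v = rf B (f a) (rf B (f b) (rf B b (rf B a v))))
    (np : ∀ k ∈ K, ∀ p q, Q p = 1 → Q q = 1 → B p q = 1 → ¬ ∀ v, k v = rf B p (rf B q v))
    (dual : ∀ a b, a ≠ 0 → a ≠ b → ∃ v, B v b = 0 ∧ B v a = 1)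
    (dual3 : ∀ a b c, a ≠ 0 → a ≠ b → a ≠ c → a ≠ b + c → ∃ v, B v b = 0 ∧ B v c = 0 ∧ B v a = 1)
    (sing : ∀ p q, Q p = 1 → Q q = 1 → B p q = 1 → ∃ s, s ≠ 0 ∧ Q s = 0 ∧ B s p = 0 ∧ B s q = 0)
    (pq : ∃ p q, Q p = 1 ∧ Q q = 1 ∧ B p q = 1) {f : V → V} (hf : f ∈ D) (ha : Q a = 1) :
    f a = a := by
  have n0 : ∀ {a}, Q a = 1 → a ≠ 0 := by
    rintro _ e rfl; rw [h.q_zero] at e; exact absurd e (by decide)
  have np' : ∀ k ∈ K, ∀ p q, Q p = 1 → Q q = 1 → (∀ v, k v = rf B p (rf B q v)) → p = q := by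
    intro k hk p q hp hq e
    by_contra hne
    rcases z2 (B p q) with e1 | e1
    swap; · exact np k hk p q hp hq e1 e
    obtain ⟨v, v1, v2, v3⟩ : ∃ v, B v q = 0 ∧ B v p = 1 ∧ Q v = 1 := by
      obtain ⟨v, v1, v2⟩ := dual p q (n0 hp) hne
      rcases z2 (Q v) with e2 | e2
      · exact ⟨v + q, by rw [h.addl, v1, h.self, add_zero],
          by rw [h.addl, v2, h.symm, e1, add_zero], by rw [h.q, e2, hq, v1]; rfl⟩
      · exact ⟨v, v1, v2, e2⟩
    obtain ⟨k', hk', e2⟩ := k1 k (hK hk) v q v3 hq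
    rw [e, e, rf_zero v1, rf_one v2, rf_zero (h.self q), rf_zero (h.symm p q ▸ e1)] at e2
    exact np k' hk' (v + p) v (by rw [h.q, v3, hp, v2]; rfl) v3
      (by rw [h.addl, h.self, h.symm, v2, zero_add]) fun w => by rw [e2, h.rf_rf]
  have f2 : ∀ f ∈ D, ∀ a b, Q a = 1 → Q b = 1 → f b = b → f a = a := fun f hf a b ha hb e => by
    obtain ⟨k, hk, e1⟩ := k1 f hf a b ha hb
    exact np' k hk _ _ (by rw [(hD f hf).q, ha]) ha fun v => by rw [e1, e, h.rf_rf]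
  have I := hD f hf
  have f3 : ∀ a, Q a = 1 → f (f a) = rf B (f a) a := fun a ha => by
    obtain ⟨k, hk, e1⟩ := k1 f hf a (f a) ha (by rw [I.q, ha])
    refine (h.rf_rf (f a) _).symm.trans (congrArg _
      (np' k hk (rf B (f a) (f (f a))) a ?_ ha fun v => by rw [e1, h.rf_conj]))
    rcases z2 (B (f (f a)) (f a)) with e | e
    · rw [rf_zero e, I.q, I.q, ha]
    · rw [rf_one e, h.q, e, I.q, I.q, ha]; rfl
  by_contra hne
  have nf : ∀ b, Q b = 1 → f b ≠ b := fun b hb e => hne (f2 f hf a b ha hb e)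
  by_cases hA : ∃ s, Q s = 1 ∧ B s (f s) = 1
  · obtain ⟨s, s1, s2⟩ := hA
    have t : ∀ u, Q u = 1 → B u (f u) = 1 → f (f u) = u + f u := fun u u1 u2 => by
      rw [f3 u u1, rf_one u2]
    have U : ∀ w, B w s = 0 → B w (f s) = 0 → B (f w) s = 0 ∧ B (f w) (f s) = 0 := fun w w1 w2 => by
      have e1 := I.b w s
      have e2 := I.b w (f s)
      rw [t s s1 s2, h.addr, e1, w1, w2, add_zero] at e2
      exact ⟨e2, e1.trans w1⟩
    have U2 : ∀ w, Q w = 0 → B w s = 0 → B w (f s) = 0 → f (f w) = w + f w := fun w w0 w1 w2 => by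
      have e1 : Q (s + w) = 1 := by rw [h.q, s1, w0, h.symm, w1]; rfl
      have e2 := f3 _ e1
      rw [I.add, I.add, t s s1 s2] at e2
      rcases z2 (B (s + w) (f s + f w)) with e | e
      · have := congrArg (B · s) e2
        simp only [rf_zero e, h.addl, h.self, h.symm (f s), s2, w1,
          (U _ (U w w1 w2).1 (U w w1 w2).2).1] at this
        exact absurd this (by decide)
      · rw [rf_one e] at e2
        exact add_left_cancel (a := s + f s) (by rw [e2]; abel)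
    obtain ⟨w, w0, w1, w2, w3⟩ := sing s (f s) s1 (by rw [I.q, s1]) s2
    obtain ⟨u, u1, u2, u3, u4⟩ : ∃ u, B u s = 0 ∧ B u (f s) = 0 ∧ B u w = 1 ∧ Q u = 1 := by
      obtain ⟨u, u1, u2, u3⟩ := dual3 w s (f s) w0 (by rintro rfl; simp [s2] at w3)
        (by rintro rfl; simp [h.symm (f s), s2] at w2)
        (by rintro rfl; simp [h.addl, h.self, s2] at w3)
      rcases z2 (Q u) with e | e
      · exact ⟨u + w, by rw [h.addl, u1, w2, add_zero], by rw [h.addl, u2, w3, add_zero],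
          by rw [h.addl, u3, h.self, add_zero], by rw [h.q, e, w1, u3]; rfl⟩
      · exact ⟨u, u1, u2, u3, e⟩
    obtain ⟨u5, u6⟩ := U u u1 u2
    have u7 : B u (f u) = 1 := (z2 _).resolve_left fun e => by
      have e1 := U2 (u + f u) (by rw [h.q, I.q, u4, e]; rfl) (by rw [h.addl, u1, u5, add_zero])
        (by rw [h.addl, u2, u6, add_zero])
      simp only [I.add, f3 u u4, rf_zero e] at e1
      rw [add_comm (f u) u, add_self', add_eq_zero''] at e1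
      exact nf u u4 e1.symm
    obtain ⟨k, hk, e⟩ := k1 f hf s u s1 u4
    obtain ⟨z, z0, z1, z3, z4, z5⟩ : ∃ z, Q z = 1 ∧ B z s = 0 ∧ B z (f s) = 0 ∧ B z u = 0 ∧
        B z (f u) = 0 := by
      rcases z2 (B w (f u)) with e | e
      · refine ⟨w + f u, ?_, ?_, ?_, ?_, ?_⟩ <;>
          simp [h.q, h.addl, I.q, w1, w2, w3, u4, u5, u6, e, h.symm w u, h.symm (f u) u, u3, u7,
            h.self, z2_add]
      · refine ⟨w + f u + u, ?_, ?_, ?_, ?_, ?_⟩ <;>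
          simp [h.q, h.addl, I.q, w1, w2, w3, u4, u5, u6, e, h.symm w u, h.symm (f u) u, u3, u7,
            h.self, z2_add, u1, u2]
    have := f2 k (hK hk) s z s1 z0 (by rw [e, rf_zero z1, rf_zero z4, rf_zero z5, rf_zero z3])
    rw [e, rf_zero (h.self s), rf_zero ((h.symm s u).trans u1),
      rf_zero ((h.symm s (f u)).trans u5), rf_one s2, add_eq_left] at this
    exact n0 (I.q s ▸ s1) this
  push Not at hA
  replace hA : ∀ s, Q s = 1 → B s (f s) = 0 := fun s e => (z2 _).resolve_right (hA s e)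
  replace f3 : ∀ s, Q s = 1 → f (f s) = s := fun s e => by rw [f3 s e, rf_zero (hA s e)]
  obtain ⟨p, q, hp, hq, e⟩ := pq
  obtain ⟨s, s0, s1, s2, s3⟩ := sing p q hp hq e
  have hr : Q (p + q) = 1 := by rw [h.q, hp, hq, e]; rfl
  obtain ⟨u, u1, u2, u3, u4⟩ : ∃ u, Q u = 1 ∧ B s u = 0 ∧ B s (f u) = 0 ∧ s ≠ u + f u := by
    have e1 : B (f p) q = B p (f q) := by rw [← I.b, f3 p hp]
    have c : ∀ p q, Q p = 1 → Q q = 1 → Q (p + q) = 1 → B s q = 0 → s = p + f p →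
        ∃ u, Q u = 1 ∧ B s u = 0 ∧ B s (f u) = 0 ∧ s ≠ u + f u := fun p q hp hq hr s3 e1 => by
      refine ⟨q, hq, s3, ?_, fun e2 => nf _ hr ?_⟩
      · rw [← I.b, f3 q hq, e1, I.add, f3 p hp, add_comm, ← e1, s3]
      · rw [I.add, ← add_eq_zero'', add_add_add_comm, add_comm (f p), add_comm (f q), ← e1, ← e2,
          add_self']
    by_cases c1 : s = p + f p
    · exact c p q hp hq hr s3 c1
    by_cases c2 : s = q + f q
    · exact c q p hq hp (by rwa [add_comm]) s2 c2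
    by_cases c3 : s = p + q + f (p + q)
    · exact c _ p hr hp (by rwa [add_right_comm, add_self', zero_add]) s2 c3
    rcases z2 (B s (f p)) with e2 | e2
    · exact ⟨p, hp, s2, e2, c1⟩
    rcases z2 (B s (f q)) with e3 | e3
    · exact ⟨q, hq, s3, e3, c2⟩
    exact ⟨p + q, hr, by rw [h.addr, s2, s3, add_zero], by rw [I.add, h.addr, e2, e3]; rfl, c3⟩
  have t1 : Q (u + s) = 1 := by rw [h.q, u1, s1, h.symm, u2]; rfl
  have t2 : B u (u + s) = 0 := by rw [h.addr, h.self, h.symm, u2, add_zero]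
  have t3 : B (u + s) (f u) = 0 := by rw [h.addl, hA u u1, u3, add_zero]
  have t4 : B u (f (u + s)) = 0 := by rw [← I.b, f3 _ t1, h.symm, t3]
  obtain ⟨k, hk, e1⟩ := k1 f hf u (u + s) u1 t1
  have k2 := fun v hv => f2 k (hK hk) v u hv u1 (by
    rw [e1, rf_zero (h.self u), rf_zero t2, rf_zero t4, rf_zero (hA u u1)])
  obtain ⟨v, v1, v2, v3, v4⟩ : ∃ v, B v (u + s) = 0 ∧ B v (f u) = 0 ∧ B v u = 1 ∧ Q v = 1 := by
    obtain ⟨v, v1, v2, v3⟩ := dual3 u (u + s) (f u) (n0 u1) (by simpa using s0) (nf u u1).symm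
      (fun e => by
        rw [add_assoc, left_eq_add, add_eq_zero''] at e
        rw [e, I.q, u1] at s1
        exact absurd s1 (by decide))
    rcases z2 (Q v) with e | e
    · exact ⟨v + (u + s), by rw [h.addl, v1, h.self, add_zero], by rw [h.addl, v2, t3, add_zero],
        by rw [h.addl, v3, h.symm, t2, add_zero], by rw [h.q, e, t1, v1]; rfl⟩
    · exact ⟨v, v1, v2, v3, e⟩
  have k3 := k2 v v4
  have t5 : B (v + u) (f u) = 0 := by rw [h.addl, v2, hA u u1, add_zero]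
  rw [e1, rf_one v3, rf_zero (show B (v + u) (u + s) = 0 by rw [h.addl, v1, t2, add_zero])] at k3
  rcases z2 (B (v + u) (f (u + s))) with e2 | e2
  · rw [rf_zero e2, rf_zero t5, add_eq_left] at k3
    exact n0 u1 k3
  · rw [rf_one e2, rf_zero (by rw [h.addl, t5, I.b, h.symm, t2, add_zero]), add_assoc, add_eq_left,
      add_eq_zero''] at k3
    refine u4 ?_
    rw [k3, f3 _ t1, ← k3, ← add_assoc, add_self', zero_add]

end QS

end add

open Subgroup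

variable {G : Type*} [Group G] {H E A : Subgroup G} {β : G → G → ZMod 2} {Q : G → ZMod 2}
  {a b c d e x y : G}

/-- Reflection, multiplicatively. -/
def Rf (β : G → G → ZMod 2) (a e : G) : G := if β e a = 0 then e else e * a

theorem Rf_zero (k : β e a = 0) : Rf β a e = e := if_pos k

theorem Rf_one (k : β e a = 1) : Rf β a e = e * a := if_neg (by rw [k]; decide)

theorem Rf_mem (ha : a ∈ E) (he : e ∈ E) : Rf β a e ∈ E := by
  unfold Rf; split_ifs; exacts [he, mul_mem he ha]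

namespace Nd
variable (h : Nd H β Q E)
include h

theorem Rf_Rf (ha : a ∈ E) (he : e ∈ E) : Rf β a (Rf β a e) = e := by
  rcases z2 (β e a) with k | k
  · rw [Rf_zero k, Rf_zero k]
  · rw [Rf_one k, Rf_one (by rw [h.addl he ha ha, k, h.self, add_zero]), mul_assoc, h.two a ha,
      mul_one]

theorem Rf_conj (g : G) : g * Rf β a e * g⁻¹ = Rf β (g * a * g⁻¹) (g * e * g⁻¹) := by
  unfold Rf; rw [h.conj]; split_ifs <;> group

variable [Finite G]

theorem exists_dual3 (ha : a ∈ E) (hb : b ∈ E) (hc : c ∈ E) (h1 : a ≠ 1) (h2 : a ≠ b) (h3 : a ≠ c)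
    (h4 : a ≠ b * c) : ∃ v ∈ E, β v b = 0 ∧ β v c = 0 ∧ β v a = 1 := by
  have k1 := h.sup_le' bot_le hb
  obtain ⟨v, hv, e⟩ := h.exists_dual (h.sup_le' k1 hc) ha (by
    simp only [h.mem_sup k1 hc, h.mem_sup bot_le hb, mem_bot, mul_eq_one_iff_eq_inv, h.inv hb,
      h.inv hc, ← eq_mul_inv_iff_mul_eq, one_mul]
    tauto)
  rw [h.mem_perp_sup k1 hc, h.mem_perp_sup bot_le hb] at hv
  exact ⟨v, hv.1.1.1, hv.1.2, hv.2, e⟩

theorem card_perp_two (ha : a ∈ E) (hb : b ∈ E) :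
    ∃ A ≤ E, Nat.card E ≤ 4 * Nat.card A ∧ ∀ e ∈ A, β e a = 0 ∧ β e b = 0 := by
  have k1 := h.sup_le' bot_le ha
  have k2 := h.card_perp (h.sup_le' k1 hb)
  have k3 : ∀ {A : Subgroup G} {a}, A ≤ E → a ∈ E → Nat.card ↥(A ⊔ zpowers a) ≤ 2 * Nat.card A :=
    fun {A a} k ha => by
      by_cases hn : a ∈ A
      · rw [sup_eq_left.2 ((zpowers_le).2 hn)]; omega
      · exact (h.card_sup k ha hn).le
  have k4 := k3 bot_le ha
  have k5 := k3 k1 hb
  rw [card_bot] at k4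
  refine ⟨h.perp ((⊥ ⊔ zpowers a) ⊔ zpowers b), h.perp_le, by nlinarith, fun e k => ?_⟩
  rw [h.mem_perp_sup k1 hb, h.mem_perp_sup bot_le ha] at k
  exact ⟨k.1.2, k.2⟩

theorem exists_pair (k : 4 < Nat.card E) (ha : a ∈ E) (hb : b ∈ E) (k1 : β a b = 1) :
    ∃ c ∈ E, ∃ d ∈ E, β c a = 0 ∧ β c b = 0 ∧ β d a = 0 ∧ β d b = 0 ∧ β d c = 1 := by
  obtain ⟨A, a1, a2, a3⟩ := h.card_perp_two ha hb
  obtain ⟨c, hc, c1⟩ := exists_not_mem_of_card (A := ⊥) (B := A) (by rw [card_bot]; omega)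
  obtain ⟨c2, c3⟩ := a3 c hc
  obtain ⟨d, hd, d1, d2, d3⟩ := h.exists_dual3 (a1 hc) ha hb c1 (by rintro rfl; simp [k1] at c3)
    (by rintro rfl; simp [h.symm c, k1] at c2)
    (by rintro rfl; simp [h.addl ha hb hb, k1, h.self] at c3)
  exact ⟨c, a1 hc, d, hd, c2, c3, d1, d2, d3⟩

theorem exists_ns (s : SO β Q E) (k : 4 < Nat.card E) (ha : a ∈ E) :
    ∃ w ∈ E, Q w = 1 ∧ β w a = 0 := by
  obtain ⟨x, hx, b, hb, k1, k2⟩ : ∃ x ∈ E, ∃ b ∈ E, β x b = 1 ∧ ∀ w, β w x = 0 → w * w = 1 →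
      β w a = 0 := by
    by_cases a1 : a = 1
    · obtain ⟨x, hx, x1⟩ := exists_not_mem_of_card (A := ⊥) (B := E) (by rw [card_bot]; omega)
      obtain ⟨b, hb, e⟩ := h.exists_one hx x1
      exact ⟨b, hb, x, hx, e, fun w _ e => a1 ▸ h.one_right e⟩
    · obtain ⟨b, hb, e⟩ := h.exists_one ha a1
      exact ⟨a, ha, b, hb, by rw [h.symm, e], fun _ e _ => e⟩
  obtain ⟨c, hc, d, hd, c1, -, d1, -, e⟩ := h.exists_pair k hx hb k1
  rcases z2 (Q c) with e1 | e1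
  swap; · exact ⟨c, hc, e1, k2 c c1 (h.two c hc)⟩
  rcases z2 (Q d) with e2 | e2
  swap; · exact ⟨d, hd, e2, k2 d d1 (h.two d hd)⟩
  exact ⟨d * c, mul_mem hd hc, by rw [s d hd c hc, e1, e2, e]; rfl,
    k2 _ (by rw [h.addl hd hc hx, c1, d1, add_zero]) (h.two _ (mul_mem hd hc))⟩

theorem fix (s : SO β Q E) (k4 : 4 < Nat.card E) {K D : Set G} (hK : K ⊆ D)
    (hD : ∀ d ∈ D, d ∈ H ∧ d ∈ normalizer (E : Set G))
    (k1 : ∀ d ∈ D, ∀ a ∈ E, ∀ b ∈ E, Q a = 1 → Q b = 1 → ∃ k ∈ K, ∀ e ∈ E, k * e * k⁻¹ =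
      Rf β (d * a * d⁻¹) (Rf β (d * b * d⁻¹) (Rf β b (Rf β a e))))
    (np : ∀ k ∈ K, ∀ p ∈ E, ∀ q ∈ E, Q p = 1 → Q q = 1 → β p q = 1 →
      ¬ ∀ e ∈ E, k * e * k⁻¹ = Rf β p (Rf β q e))
    (sing : ∀ p ∈ E, ∀ q ∈ E, Q p = 1 → Q q = 1 → β p q = 1 →
      ∃ s ∈ E, s ≠ 1 ∧ Q s = 0 ∧ β s p = 0 ∧ β s q = 0)
    (hd : d ∈ D) (he : e ∈ E) : d * e * d⁻¹ = e := by
  suffices H : ∀ a ∈ E, Q a = 1 → d * a * d⁻¹ = a by
    rcases z2 (Q e) with e1 | e1
    swap; · exact H e he e1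
    obtain ⟨w, hw, w1, w2⟩ := h.exists_ns s k4 he
    have := H _ (mul_mem hw he) (by rw [s w hw e he, w1, w2, e1]; rfl)
    rw [← conj_mul, H w hw w1] at this
    exact mul_left_cancel this
  letI : CommGroup E := { (inferInstance : Group E) with
    mul_comm := fun a b => Subtype.ext (h.comm a.2 b.2) }
  letI : Module (ZMod 2) (Additive E) := AddCommGroup.zmodModule fun x => by
    rw [two_nsmul]; exact Additive.toMul.injective (Subtype.ext (h.two _ x.toMul.2))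
  let B : Additive E → Additive E → ZMod 2 := fun u v => β u.toMul v.toMul
  have qs : QS B fun u => Q u.toMul := ⟨fun a b c => h.addl a.toMul.2 b.toMul.2 c.toMul.2,
    fun _ _ => h.symm _ _, fun _ => h.self _, fun a b => s _ a.toMul.2 _ b.toMul.2⟩
  have r : ∀ a v, ((rf B a v).toMul : G) = Rf β a.toMul v.toMul := fun a v => by
    rcases z2 (B v a) with e | e
    · rw [rf_zero e, Rf_zero (β := β) e]
    · rw [rf_one e, Rf_one (β := β) e]; rfl
  have ex : ∀ {u v : Additive E}, (u.toMul : G) = v.toMul → u = v := fun e =>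
    Additive.toMul.injective (Subtype.ext e)
  let c : ∀ d ∈ D, Additive E → Additive E := fun d hd v =>
    Additive.ofMul ⟨_, cj (hD d hd).2 v.toMul.2⟩
  intro a ha qa
  refine congrArg (fun v : Additive E => (v.toMul : G)) (qs.fix (a := Additive.ofMul ⟨a, ha⟩)
    (K := {f | ∃ d, ∃ hd : d ∈ K, f = c d (hK hd)}) (D := {f | ∃ d, ∃ hd : d ∈ D, f = c d hd})
    (fun _ ⟨d, hd, e⟩ => ⟨d, hK hd, e⟩) ?_ ?_ ?_ ?_ ?_ ?_ ?_ ⟨d, hd, rfl⟩ qa)
  · rintro _ ⟨d, hd, rfl⟩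
    exact ⟨fun a b => ex conj_mul.symm, fun a b => h.conj _ _ _, fun a => h.qconj _ (hD d hd).1 _⟩
  · rintro _ ⟨d, hd, rfl⟩ a b qa qb
    obtain ⟨k, hk, e⟩ := k1 d hd _ a.toMul.2 _ b.toMul.2 qa qb
    exact ⟨_, ⟨k, hk, rfl⟩, fun v => ex (by rw [r, r, r, r]; exact e _ v.toMul.2)⟩
  · rintro _ ⟨k, hk, rfl⟩ p q hp hq e e'
    refine np k hk _ p.toMul.2 _ q.toMul.2 hp hq e fun v hv => ?_
    have := congrArg (fun v : Additive E => (v.toMul : G)) (e' (Additive.ofMul ⟨v, hv⟩))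
    simp only [r] at this
    exact this
  · intro a b a0 ab
    obtain ⟨v, hv, e⟩ := h.exists_two a.toMul.2 b.toMul.2 (fun e => a0 (ex e)) fun e => ab (ex e)
    exact ⟨Additive.ofMul ⟨v, hv⟩, e⟩
  · intro a b c a0 ab ac abc
    obtain ⟨v, hv, e⟩ := h.exists_dual3 a.toMul.2 b.toMul.2 c.toMul.2 (fun e => a0 (ex e))
      (fun e => ab (ex e)) (fun e => ac (ex e)) fun e => abc (ex e)
    exact ⟨Additive.ofMul ⟨v, hv⟩, e⟩
  · intro p q hp hq e
    obtain ⟨v, hv, v1, e⟩ := sing _ p.toMul.2 _ q.toMul.2 hp hq e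
    exact ⟨Additive.ofMul ⟨v, hv⟩, fun e => v1 (congrArg (fun v : Additive E => (v.toMul : G)) e), e⟩
  · have a1 : a ≠ 1 := by rintro rfl; rw [h.q_one s] at qa; exact absurd qa (by decide)
    obtain ⟨v, hv, e⟩ := h.exists_one ha a1
    rcases z2 (Q v) with e1 | e1
    swap; · exact ⟨Additive.ofMul ⟨v, hv⟩, Additive.ofMul ⟨a, ha⟩, e1, qa, e⟩
    obtain ⟨c, hc, d, hd, c1, c2, d1, d2, e2⟩ := h.exists_pair k4 hv ha e
    obtain ⟨w, hw, w1, w2, w3⟩ : ∃ w ∈ E, Q w = 1 ∧ β w v = 0 ∧ β w a = 0 := by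
      rcases z2 (Q c) with e1 | e1
      swap; · exact ⟨c, hc, e1, c1, c2⟩
      rcases z2 (Q d) with e3 | e3
      swap; · exact ⟨d, hd, e3, d1, d2⟩
      exact ⟨d * c, mul_mem hd hc, by rw [s d hd c hc, e1, e3, e2]; rfl,
        by rw [h.addl hd hc hv, c1, d1, add_zero], by rw [h.addl hd hc ha, c2, d2, add_zero]⟩
    exact ⟨Additive.ofMul ⟨w * v, mul_mem hw hv⟩, Additive.ofMul ⟨a, ha⟩,
      show Q (w * v) = 1 by rw [s w hw v hv, w1, e1, w2]; rfl, qa,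
      show β (w * v) a = 1 by rw [h.addl hw hv ha, w3, e, zero_add]⟩

/-- The symplectic version. -/
theorem fix' {K D : Set G} (hK : K ⊆ D) (hD : ∀ d ∈ D, d ∈ normalizer (E : Set G))
    (k1 : ∀ d ∈ D, ∀ a ∈ E, ∃ k ∈ K, ∀ e ∈ E, k * e * k⁻¹ = Rf β (d * a * d⁻¹) (Rf β a e))
    (np : ∀ k ∈ K, ∀ p ∈ E, ∀ q ∈ E, β p q = 1 → ¬ ∀ e ∈ E, k * e * k⁻¹ = Rf β p (Rf β q e))
    (hd : d ∈ D) (he : e ∈ E) : d * e * d⁻¹ = e := by
  by_contra hne
  obtain ⟨k, hk, e1⟩ := k1 d hd e he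
  have hp := cj (hD d hd) he
  have p1 : d * e * d⁻¹ ≠ 1 := fun e => hne (by simp at e; simp [e])
  generalize d * e * d⁻¹ = p at hne e1 hp p1
  rcases z2 (β p e) with e2 | e2
  swap; · exact np k hk p hp e he e2 e1
  obtain ⟨v, hv, v1, v2⟩ := h.exists_two hp he p1 hne
  obtain ⟨k', hk', e3⟩ := k1 k (hK hk) v hv
  rw [e1 v hv, Rf_zero v1, Rf_one v2] at e3
  exact np k' hk' _ (mul_mem hv hp) v hv (by rw [h.addl hv hp hv, h.self, h.symm, v2, zero_add]) e3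

theorem trans_of {Ω : Subgroup G} {Ns : G → Prop}
    (tp : ∀ a ∈ E, ∀ b ∈ E, Ns a → Ns b → ∃ g ∈ Ω, ∀ e ∈ E, g * e * g⁻¹ = Rf β a (Rf β b e))
    (n1 : ∀ a ∈ E, ∀ b ∈ E, Q a = 0 → Q b = 0 → β a b = 1 → Ns (a * b))
    (n2 : ∀ a ∈ E, ∃ w ∈ E, Ns w ∧ β a w = 0)
    (n3 : ∀ a ∈ E, ∀ b ∈ E, Q b = 0 → β a b = 1 → Q a = 0 ∨ Q (a * b) = 0)
    (hx : x ∈ E) (hy : y ∈ E) (x1 : x ≠ 1) (y1 : y ≠ 1) (qx : Q x = 0) (qy : Q y = 0) :
    ∃ g ∈ Ω, g * x * g⁻¹ = y := by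
  have key : ∀ x ∈ E, ∀ y ∈ E, Q x = 0 → Q y = 0 → β x y = 1 → ∃ g ∈ Ω, g * x * g⁻¹ = y := by
    intro x hx y hy qx qy e
    obtain ⟨w, hw, w1, w2⟩ := n2 x hx
    obtain ⟨g, hg, e1⟩ := tp _ (mul_mem hx hy) w hw (n1 x hx y hy qx qy e) w1
    exact ⟨g, hg, by rw [e1 x hx, Rf_zero w2, Rf_one (by rw [h.addr hx hx hy, h.self, e, zero_add]),
      ← mul_assoc, h.two x hx, one_mul]⟩
  rcases z2 (β x y) with e | e
  swap; · exact key x hx y hy qx qy e
  by_cases xy : x = y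
  · exact ⟨1, one_mem _, by simp [xy]⟩
  obtain ⟨v, hv, v1, v2, v3⟩ : ∃ v ∈ E, β v x = 1 ∧ β v y = 1 ∧ Q v = 0 := by
    obtain ⟨v, hv, v1, v2⟩ := h.exists_two hx (mul_mem hx hy) x1 (by simpa using y1)
    rw [h.addr hv hx hy, v2] at v1
    have v3 : β v y = 1 := by revert v1; generalize β v y = p; revert p; decide
    rcases n3 v hv x hx qx v2 with e1 | e1
    · exact ⟨v, hv, v2, v3, e1⟩
    · exact ⟨v * x, mul_mem hv hx, by rw [h.addl hv hx hx, v2, h.self, add_zero],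
        by rw [h.addl hv hx hy, v3, e, add_zero], e1⟩
  obtain ⟨g, hg, e1⟩ := key x hx v hv qx v3 (by rw [h.symm, v1])
  obtain ⟨g', hg', e2⟩ := key v hv y hy v3 qy v2
  exact ⟨g' * g, mul_mem hg' hg, by rw [← e2, ← e1]; group⟩

end Nd

end Cfsg.Lib.C6B
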