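import Cfsg.Agent.Lib.C6.Basic

/-! Eigenspace dimensions of elements normalising a group that is extraspecial modulo scalars. -/
namespace Cfsg.Lib.C6
open Matrix Module Cfsg.Lib.GLC Cfsg.Geo
open scoped MatrixGroups

section Abs
variable {M : Type*} [AddCommGroup M]

theorem seq_const (f : ℕ → M) {p : ℕ} (hp : f p = f 0) {c : M} (h : ∀ k, f (k + 1) = f k + c) : p • c = 0 := by
  have h1 : ∀ k, f k = f 0 + k • c := fun k => by
    induction k with
    | zero => simp
    | succ k ih => rw [h, ih, succ_nsmul, add_assoc]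
  have := h1 p
  rw [hp] at this
  simpa using this

theorem eq_zero_of_coprime {a b : ℕ} (hab : a.Coprime b) {x : M} (ha : a • x = 0) (hb : b • x = 0) : x = 0 := by
  have h1 : addOrderOf x ∣ 1 := hab ▸ Nat.dvd_gcd (addOrderOf_dvd_of_nsmul_eq_zero ha) (addOrderOf_dvd_of_nsmul_eq_zero hb)
  simpa using h1

/-- first difference -/
def dif (a : ℕ → M) (k : ℕ) : M := a (k + 1) - a k

theorem dif_per {a : ℕ → M} {p : ℕ} (h : ∀ k, a (k + p) = a k) (k : ℕ) : dif a (k + p) = dif a k := by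
  simp only [dif]; rw [add_right_comm, h, h]

theorem dif_eq_zero {a : ℕ → M} {p r : ℕ} (h : ∀ k, a (k + p) = a k) (hc : p.Coprime r) (hr : r • dif a 0 = 0)
    (hd : ∀ k, dif a (k + 1) = dif a k) (k : ℕ) : dif a k = 0 := by
  have h1 : ∀ k, dif a k = dif a 0 := fun k => by
    induction k with
    | zero => rfl
    | succ k ih => rw [hd, ih]
  rw [h1]
  exact eq_zero_of_coprime hc (seq_const a (by simpa using h 0) fun k => by rw [← h1 k, dif]; abel) hr

theorem dif3_eq_zero {a : ℕ → M} {p : ℕ} (h : ∀ k, a (k + p) = a k) (hp : Odd p)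
    (H : ∀ k, a k - 2 • a (k + 1) + 2 • a (k + 3) - a (k + 4) = 0) (k : ℕ) : dif (dif (dif a)) k = 0 := by
  have h1 : ∀ k, dif (dif (dif a)) (k + 1) = - dif (dif (dif a)) k := fun k => by
    simp only [dif, add_assoc, Nat.reduceAdd]
    linear_combination (norm := abel_nf) - H k
  have h2 : ∀ j k, dif (dif (dif a)) (k + 2 * j) = dif (dif (dif a)) k := fun j k => by
    induction j with
    | zero => rfl
    | succ j ih => rw [mul_add, mul_one, ← add_assoc, h1, h1, neg_neg, ih]
  have h3 : ∀ k, 2 • dif (dif (dif a)) k = 0 := fun k => by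
    obtain ⟨j, rfl⟩ := hp
    have := dif_per (dif_per (dif_per h)) k
    rw [← add_assoc, h1, h2] at this
    rw [two_nsmul]; nth_rewrite 1 [← this]; abel
  refine dif_eq_zero (dif_per (dif_per h)) (Nat.coprime_two_right.2 hp) (h3 0) (fun k => ?_) k
  rw [h1, neg_eq_iff_add_eq_zero, ← two_nsmul, h3]

variable {P : Type*} [Group P] (β : P → P → M) (φ : P →* P)

/-- An alternating biadditive `φ`-invariant pairing with `β(u s, φ u s) = 0`. -/
structure Pair (p : ℕ) : Prop where
  add : ∀ x y z, β (x * y) z = β x z + β y z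
  anti : ∀ x y, β x y = - β y x
  inv : ∀ x y, β (φ x) (φ y) = β x y
  per : ∀ x, φ^[p] x = x
  H : ∀ s, β ((φ s)⁻¹ * s) (φ ((φ s)⁻¹ * s)) = 0

variable {β φ} {p : ℕ}

theorem Pair.add' (h : Pair β φ p) (x y z : P) : β x (y * z) = β x y + β x z := by
  rw [h.anti, h.add, h.anti y, h.anti z]; abel

theorem Pair.neg (h : Pair β φ p) (x z : P) : β x⁻¹ z = - β x z := by
  have h1 : β 1 z = 0 := by simpa using h.add 1 1 z
  have h2 := h.add x⁻¹ x z
  rw [inv_mul_cancel, h1] at h2
  exact eq_neg_of_add_eq_zero_left h2.symm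

theorem Pair.neg' (h : Pair β φ p) (x z : P) : β x z⁻¹ = - β x z := by
  rw [h.anti, h.neg, h.anti z]; abel

theorem Pair.recur (h : Pair β φ p) (s y : P) :
    β s y - 2 • β s (φ y) + 2 • β s (φ (φ (φ y))) - β s (φ (φ (φ (φ y)))) = 0 := by
  have h1 := h.H s
  have h2 := h.H (φ (φ y))
  have h3 := h.H (s * φ (φ y))
  have h4 := h.anti (φ y) s
  have h5 := h.anti y s
  have h6 := h.anti (φ (φ y)) s
  simp only [map_mul, map_inv, h.add, h.add', h.neg, h.neg', h.inv] at h1 h2 h3
  rw [h4, h5, h6] at h3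
  linear_combination (norm := abel_nf) h3 - h1 - h2

theorem Pair.dif3 (h : Pair β φ p) (hp : Odd p) (s y : P) (k : ℕ) : dif (dif (dif fun k => β s (φ^[k] y))) k = 0 :=
  dif3_eq_zero (p := p) (fun k => by simp only [Function.iterate_add_apply, h.per]) hp
    (fun k => by simpa only [Function.iterate_succ_apply'] using h.recur s (φ^[k] y)) k

theorem Pair.cube (h : Pair β φ p) (hp : Odd p) (s y : P) :
    β s ((fun x => (φ x)⁻¹ * x)^[3] y) = 0 := by
  have := h.dif3 hp s y 0
  simp only [dif, zero_add, Function.iterate_succ_apply', Function.iterate_zero, id, map_mul, map_inv, h.add', h.neg']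
    at this ⊢
  linear_combination (norm := abel_nf) - this

theorem Pair.triv (h : Pair β φ p) (hp : Odd p) {r : ℕ} (hc : p.Coprime r) (hr : ∀ x y, r • β x y = 0) (s y : P) :
    β s ((φ y)⁻¹ * y) = 0 := by
  have hper : ∀ k, (fun k => β s (φ^[k] y)) (k + p) = (fun k => β s (φ^[k] y)) k :=
    fun k => by simp only [Function.iterate_add_apply, h.per]
  have h2 := dif_eq_zero (dif_per hper) hc (by simp [dif, smul_sub, hr]) fun k => sub_eq_zero.1 (h.dif3 hp s y k)
  have h1 := dif_eq_zero hper hc (by simp [dif, smul_sub, hr]) (fun k => sub_eq_zero.1 (h2 k)) 0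
  simp only [dif, zero_add, Function.iterate_one, Function.iterate_zero, id] at h1
  rw [h.add', h.neg']
  linear_combination (norm := abel_nf) - h1

end Abs

variable {ι F : Type*} [Fintype ι] [DecidableEq ι] [Field F] {x y x' g s t : GL ι F} {c c' ζ : F} {v : ι → F}

/-- eigenspace of an invertible matrix -/
def ev (x : GL ι F) (c : F) : Submodule F (ι → F) := Module.End.eigenspace (toLin' x.1) c

theorem mem_ev : v ∈ ev x c ↔ x.1 *ᵥ v = c • v := by simp [ev]

/-- dimension of an eigenspace -/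
noncomputable def dm (x : GL ι F) (c : F) : ℕ := finrank F (ev x c)

theorem dm_le (y : GL ι F) (h : ∀ v ∈ ev x c, y.1 *ᵥ v ∈ ev x' c') : dm x c ≤ dm x' c' := by
  refine LinearMap.finrank_le_finrank_of_injective (f := (toLin' y.1).restrict fun v hv => by simpa using h v hv) ?_
  intro a b hab
  have h1 : y.1 *ᵥ a.1 = y.1 *ᵥ b.1 := by simpa using congrArg Subtype.val hab
  have h2 := congrArg ((y⁻¹).1 *ᵥ ·) h1
  simp only [mulVec_mulVec, Units.inv_mul, one_mulVec] at h2
  exact Subtype.ext h2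

theorem dm_conj (s : GL ι F) : dm x c ≤ dm (s⁻¹ * x * s) c :=
  dm_le s⁻¹ fun v hv => by
    rw [mem_ev] at hv ⊢
    rw [mulVec_mulVec, ← Units.val_mul, mul_inv_cancel_right, Units.val_mul, ← mulVec_mulVec, hv, mulVec_smul]

theorem dm_shift (h : x.1 * y.1 = ζ • (y.1 * x.1)) : dm x c ≤ dm x (ζ * c) :=
  dm_le y fun v hv => by
    rw [mem_ev] at hv ⊢
    rw [mulVec_mulVec, h, smul_mulVec, ← mulVec_mulVec, hv, mulVec_smul, smul_smul]

theorem ev_disj (h : c ≠ c') : Disjoint (ev x c) (ev x c') :=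
  (Module.End.eigenspaces_iSupIndep (toLin' x.1)).pairwiseDisjoint h

theorem dm_two (h : c ≠ c') : dm x c + dm x c' ≤ Fintype.card ι := by
  simpa [dm] using Submodule.finrank_add_finrank_le_of_disjoint (ev_disj (x := x) h)

theorem dm_three {a b c : F} (h1 : a ≠ b) (h2 : a ≠ c) (h3 : b ≠ c) : dm x a + dm x b + dm x c ≤ Fintype.card ι := by
  have h4 : Disjoint (ev x c) (ev x a ⊔ ev x b) :=
    (Module.End.eigenspaces_iSupIndep (toLin' x.1) c).mono_right (sup_le (le_iSup₂_of_le a h2 le_rfl)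
      (le_iSup₂_of_le b h3 le_rfl))
  have h5 := Submodule.finrank_add_finrank_le_of_disjoint h4
  have h6 := Submodule.finrank_sup_add_finrank_inf_eq (ev x a) (ev x b)
  rw [(ev_disj h1).eq_bot, finrank_bot] at h6
  simp only [finrank_fintype_fun_eq_card] at h5
  simp only [dm]; omega

theorem dm_sc (h : Sc t) (h1 : t ≠ 1) : dm t 1 = 0 := by
  obtain ⟨a, ha⟩ := h
  rw [dm, Submodule.finrank_eq_zero, Submodule.eq_bot_iff]
  intro v hv
  rw [mem_ev, ha, smul_mulVec, one_mulVec, ← sub_eq_zero, ← sub_smul, smul_eq_zero, sub_eq_zero] at hv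
  exact hv.resolve_left fun h => h1 (Units.ext (by simp [ha, h]))

theorem eq_one_of_fix (h : Sc t) (hv : v ≠ 0) (h1 : t.1 *ᵥ v = v) : t = 1 := by
  obtain ⟨a, ha⟩ := h
  rw [ha, smul_mulVec, one_mulVec] at h1
  have : (a - 1) • v = 0 := by rw [sub_smul, h1, one_smul, sub_self]
  rw [smul_eq_zero, sub_eq_zero] at this
  exact Units.ext (by simp [ha, this.resolve_right hv])

theorem fix_of_inf (hv : v ∈ ev g c ⊓ ev (s⁻¹ * g * s) c) : ((g⁻¹ * s * g)⁻¹ * s).1 *ᵥ v = v := by
  obtain ⟨h1, h2⟩ := hv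
  have h3 := (mem_ev.1 h2).trans (mem_ev.1 h1).symm
  have h4 : (g⁻¹ * s * g)⁻¹ * s = g⁻¹ * (s⁻¹ * g * s) := by group
  rw [h4, Units.val_mul, ← mulVec_mulVec, h3, mulVec_mulVec, Units.inv_mul, one_mulVec]

theorem two_dm_inf (s : GL ι F) : 2 * dm g c ≤ Fintype.card ι + finrank F ↥(ev g c ⊓ ev (s⁻¹ * g * s) c) := by
  have h1 := Submodule.finrank_sup_add_finrank_inf_eq (ev g c) (ev (s⁻¹ * g * s) c)
  have h2 := dm_conj (x := g) (c := c) s
  have h3 := Submodule.finrank_le (ev g c ⊔ ev (s⁻¹ * g * s) c)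
  simp only [finrank_fintype_fun_eq_card] at h3
  simp only [dm] at h2 ⊢; omega

theorem two_dm_le (s : GL ι F) : 2 * dm g c ≤ Fintype.card ι + dm ((g⁻¹ * s * g)⁻¹ * s) 1 :=
  (two_dm_inf s).trans (Nat.add_le_add_left (Submodule.finrank_mono fun v hv => by
    rw [mem_ev, one_smul]; exact fix_of_inf hv) _)

theorem exists_fix (h : Fintype.card ι < 2 * dm g c) (s : GL ι F) :
    ∃ v, v ≠ 0 ∧ g.1 *ᵥ v = c • v ∧ ((g⁻¹ * s * g)⁻¹ * s).1 *ᵥ v = v := by
  have h1 := two_dm_inf (g := g) (c := c) s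
  obtain ⟨v, hv, h0⟩ := Submodule.exists_mem_ne_zero_of_ne_bot (p := ev g c ⊓ ev (s⁻¹ * g * s) c) fun h0 => by
    rw [h0, finrank_bot] at h1; omega
  exact ⟨v, h0, mem_ev.1 hv.1, fix_of_inf hv⟩

theorem dm_basis {κ : Type*} [Fintype κ] [DecidableEq F] (b : Basis κ F (ι → F)) (τ : κ → F)
    (h : ∀ j, x.1 *ᵥ b j = τ j • b j) : dm x c = (Finset.univ.filter fun j => τ j = c).card := by
  have h1 : ev x c = Submodule.span F (Set.range fun j : {j // τ j = c} => b j.1) := by
    apply le_antisymm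
    · intro v hv
      rw [mem_ev] at hv
      rw [← b.sum_repr v]
      refine Submodule.sum_mem _ fun j _ => ?_
      by_cases hj : τ j = c
      · exact Submodule.smul_mem _ _ (Submodule.subset_span ⟨⟨j, hj⟩, rfl⟩)
      · have h2 : x.1 *ᵥ v = ∑ j, (b.repr v j * τ j) • b j := by
          conv_lhs => rw [← b.sum_repr v]
          rw [← toLin'_apply, map_sum]
          simp [h, smul_smul]
        have h3 := congrArg (fun w => b.repr w j) (hv.symm.trans h2)
        simp only [map_smul, Finsupp.smul_apply, smul_eq_mul, Basis.repr_sum_self] at h3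
        have h4 : b.repr v j = 0 := by
          by_contra h5
          exact hj (mul_left_cancel₀ h5 (by rw [← h3, mul_comm]))
        simp [h4]
    · rw [Submodule.span_le]
      rintro _ ⟨j, rfl⟩
      exact mem_ev.2 (by rw [h, j.2])
  rw [dm, h1, ← Fintype.card_subtype]
  exact finrank_span_eq_card (b.linearIndependent.comp _ Subtype.val_injective)

end Cfsg.Lib.C6
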