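import Cfsg.Agent.Lib.C6.Eig

/-! Eigenspace bounds for elements normalising a group that is extraspecial modulo scalars. -/
namespace Cfsg.Lib.C6
open Matrix Module Cfsg.Lib.GLC Cfsg.Geo
open scoped MatrixGroups

variable {ι F : Type*} [Fintype ι] [DecidableEq ι] [Field F] {P : Subgroup (GL ι F)} {r p : ℕ} {x y g s t : GL ι F}
  {c : F}

/-- commutators in `P` are scalar `r`-th roots of unity, and `P` has scalar centraliser -/
structure Ex (P : Subgroup (GL ι F)) (r : ℕ) : Prop where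
  prime : r.Prime
  comm : ∀ x ∈ P, ∀ y ∈ P, ∃ ζ : F, ζ ^ r = 1 ∧ x.1 * y.1 = ζ • (y.1 * x.1)
  schur : Schur P

theorem eq_one_of_pow_lt (hr : r.Prime) {a : F} (h : a ^ r = 1) {k : ℕ} (hk : a ^ k = 1) (h0 : k ≠ 0) (h1 : k < r) :
    a = 1 := by
  have h2 := Nat.dvd_gcd (orderOf_dvd_of_pow_eq_one h) (orderOf_dvd_of_pow_eq_one hk)
  rwa [Nat.coprime_of_lt_prime h0 h1 hr, Nat.dvd_one, orderOf_eq_one_iff] at h2

theorem Ex.exists_ne (h : Ex P r) (ht : t ∈ P) (hn : ¬ Sc t) :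
    ∃ y ∈ P, ∃ ζ : F, ζ ≠ 1 ∧ ζ ^ r = 1 ∧ t.1 * y.1 = ζ • (y.1 * t.1) := by
  by_contra h1
  push Not at h1
  refine hn (h.schur _ fun s hs => ?_)
  obtain ⟨ζ, h2, h3⟩ := h.comm t ht s hs
  by_cases h4 : ζ = 1
  · rw [h3, h4, one_smul]
  · exact absurd h3 (h1 s hs ζ h4 h2)

theorem Ex.two_dm (h : Ex P r) (ht : t ∈ P) (hn : ¬ Sc t) : 2 * dm t 1 ≤ Fintype.card ι := by
  obtain ⟨y, -, ζ, h1, -, h3⟩ := h.exists_ne ht hn
  have h4 := dm_shift (c := 1) h3
  have h5 := dm_two (x := t) h1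
  rw [mul_one] at h4; omega

theorem Ex.three_dm (h : Ex P r) (hr : r ≠ 2) (ht : t ∈ P) (hn : ¬ Sc t) : 3 * dm t 1 ≤ Fintype.card ι := by
  obtain ⟨y, -, ζ, h1, h2, h3⟩ := h.exists_ne ht hn
  have h4 := dm_shift (c := 1) h3
  have h5 := dm_shift (c := ζ) h3
  have h0 : ζ ≠ 0 := fun h0 => by simp [h0, h.prime.ne_zero] at h2
  have h6 := dm_three (x := t) (a := 1) (b := ζ) (c := ζ * ζ) h1.symm
    (fun h7 => h1 (eq_one_of_pow_lt h.prime h2 (k := 2) (by rw [sq, ← h7]) two_ne_zero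
      (lt_of_le_of_ne h.prime.two_le hr.symm)))
    fun h7 => h1 (mul_left_cancel₀ h0 (by rw [← h7, mul_one]))
  rw [mul_one] at h4; omega

theorem Ex.dvd (h : Ex P r) (ht : t ∈ P) (hn : ¬ Sc t) : r ∣ Fintype.card ι := by
  obtain ⟨y, -, ζ, h1, h2, h3⟩ := h.exists_ne ht hn
  have h4 := congrArg det h3
  rw [det_smul, det_mul, det_mul, mul_comm y.1.det] at h4
  have h5 : t.1.det * y.1.det ≠ 0 := mul_ne_zero t.det_ne_zero y.det_ne_zero
  have h6 : ζ ^ Fintype.card ι = 1 := mul_right_cancel₀ h5 (by rw [← h4, one_mul])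
  have := Fact.mk h.prime
  exact orderOf_eq_prime h2 h1 ▸ orderOf_dvd_of_pow_eq_one h6

theorem Ex.dvd_card [Finite F] (h : Ex P r) (ht : t ∈ P) (hn : ¬ Sc t) : r ∣ Nat.card F - 1 := by
  obtain ⟨y, -, ζ, h1, h2, -⟩ := h.exists_ne ht hn
  have := Fact.mk h.prime
  have := Fintype.ofFinite F
  have h0 : ζ ≠ 0 := fun h0 => by simp [h0, h.prime.ne_zero] at h2
  rw [Nat.card_eq_fintype_card]
  exact orderOf_eq_prime h2 h1 ▸ orderOf_dvd_of_pow_eq_one (FiniteField.pow_card_sub_one_eq_one ζ h0)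

theorem Ex.sc_pow (h : Ex P r) (ht : t ∈ P) : Sc (t ^ r) := by
  refine h.schur _ fun s hs => ?_
  obtain ⟨ζ, h2, h3⟩ := h.comm t ht s hs
  have : ∀ k, t.1 ^ k * s.1 = ζ ^ k • (s.1 * t.1 ^ k) := fun k => by
    induction k with
    | zero => simp
    | succ k ih => rw [pow_succ, mul_assoc, h3, mul_smul_comm, ← mul_assoc, ih, smul_mul_assoc, smul_smul, mul_assoc,
        pow_succ']
  rw [Units.val_pow_eq_pow_val, this, h2, one_smul]

/-- the commutator pairing -/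
noncomputable def Ex.bt (h : Ex P r) (x y : P) : Additive Fˣ :=
  Additive.ofMul (Units.ofPowEqOne _ r (h.comm x x.2 y y.2).choose_spec.1 h.prime.ne_zero)

theorem Ex.bt_spec (h : Ex P r) (x y : P) : x.1.1 * y.1.1 = ((h.bt x y).toMul : F) • (y.1.1 * x.1.1) :=
  (h.comm x x.2 y y.2).choose_spec.2

theorem Ex.bt_pow (h : Ex P r) (x y : P) : r • h.bt x y = 0 :=
  Additive.toMul.injective (Units.ext (by simpa [Ex.bt] using (h.comm x x.2 y y.2).choose_spec.1))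

theorem Ex.bt_eq [Nonempty ι] (h : Ex P r) {x y : P} {a : Additive Fˣ}
    (e : x.1.1 * y.1.1 = (a.toMul : F) • (y.1.1 * x.1.1)) : h.bt x y = a := by
  have h1 := congrArg (· * ((y.1 * x.1)⁻¹).1) ((h.bt_spec x y).symm.trans e)
  simp only [smul_mul_assoc, ← Units.val_mul, mul_inv_cancel, Units.val_one] at h1
  exact Additive.toMul.injective (Units.ext (smul_one_inj h1))

theorem Ex.sc_of_bt (h : Ex P r) {y : P} (e : ∀ x, h.bt x y = 0) : Sc y.1 :=
  h.schur _ fun s hs => by simpa [e] using (h.bt_spec ⟨s, hs⟩ y).symm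

/-- conjugation by `g` on `P` -/
def cj (hg : ∀ x ∈ P, g⁻¹ * x * g ∈ P) : P →* P :=
  MonoidHom.mk' (fun x => ⟨g⁻¹ * x * g, hg x x.2⟩) fun a b => Subtype.ext (by simp [mul_assoc])

theorem cj_coe (hg : ∀ x ∈ P, g⁻¹ * x * g ∈ P) (x : P) : (cj hg x).1 = g⁻¹ * x * g := rfl

theorem Ex.pair (h : Ex P r) (hg : ∀ x ∈ P, g⁻¹ * x * g ∈ P) (hp : g ^ p = 1) (hd : Fintype.card ι < 2 * dm g c) :
    Pair h.bt (cj hg) p := by
  obtain ⟨v, hv, -⟩ := exists_fix hd 1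
  have : Nonempty ι := by
    by_contra h1
    rw [not_nonempty_iff] at h1
    exact hv (Subsingleton.elim _ _)
  refine ⟨fun x y z => h.bt_eq ?_, fun x y => h.bt_eq ?_, fun x y => h.bt_eq ?_, fun x => Subtype.ext ?_,
    fun s => h.bt_eq ?_⟩
  · simp only [Subgroup.coe_mul, Units.val_mul, toMul_add]
    rw [mul_assoc, h.bt_spec y z, mul_smul_comm, ← mul_assoc, h.bt_spec x z, smul_mul_assoc, smul_smul, mul_comm,
      mul_assoc]
  · rw [h.bt_spec y x, smul_smul]; simp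
  · have := congrArg (fun M => (g⁻¹).1 * M * g.1) (h.bt_spec x y)
    simpa [cj_coe, mul_assoc] using this
  · have : ∀ k, ((cj hg)^[k] x).1 = (g ^ k)⁻¹ * x * g ^ k := fun k => by
      induction k with
      | zero => simp
      | succ k ih => rw [Function.iterate_succ_apply', cj_coe, ih]; group
    simp [this, hp]
  · obtain ⟨v, hv, h1, h2⟩ := exists_fix hd s.1
    set t : P := (cj hg s)⁻¹ * s
    change t.1.1 *ᵥ v = v at h2
    have h3 : (cj hg t).1.1 *ᵥ v = v := by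
      rw [cj_coe, Units.val_mul, Units.val_mul, ← mulVec_mulVec, ← mulVec_mulVec, h1, mulVec_smul, h2, ← h1,
        mulVec_mulVec, Units.inv_mul, one_mulVec]
    have h4 := congrArg (· *ᵥ v) (h.bt_spec t (cj hg t))
    simp only [smul_mulVec, ← mulVec_mulVec, h2, h3] at h4
    have h5 : ((h.bt t (cj hg t)).toMul : F) = 1 := smul_left_injective F hv (by simpa using h4.symm)
    rw [h.bt_spec, h5]; simp

theorem Ex.half_of_all (h : Ex P r) (hn : ¬ Sc g) (H : ∀ s ∈ P, Sc ((g⁻¹ * s * g)⁻¹ * s)) :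
    2 * dm g c ≤ Fintype.card ι := by
  obtain ⟨s, hs, h1⟩ : ∃ s ∈ P, g * s ≠ s * g := by
    by_contra h1
    push Not at h1
    exact hn (h.schur.sc h1)
  have h2 := two_dm_le (g := g) (c := c) s
  rwa [dm_sc (H s hs) fun h3 => h1 (by rw [inv_mul_eq_one] at h3; nth_rewrite 1 [← h3]; group), add_zero] at h2

theorem Ex.four_dm (h : Ex P r) (hg : ∀ x ∈ P, g⁻¹ * x * g ∈ P) (hn : ¬ Sc g) : 4 * dm g c ≤ 3 * Fintype.card ι := by
  by_cases H : ∀ s ∈ P, Sc ((g⁻¹ * s * g)⁻¹ * s)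
  · have := h.half_of_all (c := c) hn H; omega
  · push Not at H
    obtain ⟨s, hs, H⟩ := H
    have h1 := h.two_dm (P.mul_mem (P.inv_mem (hg s hs)) hs) H
    have h2 := two_dm_le (g := g) (c := c) s
    omega

theorem Ex.three_dm' (h : Ex P r) (hr : r ≠ 2) (hg : ∀ x ∈ P, g⁻¹ * x * g ∈ P) (hn : ¬ Sc g) :
    3 * dm g c ≤ 2 * Fintype.card ι := by
  by_cases H : ∀ s ∈ P, Sc ((g⁻¹ * s * g)⁻¹ * s)
  · have := h.half_of_all (c := c) hn H; omega
  · push Not at H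
    obtain ⟨s, hs, H⟩ := H
    have h1 := h.three_dm hr (P.mul_mem (P.inv_mem (hg s hs)) hs) H
    have h2 := two_dm_le (g := g) (c := c) s
    omega

theorem Ex.half_of_not_dvd (h : Ex P r) (hr : ¬ r ∣ Fintype.card ι) (hg : ∀ x ∈ P, g⁻¹ * x * g ∈ P) (hn : ¬ Sc g) :
    2 * dm g c ≤ Fintype.card ι :=
  h.half_of_all hn fun s hs => by_contra fun H => hr (h.dvd (P.mul_mem (P.inv_mem (hg s hs)) hs) H)

theorem Ex.half_of_coprime (h : Ex P r) (hg : ∀ x ∈ P, g⁻¹ * x * g ∈ P) (hn : ¬ Sc g) (hp : g ^ p = 1) (ho : Odd p)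
    (hc : p.Coprime r) : 2 * dm g c ≤ Fintype.card ι := by
  by_contra hd
  exact hd (h.half_of_all hn fun s hs =>
    h.sc_of_bt fun x => (h.pair hg hp (not_le.1 hd)).triv ho hc h.bt_pow x ⟨s, hs⟩)

open Classical in
theorem count_ne (hr : r.Prime) (h5 : 5 ≤ r) {α l μ : F} (hc : c ≠ 0) (hl : l ^ r = 1) (hμ : μ ^ r = 1) (h : μ ≠ 1) :
    ((if α = c then 1 else 0) + (if α * l = c then 1 else 0) + (if μ * (α * l ^ 2) = c then 1 else 0) +
      (if μ ^ 3 * (α * l ^ 3) = c then 1 else 0) : ℕ) ≤ 2 := by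
  have h3 : ∀ a : F, a ^ r = 1 → a ^ 3 = 1 → a = 1 := fun a h1 h2 => eq_one_of_pow_lt hr h1 h2 (by simp) (by omega)
  have h4 := h3 (μ * l) (by rw [mul_pow, hl, hμ, mul_one])
  split_ifs with a b d e <;> try omega
  all_goals exfalso
  · subst a; exact h (by grind)
  · subst a; exact h (by grind)
  · subst a; exact h (h3 μ hμ (by grind))
  · subst a
    have h6 : μ * l = 1 := h4 (by grind)
    exact h (by grind)
  · exact h (by grind)

open Classical in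
theorem count_eq (hr : r.Prime) (h5 : 5 ≤ r) {α l : F} (hc : c ≠ 0) (hl : l ^ r = 1) :
    ((if α = c then 1 else 0) + (if α * l = c then 1 else 0) + (if 1 * (α * l ^ 2) = c then 1 else 0) +
      (if 1 ^ 3 * (α * l ^ 3) = c then 1 else 0) : ℕ) ≤ 1 + 3 * if l = 1 then 1 else 0 := by
  have h3 : l ^ 3 = 1 → l = 1 := fun h2 => eq_one_of_pow_lt hr hl h2 (by simp) (by omega)
  have h2 : l ^ 2 = 1 → l = 1 := fun h2 => eq_one_of_pow_lt hr hl h2 (by simp) (by omega)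
  have h0 : l ≠ 0 := fun h0 => by simp [h0, hr.ne_zero] at hl
  split_ifs <;> first | omega | grind

theorem Ex.half_of_five [Finite F] (h : Ex P r) (h5 : 5 ≤ r) (hg : ∀ x ∈ P, g⁻¹ * x * g ∈ P) (hn : ¬ Sc g)
    (hp : g ^ r = 1) : 2 * dm g c ≤ Fintype.card ι := by
  classical
  by_contra hd
  obtain ⟨s₀, hs₀, H₀⟩ : ∃ s ∈ P, ¬ Sc ((g⁻¹ * s * g)⁻¹ * s) := by
    by_contra H
    push Not at H
    exact hd (h.half_of_all hn H)
  rw [not_le] at hd
  have hu : ∀ s ∈ P, (g⁻¹ * s * g)⁻¹ * s ∈ P := fun s hs => P.mul_mem (P.inv_mem (hg s hs)) hs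
  obtain ⟨s, hs, t, ht, H, H'⟩ : ∃ s ∈ P, ∃ t, (g⁻¹ * s * g)⁻¹ * s = t ∧ ¬ Sc t ∧ Sc ((g⁻¹ * t * g)⁻¹ * t) := by
    by_cases h1 : Sc ((g⁻¹ * ((g⁻¹ * s₀ * g)⁻¹ * s₀) * g)⁻¹ * ((g⁻¹ * s₀ * g)⁻¹ * s₀))
    · exact ⟨s₀, hs₀, _, rfl, H₀, h1⟩
    · exact ⟨_, hu _ hs₀, _, rfl, h1, h.sc_of_bt fun x =>
        (h.pair hg hp hd).cube (h.prime.odd_of_ne_two (by omega)) x ⟨s₀, hs₀⟩⟩
  have htP : t ∈ P := ht ▸ hu s hs
  have hgt : g * t = t * g := by
    obtain ⟨v, hv, -, h2⟩ := exists_fix hd t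
    have h3 := eq_one_of_fix H' hv h2
    rw [inv_mul_eq_one] at h3; nth_rewrite 1 [← h3]; group
  obtain ⟨v, hv, hgv, htv⟩ := exists_fix hd s
  rw [ht] at htv
  have hc : c ≠ 0 := fun h0 => hv (by
    have := congrArg ((g⁻¹).1 *ᵥ ·) hgv
    simpa [h0, mulVec_mulVec] using this)
  have htr : t ^ r = 1 := eq_one_of_fix (h.sc_pow htP) hv (by
    rw [Units.val_pow_eq_pow_val]
    generalize r = k
    induction k with
    | zero => simp
    | succ k ih => rw [pow_succ, ← mulVec_mulVec, htv, ih])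
  obtain ⟨μ, hμ, hts⟩ := h.comm t htP s hs
  have e1 : s⁻¹ * g * s = g * t := by rw [← ht]; group
  have e0 : (s⁻¹ * t * s).1 = μ • t.1 := by
    rw [mul_assoc, Units.val_mul, Units.val_mul, hts, mul_smul_comm, Units.inv_mul_cancel_left]
  have e2 : (s⁻¹ * (s⁻¹ * g * s) * s).1 = μ • (g.1 * t.1 ^ 2) := by
    rw [show s⁻¹ * (s⁻¹ * g * s) * s = (s⁻¹ * (s⁻¹ * g * s) * s) by rfl, e1,
      show s⁻¹ * (g * t) * s = (s⁻¹ * g * s) * (s⁻¹ * t * s) by group, e1, Units.val_mul, e0, Units.val_mul,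
      mul_smul_comm, sq, mul_assoc]
  have e3 : (s⁻¹ * (s⁻¹ * (s⁻¹ * g * s) * s) * s).1 = μ ^ 3 • (g.1 * t.1 ^ 3) := by
    rw [Units.val_mul, Units.val_mul, e2, mul_smul_comm, smul_mul_assoc, ← Units.val_pow_eq_pow_val, ← Units.val_mul,
      ← Units.val_mul, ← Units.val_mul,
      show s⁻¹ * (g * t ^ 2) * s = (s⁻¹ * g * s) * (s⁻¹ * t * s) * (s⁻¹ * t * s) by simp [sq, mul_assoc], e1, Units.val_mul,
      Units.val_mul, e0, Units.val_mul]
    simp [smul_smul, pow_succ, mul_assoc]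
  have hdv := h.dvd_card htP H
  obtain ⟨b, χ, hb⟩ := exists_eigenbasis (n := ι) ![toLin' g.1, toLin' t.1] (by
      have : Commute (toLin' g.1) (toLin' t.1) := by
        rw [Commute, SemiconjBy, End.mul_eq_comp, End.mul_eq_comp, ← toLin'_mul, ← toLin'_mul, ← Units.val_mul, hgt,
          Units.val_mul]
      simp [Fin.forall_fin_two, this, this.symm])
    (by
      rw [Fin.forall_fin_two]
      constructor <;> refine exists_lt_of_pow hdv one_ne_zero ?_ <;>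
        simp [← toLin'_pow, ← Units.val_pow_eq_pow_val, hp, htr, End.one_eq_id]) (by simp)
  have hb0 : ∀ j, g.1 *ᵥ b j = χ 0 j • b j := fun j => by simpa using hb 0 j
  have hb1 : ∀ j, t.1 *ᵥ b j = χ 1 j • b j := fun j => by simpa using hb 1 j
  have hbk : ∀ k j, (t.1 ^ k) *ᵥ b j = χ 1 j ^ k • b j := fun k j => by
    induction k with
    | zero => simp
    | succ k ih => rw [pow_succ, ← mulVec_mulVec, hb1, mulVec_smul, ih, smul_smul, pow_succ']
  have hl : ∀ j, χ 1 j ^ r = 1 := fun j => smul_left_injective F (b.ne_zero j) (by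
    simpa [← Units.val_pow_eq_pow_val, htr] using (hbk r j).symm)
  have d0 := dm_basis (c := c) b _ hb0
  have d1 := dm_basis (x := s⁻¹ * g * s) (c := c) b (fun j => χ 0 j * χ 1 j) fun j => by
    rw [e1, Units.val_mul, ← mulVec_mulVec, hb1, mulVec_smul, hb0, smul_smul, mul_comm]
  have d2 := dm_basis (x := s⁻¹ * (s⁻¹ * g * s) * s) (c := c) b (fun j => μ * (χ 0 j * χ 1 j ^ 2)) fun j => by
    rw [e2, smul_mulVec, ← mulVec_mulVec, hbk, mulVec_smul, hb0, smul_smul, smul_smul]; congr 1; ring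
  have d3 := dm_basis (x := s⁻¹ * (s⁻¹ * (s⁻¹ * g * s) * s) * s) (c := c) b (fun j => μ ^ 3 * (χ 0 j * χ 1 j ^ 3))
    fun j => by rw [e3, smul_mulVec, ← mulVec_mulVec, hbk, mulVec_smul, hb0, smul_smul, smul_smul]; congr 1; ring
  have dt := dm_basis (c := 1) b _ hb1
  have l1 := dm_conj (x := g) (c := c) s
  have l2 := dm_conj (x := s⁻¹ * g * s) (c := c) s
  have l3 := dm_conj (x := s⁻¹ * (s⁻¹ * g * s) * s) (c := c) s
  have l4 := h.three_dm (by omega) htP H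
  simp only [Finset.card_filter] at d0 d1 d2 d3 dt
  by_cases h1 : μ = 1
  · subst h1
    have := Finset.sum_le_sum fun j (_ : j ∈ Finset.univ) => count_eq (α := χ 0 j) h.prime h5 hc (hl j)
    simp only [Finset.sum_add_distrib, ← Finset.mul_sum, Finset.sum_const, Finset.card_univ, smul_eq_mul] at this
    omega
  · have := Finset.sum_le_sum fun j (_ : j ∈ Finset.univ) => count_ne (α := χ 0 j) h.prime h5 hc (hl j) hμ h1
    simp only [Finset.sum_add_distrib, Finset.sum_const, Finset.card_univ, smul_eq_mul] at this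
    omega

end Cfsg.Lib.C6
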