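import Cfsg.Agent.Lib.C6.ElZ

/-! The concrete model of `11^{1+2}.SL₂(11)` in dimension eleven. -/

set_option autoImplicit false

namespace Cfsg.Lib.C6E

open scoped MatrixGroups
open Subgroup Matrix MulAction Cfsg.Geo Cfsg.Lib.C6
open Cfsg.Lib.Asch hiding tr

variable {F : Type*} [Field F] {ζ γ : F}

local notation "G11" => GL (Fin 11) F
local notation "M11" => Matrix (Fin 11) (Fin 11) F

/-- The shift. -/
def r1 : Equiv.Perm (Fin 11) :=
  ⟨![10, 0, 1, 2, 3, 4, 5, 6, 7, 8, 9], ![1, 2, 3, 4, 5, 6, 7, 8, 9, 10, 0], by decide, by decide⟩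

/-- Multiplication by two. -/
def r2 : Equiv.Perm (Fin 11) :=
  ⟨![0, 2, 4, 6, 8, 10, 1, 3, 5, 7, 9], ![0, 6, 1, 7, 2, 8, 3, 9, 4, 10, 5], by decide, by decide⟩

/-- Negation. -/
def rn : Equiv.Perm (Fin 11) :=
  ⟨![0, 10, 9, 8, 7, 6, 5, 4, 3, 2, 1], ![0, 10, 9, 8, 7, 6, 5, 4, 3, 2, 1], by decide, by decide⟩

/-- The Fourier matrix. -/
def W11 (ζ : F) : M11 := of fun i j => ζ ^ (2 * i.1 * j.1 % 11)

/-- The generators of the model. -/
structure Md (ζ γ : F) (x y u w h t : G11) : Prop where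
  prim : IsPrimitiveRoot ζ 11
  ga : 11 * γ = 1 + 2 * ζ + 2 * ζ ^ 3 + 2 * ζ ^ 4 + 2 * ζ ^ 5 + 2 * ζ ^ 9
  hx : x.1 = diagonal fun i => ζ ^ i.1
  hy : y.1 = r1.permMatrix F
  hu : u.1 = diagonal fun i => ζ ^ (i.1 * i.1)
  hw : w.1 = γ • W11 ζ
  hh : h.1 = -r2.permMatrix F
  ht : t.1 = -rn.permMatrix F

theorem phi11 (h : IsPrimitiveRoot ζ 11) :
    ζ ^ 10 + ζ ^ 9 + ζ ^ 8 + ζ ^ 7 + ζ ^ 6 + ζ ^ 5 + ζ ^ 4 + ζ ^ 3 + ζ ^ 2 + ζ + 1 = 0 := by
  have := h.geom_sum_eq_zero (by norm_num)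
  simp [Finset.sum_range_succ] at this
  linear_combination this

theorem el_ne (h : IsPrimitiveRoot ζ 11) : (11 : F) ≠ 0 := by
  have := (h.neZero' (n := 11)).out
  exact_mod_cast this

theorem z_ne (h : IsPrimitiveRoot ζ 11) {m n : ℕ} (k : m % 11 ≠ n % 11) : ζ ^ m ≠ ζ ^ n := fun e => by
  rw [pow_eq_pow_mod m h.pow_eq_one, pow_eq_pow_mod n h.pow_eq_one] at e
  exact k (h.pow_inj (Nat.mod_lt _ (by norm_num)) (Nat.mod_lt _ (by norm_num)) e)

theorem z_eq (h : IsPrimitiveRoot ζ 11) {m n : ℕ} (k : m % 11 = n % 11) : ζ ^ m = ζ ^ n := by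
  rw [pow_eq_pow_mod m h.pow_eq_one, pow_eq_pow_mod n h.pow_eq_one, k]

theorem sum_z (h : IsPrimitiveRoot ζ 11) {c : ℕ} (k : c % 11 ≠ 0) : ∑ i : Fin 11, ζ ^ (c * i.1) = 0 := by
  have := (h.pow_of_coprime c ((Nat.Prime.coprime_iff_not_dvd (by norm_num)).2
    (fun e => k (Nat.mod_eq_zero_of_dvd e))).symm).geom_sum_eq_zero (by norm_num)
  rw [← Fin.sum_univ_eq_sum_range (fun i => (ζ ^ c) ^ i)] at this
  simpa only [pow_mul] using this

theorem gauss (h : IsPrimitiveRoot ζ 11) :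
    ∑ i : Fin 11, ζ ^ (i.1 * i.1) = 1 + 2 * ζ + 2 * ζ ^ 3 + 2 * ζ ^ 4 + 2 * ζ ^ 5 + 2 * ζ ^ 9 := by
  rw [Finset.sum_congr rfl fun (i : Fin 11) _ => pow_eq_pow_mod (i.1 * i.1) h.pow_eq_one]
  simp [Fin.sum_univ_succ]
  ring

theorem g2_of (hz : IsPrimitiveRoot ζ 11)
    (h : 11 * γ = 1 + 2 * ζ + 2 * ζ ^ 3 + 2 * ζ ^ 4 + 2 * ζ ^ 5 + 2 * ζ ^ 9) : 11 * γ ^ 2 = -1 := by
  have h1 := phi11 hz
  have h2 := hz.pow_eq_one
  refine mul_left_cancel₀ (el_ne hz) ?_
  rw [show 11 * (11 * γ ^ 2) = (11 * γ) ^ 2 by ring, h]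
  linear_combination 12 * h1 + (4 * ζ ^ 7 + 8 * ζ ^ 3 + 8 * ζ ^ 2 + 8 * ζ) * h2

theorem w_sq (hz : IsPrimitiveRoot ζ 11)
    (h : 11 * γ = 1 + 2 * ζ + 2 * ζ ^ 3 + 2 * ζ ^ 4 + 2 * ζ ^ 5 + 2 * ζ ^ 9) :
    (γ • W11 ζ) * (γ • W11 ζ) = -rn.permMatrix F := by
  have h2 := g2_of hz h
  ext i j
  have k : ((γ • W11 ζ) * (γ • W11 ζ)) i j = γ ^ 2 * ∑ k : Fin 11, ζ ^ (2 * (i.1 + j.1) * k.1) := by
    rw [mul_apply, Finset.mul_sum]
    refine Finset.sum_congr rfl fun k _ => ?_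
    simp only [Matrix.smul_apply, W11, of_apply, smul_eq_mul]
    rw [mul_mul_mul_comm, ← pow_add, ← sq, z_eq hz (n := 2 * (i.1 + j.1) * k.1) (by
      rw [← Nat.add_mod]; congr 1; ring)]
  simp only [k, Matrix.neg_apply, PEquiv.toMatrix_apply]
  split_ifs with e
  · rw [Finset.sum_congr rfl fun (k : Fin 11) _ => z_eq hz (m := 2 * (i.1 + j.1) * k.1) (n := 0) (by
      rw [← Option.mem_some_iff.1 e]; clear * -; revert i k; decide)]
    simp
    linear_combination h2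
  · rw [sum_z hz fun e' => e (by
      rw [Equiv.toPEquiv_apply, Option.mem_some_iff]; clear * - e'; revert i j; decide)]
    simp

namespace Md

variable {x y u w h t : GL (Fin 11) F} (D : Md ζ γ x y u w h t)
include D

theorem g2 : 11 * γ ^ 2 = -1 := g2_of D.prim D.ga

theorem g0 : γ ≠ 0 := fun e => by simpa [e] using D.g2

theorem xy : x.1 * y.1 = ζ • (y.1 * x.1) := by
  rw [D.hx, D.hy]
  ext i j
  simp only [diagonal_mul, mul_diagonal, Matrix.smul_apply, smul_eq_mul, PEquiv.toMatrix_apply]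
  split_ifs with e
  · simpa [← pow_succ'] using z_eq D.prim ((by decide : ∀ i : Fin 11, i.1 % 11 = ((r1 i).1 + 1) % 11) i |>.trans
      (by rw [Option.mem_some_iff.1 e]))
  · simp

theorem uy : u.1 * y.1 = ζ • (y.1 * x.1 * x.1 * u.1) := by
  rw [D.hx, D.hy, D.hu]
  ext i j
  simp only [diagonal_mul, mul_diagonal, Matrix.smul_apply, smul_eq_mul, PEquiv.toMatrix_apply]
  split_ifs with e
  · simpa only [← pow_succ', ← pow_add, one_mul, mul_one] using z_eq D.prim ((by decide : ∀ i : Fin 11,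
      i.1 * i.1 % 11 = ((r1 i).1 + (r1 i).1 + (r1 i).1 * (r1 i).1 + 1) % 11) i |>.trans
      (by rw [Option.mem_some_iff.1 e]))
  · simp

theorem ux : u * x = x * u := Units.ext (by
  simp only [Units.val_mul, D.hx, D.hu, diagonal_mul_diagonal, mul_comm])

theorem wx : w * x = y * y * y * y * y * w := Units.ext (by
  rw [mul_assoc, mul_assoc, mul_assoc, mul_assoc, Units.val_mul, Units.val_mul, Units.val_mul, Units.val_mul,
    Units.val_mul, Units.val_mul, D.hy, PEquiv.toMatrix_toPEquiv_mul, PEquiv.toMatrix_toPEquiv_mul,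
    PEquiv.toMatrix_toPEquiv_mul, PEquiv.toMatrix_toPEquiv_mul, PEquiv.toMatrix_toPEquiv_mul, D.hx, D.hw]
  ext i j
  simp only [submatrix_apply, mul_diagonal, Matrix.smul_apply, W11, of_apply, smul_eq_mul, id, mul_assoc γ, ← pow_add]
  exact congrArg _ (z_eq D.prim (by revert i j; decide +kernel)))

theorem wy : w * y = x * x * w := Units.ext (by
  simp only [Units.val_mul, D.hx, D.hy, D.hw, Matrix.mul_assoc, PEquiv.mul_toMatrix_toPEquiv]
  ext i j
  simp only [submatrix_apply, diagonal_mul, Matrix.smul_apply, W11, of_apply, smul_eq_mul, id, mul_left_comm _ γ,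
    ← pow_add]
  exact congrArg _ (z_eq D.prim (by revert i j; decide +kernel)))

theorem ww : w ^ 2 = t := Units.ext (by rw [sq, Units.val_mul, D.hw, w_sq D.prim D.ga, D.ht])

theorem tt : t * t = 1 := Units.ext (by
  rw [Units.val_mul, D.ht, neg_mul_neg, ← permMatrix_mul, show rn * rn = 1 by decide]; simp)

theorem uw : (u * w) ^ 3 = 1 := by
  have k : u * w * u * w * u = w * t := Units.ext (by
    simp only [Units.val_mul, D.ht, D.hw, D.hu, mul_neg, PEquiv.mul_toMatrix_toPEquiv]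
    ext i j
    rw [mul_diagonal, mul_apply]
    simp only [mul_diagonal, diagonal_mul, Matrix.smul_apply, W11, of_apply, smul_eq_mul, Matrix.neg_apply,
      submatrix_apply, id]
    rw [Finset.sum_mul, Finset.sum_congr rfl fun (k : Fin 11) _ => show _ = γ ^ 2 * ζ ^ (2 * i.1 * (rn.symm j).1 % 11) *
      ζ ^ ((Equiv.addRight (i + j) k).1 * (Equiv.addRight (i + j) k).1) by
        rw [mul_assoc (γ ^ 2), ← pow_add]
        refine .trans ?_ (congrArg _ (z_eq D.prim (m := i.1 * i.1 + 2 * i.1 * k.1 % 11 + k.1 * k.1 +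
          2 * k.1 * j.1 % 11 + j.1 * j.1) (by clear * -; revert i j k; decide +kernel)))
        simp only [pow_add]; ring, ← Finset.mul_sum, Equiv.sum_comp (Equiv.addRight (i + j)) fun k : Fin 11 => ζ ^ (k.1 * k.1),
      gauss D.prim, ← D.ga]
    linear_combination γ * ζ ^ (2 * i.1 * (rn.symm j).1 % 11) * D.g2)
  rw [pow_three', ← mul_assoc, ← mul_assoc, k, ← D.ww, ← pow_succ', ← pow_succ,
    show 2 + 1 + 1 = 2 + 2 by rfl, pow_add, D.ww, D.tt]

theorem hxr : h * x = x * x * h := Units.ext (by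
  simp only [Units.val_mul, D.hx, D.hh]
  ext i j
  simp only [diagonal_mul, mul_diagonal, Matrix.mul_assoc, Matrix.neg_apply, PEquiv.toMatrix_apply]
  split_ifs with e
  · simpa only [← pow_add, neg_mul, mul_neg, one_mul, mul_one, neg_inj, ← Option.mem_some_iff.1 e] using
      z_eq D.prim ((by decide : ∀ i : Fin 11, (r2 i).1 % 11 = (i.1 + i.1) % 11) i)
  · simp)

theorem hyr : h * y = y ^ 6 * h := Units.ext (by
  simp only [Units.val_mul, Units.val_pow_eq_pow_val, D.hy, D.hh, neg_mul, mul_neg, ← permMatrix_mul, pow_succ,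
    pow_zero, one_mul]
  rw [show r1 * r2 = r2 * (r1 * (r1 * (r1 * (r1 * (r1 * r1))))) by decide])

theorem hur : h * u = u * u * u * u * h := Units.ext (by
  simp only [Units.val_mul, D.hu, D.hh]
  ext i j
  simp only [diagonal_mul, mul_diagonal, Matrix.mul_assoc, Matrix.neg_apply, PEquiv.toMatrix_apply]
  split_ifs with e
  · simpa only [← pow_add, neg_mul, mul_neg, one_mul, mul_one, neg_inj, ← Option.mem_some_iff.1 e] using
      z_eq D.prim ((by decide : ∀ i : Fin 11, (r2 i).1 * (r2 i).1 % 11 =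
        (i.1 * i.1 + (i.1 * i.1 + (i.1 * i.1 + i.1 * i.1))) % 11) i)
  · simp)

theorem pt : Pm t rn := pm_of (D.ht.trans (neg_one_smul F _).symm)

theorem ph : Pm h r2 := pm_of (D.hh.trans (neg_one_smul F _).symm)

theorem py : Pm y r1 := pm_of (D.hy.trans (one_smul F _).symm)

theorem ti : t⁻¹ = t := inv_eq_of_mul_eq_one_right D.tt

theorem tx : t * x * t = x⁻¹ := eq_inv_of_mul_eq_one_left (Units.ext (by
  have := D.pt x.1
  rw [cj_coe, D.ti] at this
  rw [Units.val_mul, this, D.hx, submatrix_diagonal_equiv, diagonal_mul_diagonal, Units.val_one, ← diagonal_one]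
  congr 1
  ext i
  simpa only [← pow_add, Function.comp, pow_zero] using z_eq D.prim (n := 0) (by revert i; decide)))

theorem tu : t * u = u * t := Units.ext ((cj_eq_self_iff _ _).1 (by
  rw [D.pt, D.hu, submatrix_diagonal_equiv]
  congr 1
  ext i
  exact z_eq D.prim (by revert i; decide)))

theorem th : t * h = h * t := Units.ext (by
  simp only [Units.val_mul, D.ht, D.hh, neg_mul_neg, ← permMatrix_mul]
  rw [show r2 * rn = rn * r2 by decide])

theorem tw : t * w = w * t := by rw [← D.ww]; exact (Commute.pow_self w 2).eq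

theorem u11 : u ^ 11 = 1 := Units.ext (by
  rw [Units.val_pow_eq_pow_val, D.hu, diagonal_pow, Units.val_one, ← diagonal_one]
  congr 1
  ext i
  simpa only [← pow_mul, Pi.pow_apply, pow_zero] using z_eq D.prim (n := 0) (by simp))

theorem dets : x.1.det = 1 ∧ y.1.det = 1 ∧ u.1.det = 1 ∧ w.1.det = 1 ∧ h.1.det = 1 := by
  have h1 : u.1.det = 1 := by
    rw [D.hu, det_diagonal, Finset.prod_pow_eq_pow_sum]
    exact (z_eq D.prim (n := 0) (by decide)).trans (pow_zero _)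
  have h2 := congrArg (·.1.det) D.ww
  have h3 := congrArg (·.1.det) D.uw
  simp only [Units.val_pow_eq_pow_val, Units.val_mul, det_pow, det_mul, D.ht, det_neg, det_permutation, h1,
    show rn.sign = -1 by decide +kernel, Units.val_one, det_one, Fintype.card_fin] at h2 h3
  push_cast at h2
  exact ⟨by
    rw [D.hx, det_diagonal, Finset.prod_pow_eq_pow_sum]
    exact (z_eq D.prim (n := 0) (by decide)).trans (pow_zero _), by
    simp [D.hy, det_permutation, show r1.sign = 1 by decide +kernel], h1, by grind, by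
    simp [D.hh, det_neg, det_permutation, show r2.sign = -1 by decide +kernel]; norm_num⟩

theorem diag_x {Z : M11} (e : Z * x.1 = x.1 * Z) {i j : Fin 11} (k : i ≠ j) : Z i j = 0 := by
  have := congrFun (congrFun e i) j
  rw [D.hx, mul_diagonal, diagonal_mul, mul_comm] at this
  exact (mul_eq_mul_right_iff.1 this).resolve_left (z_ne D.prim (by omega))

theorem schur {Z : M11} (e : Z * x.1 = x.1 * Z) (e' : Z * y.1 = y.1 * Z) : ∃ c : F, Z = c • 1 := by
  have k : ∀ i, Z (r1 i) (r1 i) = Z i i := fun i =>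
    congrFun (congrFun ((D.py Z).symm.trans ((cj_eq_self_iff _ _).2 e'.symm)) i) i
  have k1 : ∀ (n : ℕ) i, Z ((r1 ^ n) i) ((r1 ^ n) i) = Z i i := fun n => by
    induction n with
    | zero => simp
    | succ n ih => intro i; rw [pow_succ', Equiv.Perm.mul_apply, k, ih]
  refine ⟨Z 0 0, ext fun i j => ?_⟩
  by_cases ij : i = j
  · obtain ⟨m, rfl⟩ := (by decide : ∀ i : Fin 11, ∃ m : Fin 11, (r1 ^ m.1) 0 = i) i
    simp [← ij, k1]
  · simp [D.diag_x e ij, ij]

theorem single_mem {A : Submodule F M11} (hx : ∀ Z ∈ A, cj x Z ∈ A) (hu : ∀ Z ∈ A, cj u Z ∈ A) {Z : M11}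
    (hZ : Z ∈ A) {i j : Fin 11} (ij : i ≠ j) (h0 : Z i j ≠ 0) : single i j 1 ∈ A := by
  obtain ⟨Z, h1, h2, h3⟩ := exists_suppM A (fun k l => k = i ∧ l = j) (fun k l n => by
    rcases (by decide +kernel : ∀ i j k l : Fin 11, i ≠ j → ¬ (k = i ∧ l = j) → (k.1 + j.1) % 11 ≠ (i.1 + l.1) % 11 ∨
      (k.1 * k.1 + j.1 * j.1) % 11 ≠ (i.1 * i.1 + l.1 * l.1) % 11) i j k l ij n with e | e
    · exact ⟨x, _, D.hx, by simpa only [← pow_add] using z_ne D.prim e, hx⟩
    · exact ⟨u, _, D.hu, by simpa only [← pow_add] using z_ne D.prim e, hu⟩) hZ h0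
  convert A.smul_mem (Z i j)⁻¹ h1 using 1
  ext k l
  by_cases e : k = i ∧ l = j
  · simp [e, h2]
  · simp [single_apply, not_not.1 (mt (h3 k l) e), show ¬ (i = k ∧ j = l) by tauto]

theorem zu {g : G11} (e : g * u = u * g) {i j : Fin 11} (h1 : j ≠ i) (h2 : j ≠ rn i) : g.1 i j = 0 := by
  have := congrArg (·.1 i j) e
  simp only [Units.val_mul] at this
  rw [D.hu, mul_diagonal, diagonal_mul, mul_comm] at this
  exact (mul_eq_mul_right_iff.1 this).resolve_left (z_ne D.prim (by clear * - h1 h2; revert i j; decide))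

theorem sy {g : G11} (e : g * t = t * g) (i j : Fin 11) : g.1 (rn i) (rn j) = g.1 i j :=
  congrFun (congrFun ((D.pt g.1).symm.trans ((cj_eq_self_iff _ _).2 (congrArg Units.val e).symm)) i) j

end Md

theorem exists_md (hz : IsPrimitiveRoot ζ 11) : ∃ γ x y u w h t, Md ζ γ x y u w h t := by
  have z0 := hz.ne_zero (by norm_num)
  have k : ∀ σ : Equiv.Perm (Fin 11), (σ.permMatrix F).det ≠ 0 := fun σ => by
    rcases Int.units_eq_one_or σ.sign with e | e <;> simp [det_permutation, e]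
  have k1 : ∀ d : Fin 11 → ℕ, (diagonal fun i => ζ ^ d i).det ≠ 0 := fun d => by
    simp [Finset.prod_ne_zero_iff, z0]
  obtain ⟨γ, hγ⟩ : ∃ γ : F, 11 * γ = 1 + 2 * ζ + 2 * ζ ^ 3 + 2 * ζ ^ 4 + 2 * ζ ^ 5 + 2 * ζ ^ 9 :=
    ⟨_, mul_div_cancel₀ _ (el_ne hz)⟩
  exact ⟨γ, .mkOfDetNeZero _ (k1 _), .mkOfDetNeZero _ (k _), .mkOfDetNeZero _ (k1 _),
    .mkOfDetNeZero (γ • W11 ζ) (fun e => k rn (by
      rw [← neg_neg (rn.permMatrix F), ← w_sq hz hγ, det_neg, det_mul, e, mul_zero, mul_zero])),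
    -.mkOfDetNeZero _ (k _), -.mkOfDetNeZero _ (k _), hz, hγ, rfl, rfl, rfl, rfl, rfl, rfl⟩

end Cfsg.Lib.C6E
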