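import Cfsg.Agent.Lib.C6.ElA
import Cfsg.Agent.Lib.PGroup.Critical

/-! Overgroups of `11^{1+2}.SL₂(11)`: definitions, irreducibility, transvections, the group `Q`. -/

set_option autoImplicit false

namespace Cfsg.Lib.C6E

open scoped MatrixGroups
open Subgroup Matrix MulAction Cfsg.Geo Cfsg.Lib.C6
open Cfsg.Lib.Asch hiding tr
open Cfsg.Lib.Linear (mem_specialLinear)

variable {F : Type*} [Field F] {ζ γ : F}

local notation "G11" => GL (Fin 11) F
local notation "M11" => Matrix (Fin 11) (Fin 11) F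

/-- An overgroup of the model containing the scalars. -/
structure Ov (ζ γ : F) (x y u w h t : G11) (M : Subgroup G11) : Prop extends Md ζ γ x y u w h t where
  mx : x ∈ M
  my : y ∈ M
  mu : u ∈ M
  mw : w ∈ M
  mh : h ∈ M
  sc : scalars _ F ≤ M

/-- No transvections with centre the first basis vector. -/
def NR (M : Subgroup G11) : Prop := ∀ φ, Linear.Tv M (Pi.single 0 1) φ → φ = 0

theorem NR.eq_one {M : Subgroup G11} (N : NR M) {g : G11} (hg : g ∈ M) (h0 : g.1 0 0 = 1)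
    (h : ∀ i j, i ≠ 0 → g.1 i j = (1 : M11) i j) : g = 1 := by
  have k : g.1 = 1 + vecMulVec (Pi.single 0 1) (g.1 0 - Pi.single 0 1) := by
    ext i j
    by_cases e : i = 0
    · simp [e, vecMulVec_apply, one_apply, Pi.single_apply, eq_comm]
    · simp [e, h, vecMulVec_apply]
  have := N (g.1 0 - Pi.single 0 1) ⟨by simp [h0], by convert hg; exact Units.ext k.symm⟩
  exact Units.ext (by rw [k, this]; simp)

namespace Ov

variable {x y u w h t : GL (Fin 11) F} {M : Subgroup (GL (Fin 11) F)} (D : Ov ζ γ x y u w h t M)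
include D

theorem mt : t ∈ M := D.ww ▸ pow_mem D.mw 2

theorem move {i j k l : Fin 11} (ij : i ≠ j) (kl : k ≠ l) :
    ∃ g ∈ M, ∀ c, cj g (single i j c) = single k l c := by
  have k0 : ∀ i j : Fin 11, i ≠ j → ∃ g ∈ M, ∀ c, cj g (single i j c) = single 0 1 c := fun i j ij => by
    obtain ⟨a, b, e1, e2⟩ := (by decide +kernel : ∀ i j : Fin 11, i ≠ j → ∃ a : Fin 11, ∃ b : Fin 10,
      (r1 ^ a.1 * r2 ^ b.1) 0 = i ∧ (r1 ^ a.1 * r2 ^ b.1) 1 = j) i j ij
    refine ⟨_, mul_mem (pow_mem D.mh b) (pow_mem D.my a), fun c => ?_⟩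
    rw [(D.ph.pow _).mul (D.py.pow _), ← e1, ← e2]
    ext m n
    simp [single_apply, -Equiv.Perm.coe_mul]
  obtain ⟨a, ha, e1⟩ := k0 i j ij
  obtain ⟨b, hb, e2⟩ := k0 k l kl
  exact ⟨_, mul_mem (inv_mem hb) ha, fun c => by rw [cj_mul, e1, ← e2, ← cj_mul, inv_mul_cancel, cj_one]⟩

theorem sub {A : Subalgebra F M11} (hA : Nrm M A) {Z : M11} (hZ : Z ∈ A) (h0 : ∀ c : F, Z ≠ c • 1) :
    A = ⊤ := by
  obtain ⟨Z, hZ, i, j, ij, k⟩ : ∃ Z ∈ A, ∃ i j, i ≠ j ∧ Z i j ≠ 0 := by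
    by_contra! k
    have k1 : ∀ Z ∈ A, Z * x.1 = x.1 * Z := fun Z hZ => by
      ext i j
      rw [D.hx, mul_diagonal, diagonal_mul]
      by_cases ij : i = j
      · rw [ij, mul_comm]
      · simp [k Z hZ i j ij]
    obtain ⟨c, hc⟩ := D.schur (k1 Z hZ) (cj_injective w (by
      rw [cj_mul_mat, cj_mul_mat, cj_coe, D.wy, mul_inv_cancel_right]
      exact (Commute.mul_right (k1 _ (hA w D.mw Z hZ)) (k1 _ (hA w D.mw Z hZ))).eq))
    exact h0 c hc
  have k1 := D.single_mem (A := A.toSubmodule) (hA x D.mx) (hA u D.mu) hZ ij k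
  have k2 : ∀ k l, k ≠ l → single k l 1 ∈ A := fun k l kl =>
    let ⟨g, hg, e⟩ := D.move ij kl
    e 1 ▸ hA g hg _ k1
  refine eq_top_iff.2 fun Y _ => ?_
  rw [matrix_eq_sum_single Y]
  refine sum_mem fun k _ => sum_mem fun l _ => ?_
  rw [← mul_one (Y k l), ← smul_eq_mul, ← smul_single]
  refine A.smul_mem ?_ _
  by_cases kl : k = l
  · obtain ⟨m, hm⟩ := exists_ne k
    simpa [kl] using mul_mem (k2 k m hm.symm) (k2 m k hm)
  · exact k2 k l kl

theorem tv_dg {φ : Fin 11 → F} (k : Linear.Tv M (Pi.single 0 1) φ) (a b : ℕ) :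
    Linear.Tv M (Pi.single 0 1) fun i => φ i * ζ ^ (i.1 * a + i.1 * i.1 * b) := by
  have e : (x ^ a * u ^ b).1 = diagonal fun i => ζ ^ (i.1 * a + i.1 * i.1 * b) := by
    simp [D.hx, D.hu, diagonal_pow, ← pow_mul, pow_add]
  convert k.conj (inv_mem (mul_mem (pow_mem D.mx a) (pow_mem D.mu b))) using 1
  · refine Linear.GL_mulVec_injective (x ^ a * u ^ b) ?_
    beta_reduce
    rw [Linear.GL_mulVec_inv_mulVec, e]
    simp
  · ext i; rw [inv_inv, e, vecMul_diagonal]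

theorem sl_le [Finite F] (hg : ∀ k : Subfield F, ζ ∈ k → k = ⊤) (N : ¬ NR M) : specialLinear (Fin 11) F ≤ M := by
  obtain ⟨φ, k, h0⟩ : ∃ φ, Linear.Tv M (Pi.single 0 1) φ ∧ φ ≠ 0 := by simpa [NR] using N
  obtain ⟨j, hj⟩ := Function.ne_iff.1 h0
  have z : ∀ {φ}, Linear.Tv M (Pi.single 0 1) φ → φ 0 = 0 := fun k => by simpa using k.dot
  have j0 : 0 ≠ j := by rintro rfl; exact hj (z k)
  obtain ⟨ψ, k1, k2, k3⟩ : ∃ ψ, Linear.Tv M (Pi.single 0 1) ψ ∧ ψ j ≠ 0 ∧ ∀ l ∈ ({j}ᶜ : Finset _), ψ l = 0 := by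
    have : ∀ l ∈ ({j}ᶜ : Finset _), l ≠ j := by simp
    generalize ({j}ᶜ : Finset _) = s at this ⊢
    induction s using Finset.induction_on with
    | empty => exact ⟨φ, k, hj, by simp⟩
    | insert l s _ ih =>
      obtain ⟨ψ, k1, k2, k3⟩ := ih fun b hb => this b (Finset.mem_insert_of_mem hb)
      refine ⟨_, (D.tv_dg k1 (11 - l) 1).sub_right k1, ?_, fun m hm => ?_⟩
      · rw [Pi.sub_apply, ← mul_sub_one, mul_ne_zero_iff, sub_ne_zero]
        exact ⟨k2, by simpa using z_ne D.prim (n := 0) ((by decide : ∀ j l : Fin 11, 0 ≠ j → l ≠ j →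
          (j.1 * (11 - l.1) + j.1 * j.1 * 1) % 11 ≠ 0 % 11) j l j0 (this l (by simp)))⟩
      · rcases Finset.mem_insert.1 hm with rfl | hm
        · rw [Pi.sub_apply, z_eq D.prim (n := 0) (by clear * -; revert m; decide)]; simp
        · simp [k3 m hm]
  let A : AddSubgroup F :=
    { carrier := {c | Linear.Tv M (Pi.single 0 1) (Pi.single j c)}
      zero_mem' := by simpa using Linear.Tv.zero_right _ _
      add_mem' := fun ha hb => by simpa [Pi.single_add] using ha.add_right hb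
      neg_mem' := fun ha => by simpa [Pi.single_neg] using ha.neg_right }
  have k4 := hg (PSL2.multField A) fun c hc => by
    obtain ⟨a, ha⟩ := (by decide : ∀ j : Fin 11, 0 ≠ j → ∃ a : Fin 11, (j.1 * a.1 + j.1 * j.1 * 0) % 11 = 1 % 11) j j0
    change Linear.Tv _ _ _
    convert D.tv_dg hc a 0 using 1
    ext i
    by_cases e : i = j
    · rw [e, z_eq D.prim ha]; simp [mul_comm]
    · simp [e]
  refine Linear.specialLinear_le_of_single fun k l kl d => ?_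
  obtain ⟨m, hm, e1⟩ := D.move j0 kl
  obtain ⟨h1, h2⟩ : d / ψ j * ψ j ∈ A := (k4.ge (Subfield.mem_top _) :) _ (by
    change Linear.Tv _ _ _
    convert k1 using 1
    ext i
    by_cases e : i = j <;> simp [e, k3])
  refine ⟨by simp [kl.symm], ?_⟩
  convert mul_mem (mul_mem hm h2) (inv_mem hm)
  refine Units.ext ?_
  rw [← cj_coe, Linear.tvGL_coe, Linear.tvGL_coe, cj_add, cj_one_mat, div_mul_cancel₀ _ k2, vs, vs, e1]

end Ov

/-- The elements commuting with `x` and `y` modulo scalars. -/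
def Q11 (x y : G11) : Subgroup G11 := (centralizer {pr x, pr y}).comap pr

theorem mem_Q11 {x y g : G11} : g ∈ Q11 x y ↔ pr g * pr x = pr x * pr g ∧ pr g * pr y = pr y * pr g := by
  simp [Q11, mem_centralizer_iff, eq_comm]

theorem Q11.of_pr {x y g a : G11} (h : a ∈ Q11 x y) (e : pr g = pr a) : g ∈ Q11 x y := by
  rwa [mem_Q11, e, ← mem_Q11]

namespace Md

variable {x y u w h t : GL (Fin 11) F} (D : Md ζ γ x y u w h t) {g a b : GL (Fin 11) F}
include D

theorem cj_xy : cj x y.1 = ζ • y.1 := by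
  rw [cj_def, D.xy, smul_mul_assoc, Units.mul_inv_cancel_right]

theorem cj_yx : cj y x.1 = ζ ^ 10 • x.1 := y.isUnit.mul_right_cancel (by
  rw [cj_mul_self, smul_mul_assoc, D.xy, smul_smul, ← pow_succ, D.prim.pow_eq_one, one_smul])

theorem pxy : pr x * pr y = pr y * pr x := by
  rw [← map_mul, ← map_mul]; exact pr_of_smul D.xy

theorem qx : x ∈ Q11 x y := mem_Q11.2 ⟨rfl, D.pxy⟩

theorem qy : y ∈ Q11 x y := mem_Q11.2 ⟨D.pxy.symm, rfl⟩

theorem mem_cl (k : g ∈ Q11 x y) : pr g ∈ closure {pr x, pr y} := by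
  obtain ⟨c, c5, e1⟩ := cj_of_pr (mem_Q11.1 k).1
  obtain ⟨d, d5, e2⟩ := cj_of_pr (mem_Q11.1 k).2
  haveI : NeZero 11 := ⟨by norm_num⟩
  obtain ⟨m, -, rfl⟩ := D.prim.eq_pow_of_pow_eq_one (by simpa using c5)
  obtain ⟨n, -, rfl⟩ := D.prim.eq_pow_of_pow_eq_one (by simpa using d5)
  have k1 : ∀ (a : G11) n, cj (a ^ n) a.1 = a.1 := fun a n =>
    (cj_eq_self_iff _ _).2 (congrArg Units.val (Commute.pow_self a n).eq)
  have k2 : ∀ n, ζ ^ n * (ζ ^ 10) ^ n = 1 := fun n => by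
    rw [← mul_pow, ← pow_succ', D.prim.pow_eq_one, one_pow]
  have := pr_eq_one.2 (D.schur (Z := (x ^ (10 * n) * y ^ m * g).1) ((cj_eq_self_iff _ _).1 (by
    rw [cj_mul, cj_mul, e1, cj_smul, cj_pow D.cj_yx, smul_smul, k2, one_smul, k1]))
    ((cj_eq_self_iff _ _).1 (by
    rw [cj_mul, cj_mul, e2, cj_smul, k1, cj_smul, cj_pow D.cj_xy, smul_smul, pow_mul, k2, one_smul])))
  rw [map_mul, mul_eq_one_iff_inv_eq] at this
  rw [← this, map_mul, map_pow, map_pow]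
  exact inv_mem (mul_mem (pow_mem (subset_closure (by simp)) _) (pow_mem (subset_closure (by simp)) _))

theorem cm (ha : a ∈ Q11 x y) (hb : b ∈ Q11 x y) : pr a * pr b = pr b * pr a :=
  mem_centralizer_iff.1 ((centralizer_closure _).ge hb) _ (D.mem_cl ha)

theorem nq [Finite F] (e1 : g * x * g⁻¹ ∈ Q11 x y) (e2 : g * y * g⁻¹ ∈ Q11 x y) :
    g ∈ normalizer (Q11 x y : Set G11) := mem_normalizer fun s hs => by
  have := (closure_le ((centralizer {pr x, pr y}).comap (MulAut.conj (pr g)).toMonoidHom)).2 (by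
    rintro _ (rfl | rfl)
    exacts [by simpa [Q11] using e1, by simpa [Q11] using e2]) (D.mem_cl hs)
  simpa [Q11] using this

theorem nqs [Finite F] : u ∈ normalizer (Q11 x y : Set G11) ∧ w ∈ normalizer (Q11 x y : Set G11) ∧
    h ∈ normalizer (Q11 x y : Set G11) :=
  have hx := D.qx
  have hy := D.qy
  ⟨D.nq (by rwa [D.ux, mul_inv_cancel_right]) (Q11.of_pr (mul_mem (mul_mem hy hx) hx) (pr_of_smul (c := ζ) (by
      simp only [Units.val_mul, D.uy, smul_mul_assoc, Units.mul_inv_cancel_right]))),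
    D.nq (by rw [D.wx, mul_inv_cancel_right]; exact mul_mem (mul_mem (mul_mem (mul_mem hy hy) hy) hy) hy)
      (by rw [D.wy, mul_inv_cancel_right]; exact mul_mem hx hx),
    D.nq (by rw [D.hxr, mul_inv_cancel_right]; exact mul_mem hx hx)
      (by rw [D.hyr, mul_inv_cancel_right]; exact pow_mem hy 6)⟩

theorem nsc : ¬ Sc (x * x) := fun ⟨c, hc⟩ => by
  have h1 := congrFun (congrFun hc 0) 0
  have h2 := congrFun (congrFun hc 1) 1
  simp [D.hx] at h1 h2
  exact z_ne D.prim (m := 2) (n := 0) (by decide) (by rw [sq, h2, ← h1, pow_zero])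

theorem nst : ¬ Sc t := fun k => D.nsc (by
  have := D.tx
  rw [k.comm, mul_assoc, D.tt, mul_one, eq_inv_iff_mul_eq_one] at this
  exact this ▸ sc_one)

end Md

namespace Ov

variable {x y u w h t : GL (Fin 11) F} {M : Subgroup (GL (Fin 11) F)} (D : Ov ζ γ x y u w h t M)
include D

theorem env_top {L : Subgroup G11} (k : M ≤ normalizer (L : Set G11)) (k1 : ¬ L ≤ scalars _ F) :
    env L = ⊤ :=
  let ⟨_, hZ, e⟩ := exists_not_smul k1
  D.sub (nrm_env k) hZ e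

theorem inf [Finite F] : Ov ζ γ x y u w h t (M ⊓ normalizer (Q11 x y : Set G11)) :=
  ⟨D.toMd, ⟨D.mx, le_normalizer D.qx⟩, ⟨D.my, le_normalizer D.qy⟩, ⟨D.mu, D.nqs.1⟩, ⟨D.mw, D.nqs.2.1⟩,
    ⟨D.mh, D.nqs.2.2⟩, fun _ hg => ⟨D.sc hg, (sc_of_mem hg).mem_normalizer⟩⟩

theorem le_of_ab [Finite F] {N : Subgroup G11} (k : M ≤ normalizer (N : Set G11)) (k1 : ¬ N ≤ scalars _ F)
    (k2 : ⁅N, N⁆ ≤ scalars _ F) : M ≤ normalizer (Q11 x y : Set G11) := by
  have c1 : ∀ a ∈ N, ∀ b ∈ N, pr a * pr b = pr b * pr a := fun a ha b hb =>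
    sc_comm_iff.1 (sc_of_mem (k2 (commutator_mem_commutator ha hb)))
  haveI : Fact (Fintype.card (Fin 11)).Prime := ⟨by simpa using Nat.prime_eleven⟩
  have q1 : ¬ Q11 x y ≤ scalars _ F := fun e => D.nsc (sc_of_mem (e (mul_mem D.qx D.qx)))
  obtain ⟨⟨_, ⟨n, hn, rfl⟩, h1⟩, h2⟩ := ne_bot_iff_exists_ne_one.1 (PGroup.inf_centralizer_ne_bot
    (pgrp (D.env_top k k1) c1) ((pgrp (D.inf.env_top inf_le_right q1)
      fun a ha b hb => D.cm ha hb).to_le (map_mono (inf_le_right (a := M))))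
    (nrm_map (inf_le_left.trans k)) fun e => k1 fun a ha =>
      mem_scalars (pr_eq_one.1 ((Subgroup.map_eq_bot_iff N).1 e ha)))
  have t1 := D.inf.env_top (L := N ⊓ Q11 x y) ((inf_le_inf_right _ k).trans inf_normalizer_le_normalizer_inf)
    fun e => h2 (Subtype.ext (pr_eq_one.2 (sc_of_mem (e ⟨hn, mem_Q11.2
      ⟨(h1 _ (mem_map_of_mem _ ⟨D.mx, D.qx⟩)).symm, (h1 _ (mem_map_of_mem _ ⟨D.my, D.qy⟩)).symm⟩⟩))))
  have c2 := fun g => cent (g := g) t1 fun a ha b hb => c1 a ha.1 b hb.1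
  refine fun g hg => mem_normalizer fun s hs => ?_
  obtain ⟨r, hr, e⟩ := c2 s fun r hr => D.cm hs hr.2
  obtain ⟨r', hr', e'⟩ := c2 _ fun r' hr' => c1 _ (conj_mem (k hg) hr.1) r' hr'.1
  exact Q11.of_pr hr'.2 (by simp [e', e])

end Ov

end Cfsg.Lib.C6E
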