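import Cfsg.Agent.Lib.C6.ElT

/-! Matrix lemmas: a diagonal matrix with distinct entries and a matrix without zero entries; Clifford frames. -/

set_option autoImplicit false

namespace Cfsg.Lib.C6E

open scoped MatrixGroups
open Subgroup Matrix MulAction Cfsg.Geo Cfsg.Lib.C6
open Cfsg.Lib.Asch hiding tr
open Cfsg.Lib.Linear (mem_specialLinear)

variable {F : Type*} [Field F] {ι : Type} [Fintype ι] [DecidableEq ι] {u w g : GL ι F} {d : ι → F}

/-- Compare the entries `(i, j)` of `g u = u g`: `g i j * d j = d i * g i j`. -/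
theorem diag_of_comm (hu : u.1 = diagonal d) (hd : Function.Injective d) (e : g * u = u * g) :
    g.1 = diagonal g.1.diag := by
  ext i j
  by_cases ij : i = j
  · simp [ij]
  · have := congrArg (·.1 i j) e
    simp only [Units.val_mul] at this
    rw [hu, mul_diagonal, diagonal_mul, mul_comm] at this
    rw [diagonal_apply_ne _ ij]
    exact (mul_eq_mul_right_iff.1 this).resolve_left (hd.ne (Ne.symm ij))

/-- Let `W ≠ ⊥` be invariant.  For `x ∈ W` with `x i ≠ 0`, `∏_{l ≠ i} (u - d l) x` is a non-zero multiple of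
`e_i` (or use `exists_supp` with the coordinate functionals `LinearMap.proj`), so `e_i ∈ W`.  Then `w e_i ∈ W` has
all coordinates non-zero, so every `e_j ∈ W`. -/
theorem irr_of_diag (hu : u.1 = diagonal d) (hd : Function.Injective d) (hw : ∀ i j, w.1 i j ≠ 0) :
    Irr (closure {u, w}) := by
  intro W hW
  have k : ∀ v ∈ W, ∀ i, v i ≠ 0 → Pi.single i (1 : F) ∈ W := fun v hv i h0 => by
    obtain ⟨v, h1, h2, h3⟩ := exists_supp (fun i => LinearMap.proj (R := F) (φ := fun _ : ι => F) i) W
      (Finset.univ.erase i) (fun b hb => ⟨d, hd.ne (Finset.ne_of_mem_erase hb), fun v hv =>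
        ⟨_, hW u (subset_closure (by simp)) v hv, fun x => by simp [hu, mulVec_diagonal]⟩⟩) hv h0
    convert W.smul_mem (v i)⁻¹ h1 using 1
    ext j
    by_cases e : j = i
    · simp [e, show v i ≠ 0 from h2]
    · simp [e, show v j = 0 from h3 j (by simp [e])]
  refine or_iff_not_imp_left.2 fun h => eq_top_iff.2 fun x _ => ?_
  obtain ⟨v, hv, h0⟩ := W.exists_mem_ne_zero_of_ne_bot h
  obtain ⟨i, hi⟩ := Function.ne_iff.1 h0
  rw [pi_eq_sum_univ' x]
  exact sum_mem fun j _ => W.smul_mem _
    (k _ (hW w (subset_closure (by simp)) _ (k v hv i hi)) j (by simpa using hw j i))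

/-- If `g` and `w g w⁻¹` commute with `u` both are diagonal (`diag_of_comm`), `w * diag a = diag b * w` gives
`w i j * a j = b i * w i j`, so `a j = b i` for all `i, j`. -/
theorem sc_of_diag (hu : u.1 = diagonal d) (hd : Function.Injective d) (hw : ∀ i j, w.1 i j ≠ 0)
    (e : g * u = u * g) (e' : w * g * w⁻¹ * u = u * (w * g * w⁻¹)) : Sc g := by
  obtain ⟨a, ha⟩ : ∃ a, g.1 = diagonal a := ⟨_, diag_of_comm hu hd e⟩
  obtain ⟨b, hb⟩ : ∃ b, (w * g * w⁻¹).1 = diagonal b := ⟨_, diag_of_comm hu hd e'⟩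
  have k : ∀ i j, a j = b i := fun i j => by
    have := congrArg (·.1 i j) (inv_mul_cancel_right (w * g) w)
    simp only [Units.val_mul (w * g * w⁻¹), Units.val_mul w g] at this
    rw [ha, hb, diagonal_mul, mul_diagonal, mul_comm] at this
    exact mul_left_cancel₀ (hw i j) this.symm
  rcases isEmpty_or_nonempty ι with _ | ⟨⟨i⟩⟩
  · exact ⟨0, Subsingleton.elim _ _⟩
  · exact ⟨b i, by rw [ha, funext (k i), smul_one_eq_diagonal]⟩

/-- `sc_of_diag` with `g = u`: `u` is not scalar as `d` is injective. -/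
theorem nc_of_diag [Nontrivial ι] (hu : u.1 = diagonal d) (hd : Function.Injective d) (hw : ∀ i j, w.1 i j ≠ 0) :
    u * (w * u * w⁻¹) ≠ w * u * w⁻¹ * u := by
  intro e
  obtain ⟨c, hc⟩ := sc_of_diag hu hd hw rfl e.symm
  obtain ⟨i, j, ij⟩ := exists_pair_ne ι
  rw [hu, smul_one_eq_diagonal, diagonal_eq_diagonal_iff] at hc
  exact ij (hd ((hc i).trans (hc j).symm))

/-- No four pairwise anticommuting `6 × 6` matrices `A, B, C, D` with squares `-1`.
(1) `(A + B) A = B (A + B)` and `(A + B)² = -2`, so `det A = det B` (take determinants, `det (A+B) ≠ 0`); likewise for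
`C, D`; `det A ^ 2 = det (-1) = 1`.  So `E = A B C D` has `det E = 1`.
(2) `E² = 1` and `A E = -E A`.  Over `F[X]` put `p = det (X - E)` (`charpoly`); conjugation by `A` gives
`p = det (X + E)`, so `p² = det (X² - 1) = ((X² - 1)³)²`, `p = ±(X² - 1)³`, `p` is monic, `det E = p(0) = -1`.
(Alternatively ranks: `rank (1 + E) = rank (1 - E) = 3`.)  Contradiction with `2 ≠ 0`. -/
theorem clif (h2 : (2 : F) ≠ 0) (g : Fin 4 → Matrix (Fin 6) (Fin 6) F) (h : ∀ i, g i * g i = -1)
    (h' : ∀ i j, i ≠ j → g i * g j = -(g j * g i)) : False := by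
  have k : ∀ i j, j < i → ∀ X, g i * (g j * X) = -(g j * (g i * X)) := fun i j e X => by
    rw [← mul_assoc, h' i j e.ne', neg_mul, mul_assoc]
  have k' : ∀ i j, j < i → g i * g j = -(g j * g i) := fun i j e => h' i j e.ne'
  have s : ∀ i X, g i * (g i * X) = -X := fun i X => by rw [← mul_assoc, h, neg_one_mul]
  have d1 : ∀ i j, i ≠ j → (g i).det * (g j).det = 1 := fun i j e => by
    have e1 := congrArg det (show (g i + g j) * g i = g j * (g i + g j) by rw [add_mul, mul_add, h, h, add_comm])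
    have e2 := congrArg det (show (g i + g j) * (g i + g j) = (-2 : F) • 1 by
      rw [add_mul, mul_add, mul_add, h, h, h' i j e, neg_smul, two_smul]; abel)
    have e3 := congrArg det (h i)
    rw [det_mul, det_smul, det_one, mul_one] at e2
    rw [det_mul, det_mul, mul_comm] at e1
    rw [det_mul, det_neg, det_one, Fintype.card_fin] at e3
    rw [← mul_right_cancel₀ (fun e => pow_ne_zero _ (neg_ne_zero.2 h2) (by rw [← e2, e, mul_zero])) e1, e3]
    norm_num
  obtain ⟨E, hE⟩ : ∃ E, E = g 0 * g 1 * (g 2 * g 3) := ⟨_, rfl⟩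
  have e1 : E.det = 1 := by rw [hE, det_mul, det_mul, det_mul, d1 0 1 (by decide), d1 2 3 (by decide), mul_one]
  have e2 : E * E = 1 := by
    simp (disch := decide) only [hE, mul_assoc, k, h, mul_neg, neg_neg, mul_one]
  have e3 : (-E).charpoly = E.charpoly := by
    rw [← s 0 E, charpoly_mul_comm]
    simp (disch := decide) only [hE, mul_assoc, k, k', s, neg_mul, mul_neg, neg_neg]
  have e4 : E.charpoly ^ 2 = ((.X ^ 2 - 1) ^ 3) ^ 2 := by
    rw [sq, ← pow_mul]
    nth_rw 2 [← e3]
    rw [charpoly, charpoly, ← det_mul, charmatrix, charmatrix, map_neg, sub_neg_eq_add, sub_mul, mul_add, mul_add,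
      ← map_mul, ← map_mul, e2, map_one, (scalar_commute _ (fun _ => .all _ _) _).eq, add_sub_add_comm,
      sub_add_sub_cancel, ← map_one (scalar _), ← map_sub, scalar_apply, det_diagonal]
    simp [sq]
  rcases sq_eq_sq_iff_eq_or_eq_neg.1 e4 with e | e
  · rw [det_eq_sign_charpoly_coeff, e, Polynomial.coeff_zero_eq_eval_zero] at e1
    simp at e1
    exact h2 (by linear_combination -e1)
  · have := E.charpoly_monic.coeff_natDegree
    rw [charpoly_natDegree_eq_dim, e, Fintype.card_fin, show (-(.X ^ 2 - 1) ^ 3 : Polynomial F) = -.X ^ 6 + 3 * .X ^ 4 - 3 * .X ^ 2 + 1 by ring] at this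
    simp [Polynomial.coeff_one] at this
    exact h2 (by linear_combination -this)

/-- The frame in `SL₅`.  `exists_diag_sim` (`r = 2`, `c = 1`) gives `v i = ±1` with `diagonal v` similar to `w`.
Every involution `a` with determinant and trace `1` has exactly two entries `-1` (`m` entries `-1`: `m` even from the
determinant, `5 - 2 m = 1`, and `4 ≠ 0`), so it is similar to `d₀₁ = diag (-1,-1,1,1,1)` (permute the coordinates), and
`exists_sl_conj` (`r = 2`) makes any two of them conjugate in `SL₅`.  Take `g i = diag` with `-1` at `0` and `i + 1`: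
`g i` and `g i * g j` are involutions with determinant and trace `1`. -/
theorem c_top [Fintype F] (h2 : (2 : F) ≠ 0) {Γ : Subgroup (GL (Fin 5) F)} {w a : GL (Fin 5) F}
    (h : specialLinear (Fin 5) F ≤ Γ) (w2 : w * w = 1) (dw : w.1.det = 1) (tw : w.1.trace = 1) : Cn Γ w a := by
  have k1 : ∀ a : GL (Fin 5) F, a * a = 1 → a.1.det = 1 → a.1.trace = 1 →
      GLC.Sim (toLin' (diagonal fun i => (((![-1, -1, 1, 1, 1] i : ℤˣ) : ℤ) : F))) (toLin' a.1) := fun a a2 da ta => by
    obtain ⟨v, hv, e⟩ := exists_diag_sim (r := 2) (c := (1 : F)) (M := a.1) (by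
      have := FiniteField.odd_card_of_char_ne_two (F := F) fun e => h2 (by
        exact_mod_cast e ▸ ringChar.Nat.cast_ringChar (R := F))
      rw [Nat.card_eq_fintype_card]
      omega) one_ne_zero (by rw [sq, ← Units.val_mul, a2, one_pow, one_smul, Units.val_one])
    obtain ⟨s, rfl⟩ : ∃ s : Fin 5 → ℤˣ, v = fun i => (((s i : ℤˣ) : ℤ) : F) := by
      have : ∀ i, ∃ s : ℤˣ, v i = ((s : ℤ) : F) := fun i =>
        (sq_eq_sq_iff_eq_or_eq_neg.1 (hv i)).elim (fun e => ⟨1, by simp [e]⟩) fun e => ⟨-1, by simp [e]⟩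
      choose s hs using this
      exact ⟨s, funext hs⟩
    obtain ⟨c, hc⟩ := GLC.isConj_iff_sim.2 e
    replace hc := c.mul_inv_eq_iff_eq_mul.2 hc.eq
    rw [← hc, det_units_conj, det_diagonal, ← Int.cast_prod] at da
    rw [← hc, trace_units_conj, trace_diagonal, ← Int.cast_sum] at ta
    rcases (by decide +kernel : ∀ s : Fin 5 → ℤˣ, Finset.univ.val.map s = Finset.univ.val.map ![-1, -1, 1, 1, 1] ∨
      ∏ i, (s i : ℤ) = -1 ∨ ∑ i, (s i : ℤ) = 5 ∨ ∑ i, (s i : ℤ) = -3) s with k | k | k | k
    · refine .trans ((GLC.blocks_diagonal _).sim ?_) e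
      convert GLC.blocks_diagonal _ using 2
      simpa only [Multiset.map_map, Function.comp_def] using congrArg (Multiset.map fun s : ℤˣ => ((s : ℤ) : F)) k.symm
    · rw [k] at da
      exact absurd (by push_cast at da; linear_combination -da) h2
    all_goals
      rw [k] at ta
      exact absurd (by push_cast at ta; first | linear_combination ta | linear_combination -ta) (mul_ne_zero h2 h2)
  let dg : (Fin 5 → ℤˣ) →* GL (Fin 5) F := MonoidHom.toHomUnits
    { toFun := fun s => diagonal fun i => (((s i : ℤˣ) : ℤ) : F)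
      map_one' := by simp
      map_mul' := fun a b => by simp }
  have k2 : ∀ s : Fin 5 → ℤˣ, s * s = 1 ∧ ∏ i, (s i : ℤ) = 1 ∧ ∑ i, (s i : ℤ) = 1 → Cj Γ w (dg s) := fun s hs => by
    obtain ⟨g, hg, e⟩ := exists_sl_conj (r := 2) (x := w) (h := dg s) (by exact_mod_cast h2)
      (by rw [sq, w2]; exact sc_one) ((k1 _ (by rw [← map_mul, hs.1, map_one])
        (by simpa [dg] using congrArg (Int.cast (R := F)) hs.2.1)
        (by simpa [dg] using congrArg (Int.cast (R := F)) hs.2.2)).symm.trans (k1 w w2 dw tw))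
    exact ⟨g⁻¹, inv_mem (h hg), by rw [inv_inv, e]⟩
  exact .inr ⟨fun i => dg fun j => if j = 0 ∨ j = i.succ then -1 else 1, fun i => k2 _ (by revert i; decide +kernel),
    fun i j ij => map_mul dg _ _ ▸ k2 _ (by revert i j; decide +kernel)⟩

end Cfsg.Lib.C6E
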