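import Cfsg.Agent.Lib.C6.ElB
import Cfsg.Agent.Lib.C6.ElH

/-! The action of the centraliser of `t` on the odd and on the even vectors. -/

set_option autoImplicit false

namespace Cfsg.Lib.C6E

open scoped MatrixGroups
open Subgroup Matrix MulAction Cfsg.Geo Cfsg.Lib.C6
open Cfsg.Lib.Asch hiding tr
open Cfsg.Lib.Linear (mem_specialLinear)

variable {F : Type*} [Field F] {ζ γ : F}

local notation "G11" => GL (Fin 11) F
local notation "M11" => Matrix (Fin 11) (Fin 11) F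

/-- Representatives of the non-zero residues up to sign. -/
def o5 : Fin 5 → Fin 11 := ![1, 2, 3, 4, 5]

/-- Representatives of the residues up to sign. -/
def o6 : Fin 6 → Fin 11 := ![0, 1, 2, 3, 4, 5]

/-- The centraliser of `t` in `M`. -/
abbrev Ct (M : Subgroup G11) (t : G11) : Subgroup G11 := M ⊓ centralizer {t}

/-- The actions on the odd vectors (basis `e_i - e_{-i}`) and on the even vectors (basis `e_0`, `e_i + e_{-i}`). -/
structure Sp (M : Subgroup G11) (t : G11) (α : Ct M t →* GL (Fin 5) F) (β : Ct M t →* GL (Fin 6) F) : Prop where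
  ha : ∀ g a b, (α g).1 a b = g.1.1 (o5 a) (o5 b) - g.1.1 (o5 a) (rn (o5 b))
  hb : ∀ g a b, (β g).1 a b =
    if b = 0 then g.1.1 (o6 a) 0 else g.1.1 (o6 a) (o6 b) + g.1.1 (o6 a) (rn (o6 b))

/-- The kernel of the action on the odd vectors is `⟨t⟩`. -/
def KER {M : Subgroup G11} {t : G11} (α : Ct M t →* GL (Fin 5) F) : Prop := ∀ k, α k = 1 → k.1 = 1 ∨ k.1 = t

/-- The arithmetic conditions on the field. -/
structure Fd (F : Type*) [Field F] [Fintype F] : Prop where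
  hq : ¬ IsSquare (Fintype.card F)
  two : (2 : F) ≠ 0
  five : (5 : F) = 0 → ∀ c : F, c ^ 121 = 1 → c ^ 11 = 1

/-- Determinants are eleventh powers. -/
def Dt (M : Subgroup G11) : Prop := ∀ g ∈ M, ∃ c : F, g.1.det = c ^ 11

theorem Ct.comm {M : Subgroup G11} {t : G11} (g : Ct M t) : g.1 * t = t * g.1 :=
  mem_centralizer_singleton_iff.1 g.2.2

theorem sum_o5 {A : Type*} [AddCommMonoid A] (f : Fin 11 → A) :
    ∑ i, f i = f 0 + ∑ a, (f (o5 a) + f (rn (o5 a))) := by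
  simp only [Fin.sum_univ_succ, o5, rn]
  simp
  abel

theorem sum_o6 {A : Type*} [AddCommMonoid A] (f : Fin 11 → A) :
    ∑ i, f i = ∑ a, if a = 0 then f (o6 a) else f (o6 a) + f (rn (o6 a)) := by
  rw [sum_o5, Fin.sum_univ_succ (n := 5)]
  exact congrArg₂ _ rfl (Finset.sum_congr rfl fun a _ => by
    rw [if_neg (Fin.succ_ne_zero a), (by decide : ∀ a, o6 (Fin.succ a) = o5 a)])

theorem rr (i : Fin 11) : rn (rn i) = i := by revert i; decide

theorem one_o5 (a b : Fin 5) : (1 : M11) (o5 a) (o5 b) - (1 : M11) (o5 a) (rn (o5 b)) = (1 : Matrix _ _ F) a b := by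
  simp only [one_apply, (by decide : ∀ a b, o5 a ≠ rn (o5 b)), (by decide : ∀ a b, o5 a = o5 b ↔ a = b)]
  simp

theorem one_o6 (a b : Fin 6) : (if b = 0 then (1 : M11) (o6 a) 0 else
    (1 : M11) (o6 a) (o6 b) + (1 : M11) (o6 a) (rn (o6 b))) = (1 : Matrix _ _ F) a b := by
  split_ifs with e
  · simp only [one_apply, e, (by decide : ∀ a, o6 a = 0 ↔ a = 0)]
  · simp only [one_apply, (by decide : ∀ a b, b ≠ 0 → o6 a ≠ rn (o6 b)) a b e,
      (by decide : ∀ a b, o6 a = o6 b ↔ a = b)]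
    simp

variable {x y u w h t : GL (Fin 11) F} {M : Subgroup (GL (Fin 11) F)}

/-- `resJ` with `J5 i a = [i = o5 a] - [i = rn (o5 a)]`, `K5 a i = [i = o5 a]`, `J6 i a = [i = o6 a ∨ i = rn (o6 a)]`,
`K6 a i = [i = o6 a]` (compare `C6S.Md.j3`, `Lib/C6/SevD.lean`); or directly: `MonoidHom.toHomUnits` with the
entries given, `map_mul` from `D.sy` by splitting `∑ i : Fin 11` into `0`, `o5 a`, `rn (o5 a)`. -/
theorem Md.exists_sp (D : Md ζ γ x y u w h t) (M : Subgroup G11) : ∃ α β, Sp M t α β := by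
  have sy := fun g : Ct M t => D.sy (Ct.comm g)
  have sy' : ∀ (g : Ct M t) i j, g.1.1 (rn i) j = g.1.1 i (rn j) := fun g i j => by rw [← sy g i, rr]
  have r0 : rn 0 = 0 := rfl
  refine ⟨MonoidHom.toHomUnits
    { toFun := fun g => of fun a b => g.1.1 (o5 a) (o5 b) - g.1.1 (o5 a) (rn (o5 b))
      map_one' := ext one_o5
      map_mul' := fun g k => ext fun a b => ?_ }, MonoidHom.toHomUnits
    { toFun := fun g => of fun a b =>
        if b = 0 then g.1.1 (o6 a) 0 else g.1.1 (o6 a) (o6 b) + g.1.1 (o6 a) (rn (o6 b))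
      map_one' := ext one_o6
      map_mul' := fun g k => ext fun a b => ?_ }, fun _ _ _ => rfl, fun _ _ _ => rfl⟩
  · simp only [coe_mul, Units.val_mul, mul_apply, of_apply, sum_o5, sy', rr, ← sy' k 0, r0]
    rw [add_sub_add_left_eq_sub, ← Finset.sum_sub_distrib]
    exact Finset.sum_congr rfl fun c _ => by ring
  · simp only [coe_mul, Units.val_mul, mul_apply, of_apply, sum_o6]
    split_ifs with e
    · exact Finset.sum_congr rfl fun c _ => by
        split_ifs with e'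
        · rw [e']; rfl
        · rw [sy', r0]; ring
    · rw [← Finset.sum_add_distrib]
      exact Finset.sum_congr rfl fun c _ => by
        split_ifs with e'
        · rw [e', show o6 0 = 0 from rfl]; ring
        · rw [sy', sy', rr]; ring

/-- `(h w h) i j = W (2 i) (j / 2)` (`PEquiv.toMatrix_toPEquiv_mul`, `mul_toMatrix_toPEquiv`). -/
theorem Md.hwh (D : Md ζ γ x y u w h t) : h * w * h = w := Units.ext (by
  rw [Units.val_mul, Units.val_mul, D.hh, Matrix.neg_mul, Matrix.neg_mul, Matrix.mul_neg, neg_neg,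
    PEquiv.toMatrix_toPEquiv_mul, PEquiv.mul_toMatrix_toPEquiv, D.hw]
  ext i j
  simp only [submatrix_apply, Matrix.smul_apply, W11, of_apply, smul_eq_mul, id]
  exact congrArg _ (z_eq D.prim (by revert i j; decide +kernel)))

namespace Ov

variable (D : Ov ζ γ x y u w h t M)
include D

theorem cu : u ∈ Ct M t := ⟨D.mu, mem_centralizer_singleton_iff.2 D.tu.symm⟩

theorem cw : w ∈ Ct M t := ⟨D.mw, mem_centralizer_singleton_iff.2 D.tw.symm⟩

theorem ch : h ∈ Ct M t := ⟨D.mh, mem_centralizer_singleton_iff.2 D.th.symm⟩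

theorem ct : t ∈ Ct M t := ⟨D.mt, mem_centralizer_singleton_iff.2 rfl⟩

theorem cs {g : G11} (k : Sc g) : g ∈ Ct M t := ⟨D.sc (mem_scalars k), mem_centralizer_singleton_iff.2 (k.comm t)⟩

variable {α : Ct M t →* GL (Fin 5) F} {β : Ct M t →* GL (Fin 6) F} (S : Sp M t α β)
include S

theorem a_t : α ⟨t, D.ct⟩ = 1 := Units.ext (ext fun a b => by
  simp only [S.ha, D.ht, Matrix.neg_apply, PEquiv.toMatrix_apply, Equiv.toPEquiv_apply, Option.mem_some_iff,
    Units.val_one, one_apply, (by decide : ∀ a b, rn (o5 a) ≠ o5 b), EmbeddingLike.apply_eq_iff_eq,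
    (by decide : ∀ a b, o5 a = o5 b ↔ a = b)]
  simp)

theorem b_t : β ⟨t, D.ct⟩ = -1 := Units.ext (ext fun a b => by
  simp only [S.hb, D.ht, Matrix.neg_apply, PEquiv.toMatrix_apply, Equiv.toPEquiv_apply, Option.mem_some_iff,
    Units.val_neg, Units.val_one, one_apply, EmbeddingLike.apply_eq_iff_eq, (by decide : ∀ a b, o6 a = o6 b ↔ a = b),
    (by decide : ∀ a, rn (o6 a) = 0 ↔ a = 0)]
  by_cases e : b = 0
  · simp [e]
  · simp [e, (by decide : ∀ a b, b ≠ 0 → rn (o6 a) ≠ o6 b) a b e])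

theorem a_sc {g : Ct M t} {c : F} (e : g.1.1 = c • 1) : (α g).1 = c • 1 := ext fun a b => by
  rw [S.ha, e, Matrix.smul_apply, Matrix.smul_apply, Matrix.smul_apply, ← smul_sub, one_o5]

theorem a_u : (α ⟨u, D.cu⟩).1 = diagonal fun a => ζ ^ ((o5 a).1 * (o5 a).1) := ext fun a b => by
  simp only [S.ha, D.hu, diagonal_apply, (by decide : ∀ a b, o5 a ≠ rn (o5 b)),
    (by decide : ∀ a b, o5 a = o5 b ↔ a = b)]
  simp

theorem b_u : (β ⟨u, D.cu⟩).1 = diagonal fun a => ζ ^ ((o6 a).1 * (o6 a).1) := ext fun a b => by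
  simp only [S.hb, D.hu, diagonal_apply, (by decide : ∀ a b, o6 a = o6 b ↔ a = b),
    (by decide : ∀ a, o6 a = 0 ↔ a = 0)]
  by_cases e : b = 0
  · simp [e]
  · simp [e, (by decide : ∀ a b, b ≠ 0 → o6 a ≠ rn (o6 b)) a b e]

/-- `γ (ζ ^ (2 i j) - ζ ^ (-2 i j)) ≠ 0` (`z_ne`). -/
theorem a_w (a b : Fin 5) : (α ⟨w, D.cw⟩).1 a b ≠ 0 := by
  simp only [S.ha, D.hw, Matrix.smul_apply, W11, of_apply, smul_eq_mul, ← mul_sub]
  exact mul_ne_zero D.g0 (sub_ne_zero.2 (z_ne D.prim (by revert a b; decide)))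

/-- `γ`, `2 γ`, `γ (ζ ^ m + ζ ^ n)`; if `ζ ^ m = -ζ ^ n` the eleventh powers give `1 = -1`. -/
theorem b_w (h2 : (2 : F) ≠ 0) (a b : Fin 6) : (β ⟨w, D.cw⟩).1 a b ≠ 0 := by
  simp only [S.hb, D.hw, Matrix.smul_apply, W11, of_apply, smul_eq_mul, ← mul_add]
  split_ifs
  · exact mul_ne_zero D.g0 (pow_ne_zero _ (D.prim.ne_zero (by norm_num)))
  refine mul_ne_zero D.g0 fun e => h2 ?_
  have k : ∀ m, (ζ ^ m) ^ 11 = 1 := fun m => by rw [pow_right_comm, D.prim.pow_eq_one, one_pow]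
  have := congrArg (· ^ 11) (eq_neg_of_add_eq_zero_left e)
  simp only [Odd.neg_pow (by decide : Odd 11), k] at this
  linear_combination this

/-- With `D.sy k.comm`: `k i j - k i (-j)` and `k i j + k i (-j)` determine `k i j` for `i, j ∈ o5`; `k i 0` and
`2 * k 0 j` are entries of `β k`; every index is `0`, `o5 a` or `rn (o5 a)`. -/
theorem eq_one (h2 : (2 : F) ≠ 0) {k : Ct M t} (e : α k = 1) (e' : β k = 1) : k = 1 := by
  have sy := D.sy (Ct.comm k)
  have h1 : ∀ a b, k.1.1 (o5 a) (o5 b) - k.1.1 (o5 a) (rn (o5 b)) = (1 : M11) (o5 a) (o5 b) := fun a b => by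
    rw [← S.ha, e, Units.val_one, ← one_o5, one_apply_ne ((by decide : ∀ a b, o5 a ≠ rn (o5 b)) a b), sub_zero]
  have h3 : ∀ a b, k.1.1 (o6 a) (o5 b) + k.1.1 (o6 a) (rn (o5 b)) = (1 : M11) (o6 a) (o5 b) := fun a b => by
    have := S.hb k a b.succ
    rw [e', Units.val_one, ← one_o6, if_neg b.succ_ne_zero, if_neg b.succ_ne_zero,
      (by decide : ∀ a, o6 (Fin.succ a) = o5 a), one_apply_ne ((by decide : ∀ a b, o6 a ≠ rn (o5 b)) a b),
      add_zero] at this
    exact this.symm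
  have h4 : ∀ a, k.1.1 (o6 a) 0 = (1 : M11) (o6 a) 0 := fun a => by
    have := S.hb k a 0
    rw [e', Units.val_one, ← one_o6, if_pos rfl, if_pos rfl] at this
    exact this.symm
  have h5 : ∀ a j, k.1.1 (o6 a) j = (1 : M11) (o6 a) j := fun a j => by
    obtain rfl | ⟨b, hb⟩ := (by decide : ∀ j : Fin 11, j = 0 ∨ ∃ b, j = o5 b ∨ j = rn (o5 b)) j
    · exact h4 a
    have h6 : k.1.1 (o6 a) (o5 b) - k.1.1 (o6 a) (rn (o5 b)) = (1 : M11) (o6 a) (o5 b) := by
      obtain rfl | ⟨c, rfl⟩ := a.eq_zero_or_eq_succ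
      · rw [← sy _ (o5 b), one_apply_ne ((by decide : ∀ b, o6 0 ≠ o5 b) b)]; exact sub_self _
      · rw [(by decide : ∀ a, o6 (Fin.succ a) = o5 a), h1]
    have h7 := h3 a b
    refine mul_left_cancel₀ h2 ?_
    rcases hb with rfl | rfl
    · linear_combination h6 + h7
    · rw [one_apply_ne ((by decide : ∀ a b, o6 a ≠ rn (o5 b)) a b)]; linear_combination h7 - h6
  refine Subtype.ext (Units.ext (ext fun i j => ?_))
  obtain ⟨a, rfl | rfl⟩ := (by decide : ∀ i : Fin 11, ∃ a, i = o6 a ∨ i = rn (o6 a)) i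
  · exact h5 a j
  · rw [← rr j, sy, h5]; simp [one_apply]

/-- `det (α u) = ζ ^ 55 = 1`; `α w ^ 2 = α t = 1` and `(u w) ^ 3 = 1` give `det (α w) = 1`; `h ^ 5 = t` and
`h w h = w` give `δ ^ 5 = 1 = δ ^ 2` for `δ = det (α h)`.  `v ^ 2 = α (h w h w) = α (w w) = 1`, `v * α w = α (h t) = α h`
and `D.hur`.  `irr_of_diag`, `nc_of_diag` with `a_u`, `a_w` (the squares `1, 4, 9, 5, 3` are distinct).
`tr u - tr u⁻¹ = 11 γ ≠ 0` (`u⁻¹ = u ^ 10`, `phi11`, `D.ga`), `tr (α w) = γ (N - S) = -11 γ² = 1` where `S`, `N` are the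
sums of `ζ ^ s` over the squares and non-squares, `11 γ = 1 + 2 S = S - N`. -/
theorem tr5 : Tr5 ((α.range ⊔ scalars _ F) ⊓ specialLinear _ F) (α ⟨u, D.cu⟩) (α ⟨w, D.cw⟩)
    (α (⟨h, D.ch⟩ * ⟨w, D.cw⟩)) := by
  have z11 := D.prim.pow_eq_one
  have au := D.a_u S
  have u11 : α ⟨u, D.cu⟩ ^ 11 = 1 := by rw [← map_pow, ← α.map_one]; congr 1; exact Subtype.ext D.u11
  have w2 : α ⟨w, D.cw⟩ * α ⟨w, D.cw⟩ = 1 := by
    rw [← map_mul, ← D.a_t S]; congr 1; exact Subtype.ext ((sq w).symm.trans D.ww)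
  have uw : (α ⟨u, D.cu⟩ * α ⟨w, D.cw⟩) ^ 3 = 1 := by
    rw [← map_mul, ← map_pow, ← α.map_one]; congr 1; exact Subtype.ext D.uw
  have hw : α ⟨h, D.ch⟩ * α ⟨w, D.cw⟩ * α ⟨h, D.ch⟩ = α ⟨w, D.cw⟩ := by
    rw [← map_mul, ← map_mul]; congr 1; exact Subtype.ext D.hwh
  have h5 : α ⟨h, D.ch⟩ ^ 5 = 1 := by
    rw [← map_pow, ← D.a_t S]; congr 1
    refine Subtype.ext (Units.ext ?_)
    simp only [coe_mul, Units.val_mul, D.hh, D.ht, pow_succ, pow_zero, one_mul,
      neg_mul, mul_neg, neg_neg, ← permMatrix_mul]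
    rw [show r2 * (r2 * (r2 * (r2 * r2))) = rn by decide]
  have hu : α ⟨h, D.ch⟩ * α ⟨u, D.cu⟩ * (α ⟨h, D.ch⟩)⁻¹ = α ⟨u, D.cu⟩ ^ 4 := by
    rw [mul_inv_eq_iff_eq_mul, ← map_pow, ← map_mul, ← map_mul]; congr 1
    exact Subtype.ext (D.hur.trans (by simp [pow_succ]))
  have inj : Function.Injective fun a => ζ ^ ((o5 a).1 * (o5 a).1) := fun a b e =>
    by_contra fun n => z_ne D.prim (by clear e; revert a b; decide) e
  have d1 : (α ⟨u, D.cu⟩).1.det = 1 := by
    rw [au, det_diagonal, Finset.prod_pow_eq_pow_sum]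
    exact (z_eq D.prim (n := 0) (by decide)).trans (pow_zero _)
  have h2 := congrArg (·.1.det) w2
  have h3 := congrArg (·.1.det) uw
  have h4 := congrArg (·.1.det) hw
  have h6 := congrArg (·.1.det) h5
  simp only [Units.val_pow_eq_pow_val, Units.val_mul, det_pow, det_mul, d1, Units.val_one, det_one] at h2 h3 h4 h6
  have d2 : (α ⟨w, D.cw⟩).1.det = 1 := by grind
  have ph := phi11 D.prim
  have ga := D.ga
  have g2 := D.g2
  refine ⟨inf_le_right, ⟨mem_sup_left ⟨_, rfl⟩, mem_specialLinear.2 d1⟩, ⟨mem_sup_left ⟨_, rfl⟩, mem_specialLinear.2 d2⟩,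
    ⟨mem_sup_left ⟨_, rfl⟩, mem_specialLinear.2 (by rw [map_mul, Units.val_mul, det_mul]; grind)⟩, u11, w2,
    by rw [map_mul, ← mul_assoc, hw, w2], by rw [map_mul, mul_assoc (α _) (α _) (α _), w2, mul_one, hu],
    irr_of_diag au inj (D.a_w S), fun e => mul_ne_zero (el_ne D.prim) D.g0 ?_, ?_, nc_of_diag au inj (D.a_w S)⟩
  · rw [← mul_eq_one_iff_eq_inv.1 ((pow_succ _ 10).symm.trans u11), Units.val_pow_eq_pow_val, au, diagonal_pow,
      trace_diagonal, trace_diagonal, Finset.sum_congr rfl fun a _ => pow_eq_pow_mod _ z11] at e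
    simp only [Pi.pow_apply, ← pow_mul] at e
    rw [Finset.sum_congr rfl fun a _ => pow_eq_pow_mod _ z11] at e
    simp [Fin.sum_univ_succ, o5] at e
    linear_combination ga + ph - e
  · simp only [trace, diag_apply, S.ha, D.hw, Matrix.smul_apply, W11, of_apply, smul_eq_mul]
    simp [Fin.sum_univ_succ, o5, rn]
    linear_combination γ * ph + γ * ga - g2

end Ov

end Cfsg.Lib.C6E
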