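import Cfsg.Agent.Lib.C6.ElZ

/-! Dickson's theorem for subgroups of `PGL₂(q)` with an element of order eleven. -/

set_option autoImplicit false

namespace Cfsg.Lib.C6E

open scoped MatrixGroups
open Subgroup Matrix MulAction Cfsg.Geo Cfsg.Lib.C6 Cfsg.Lib.PSL2
open Cfsg.Lib.Asch hiding tr

variable {F : Type*} [Field F] [Fintype F]

local notation "mk" => (ProjGenLinGroup.mk : GL (Fin 2) _ →* PGL(2, _))

theorem ex_A4 (g : alternatingGroup (Fin 4)) : g ^ 60 = 1 := by revert g; decide +kernel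

theorem dih_sol (n : ℕ) : Group.IsSolvable (DihedralGroup n) :=
  Group.isSolvable_of_ker_le_range (G' := Multiplicative (ZMod n)) (G'' := ℤˣ)
    (MonoidHom.mk' (fun i => .r i.toAdd) fun _ _ => rfl)
    (MonoidHom.mk' (fun g => match g with | .r _ => 1 | .sr _ => -1) (by rintro (_ | _) (_ | _) <;> simp))
    (by rintro (i | i) h
        exacts [⟨.ofAdd i, rfl⟩, absurd h (by simp [MonoidHom.mem_ker])])

theorem ex_S4 (g : Equiv.Perm (Fin 4)) : g ^ 60 = 1 := by revert g; decide +kernel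

theorem ex_A5 (g : alternatingGroup (Fin 5)) : g ^ 60 = 1 := by revert g; decide +kernel

/-- Port of `C6S.solv_dih` (`Lib/C6/SevF.lean`, read it with `cf get`/`git show`, do not import it) with `7 ↦ 11`.  Only
the last case changes: for `|k| ≤ 3`, `H ≤ (subHom k.subtype c).range`, whose order divides `|PGL(2, k)| = 6` or
`24`, so `aff a 0 ^ 24 = 1`. -/
theorem solv_dih {H : Subgroup PGL(2, F)} [Group.IsSolvable H] {a : Fˣ}
    {n : PGL(2, F)} (ha : aff a 0 ∈ H) (ht : swp 1 ∈ H) (hn : n ∈ H) (a11 : a ^ 11 = 1) (a1 : a ≠ 1)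
    (c : Commute (swp 1) n) : n ^ 2 = 1 := by
  have := Fact.mk (CharP.char_is_prime F (ringChar F))
  have k : ∀ m, aff a (0 : F) ^ m = 1 → m.Coprime 11 → False := fun m e c => a1
    ((pow_eq_one_iff_of_coprime c).1 ⟨by simpa [aff_zero_pow, aff_eq_one_iff] using e, a11⟩)
  have sm : ∀ {G : Type} [Group G], (∀ g : G, g ^ 60 = 1) → ¬ Nonempty (H ≃* G) := fun h ⟨e⟩ => k 60 (by
    simpa only [← map_pow, e.map_eq_one_iff, Subtype.ext_iff, coe_pow, coe_one] using h (e ⟨_, ha⟩)) (by norm_num)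
  rcases dickson_pgl (AlgebraicClosure F) (ringChar F) H with ⟨z, h⟩ | ⟨x, y, _, h, e⟩ |
    ⟨-, h | h | h⟩ | ⟨-, h⟩ | ⟨_, -, h⟩
  · exact absurd h (no_fix ha ht a1 z)
  · have h := h.ne
    have sw : ∀ g ∈ H, toK _ g ∉ fix2 x y → g * g = 1 := fun g hg k => toK_injective (by
      have := swap_of_mem_pairStab (e hg) k
      rw [map_mul, mul_self_of_swap h this.1 this.2, map_one])
    have k1 : toK _ (swp 1) ∉ fix2 x y := fun k1 => k 2 (by
      have := (commute_of_mem_fix2 h k1 (mem_fix2_of_mul_self_ne h (e ha) fun k2 => k 2 (by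
        rwa [← map_mul, map_eq_one_iff _ toK_injective, ← sq] at k2) (by norm_num))).eq
      rw [← map_mul, ← map_mul, toK_injective.eq_iff, ← mul_inv_eq_iff_eq_mul, swp_conj_aff,
        inv_eq_iff_mul_eq_one] at this
      rwa [sq]) (by norm_num)
    by_cases k : toK _ n ∈ fix2 x y
    · have := sw _ (mul_mem ht hn) fun k2 => k1 (by simpa using mul_mem k2 (inv_mem k))
      rwa [← sq, c.mul_pow, sq, swp_mul_self, one_mul] at this
    · rw [sq, sw n hn k]
  · exact (sm ex_A4 h).elim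
  · exact (sm ex_S4 h).elim
  · exact (sm ex_A5 h).elim
  · exact (sm ex_A5 h).elim
  obtain ⟨f, c, _, -, h⟩ := isSubfieldType_iff.1 h
  obtain ⟨⟨b, hb⟩, k1⟩ : aff a 0 ∈ (subHom f.subtype c).range ∧ (pslSub f).map (subHom f.subtype c) ≤ H := by
    rcases h with rfl | rfl
    exacts [⟨map_le_range _ _ ha, le_rfl⟩, ⟨ha, map_le_range _ _⟩]
  have := Group.isSolvable_of_isSolvable_injective (inclusion_injective k1)
  obtain ⟨e⟩ := equiv_map_subHom f.subtype c
  refine (not_isSolvable_psl ?_ (Group.isSolvable_of_surjective (f := e.toMonoidHom) e.surjective)).elim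
  by_contra! k2
  have k3 := two_le_card_field f
  refine k 24 ?_ (by norm_num)
  rw [← hb, ← map_pow, orderOf_dvd_iff_pow_eq_one.1 ((orderOf_dvd_natCard b).trans ?_), map_one]
  rw [card_PGL2]
  interval_cases Nat.card f <;> norm_num

/-- `dickson_pgl`: no fixed point (`no_fix`); `dih F x y` is solvable (`TorusPair.dihedral_dih`, or the cyclic torus has
index two); `A₄, S₄, A₅` have exponent dividing `60`; subfield type: `unip_of_sub` with `z = inf`. -/
theorem unip_of_nsolv (hq : ¬ IsSquare (Fintype.card F)) {H : Subgroup PGL(2, F)} (hH : ¬ Group.IsSolvable H) {a : Fˣ}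
    (ha : aff a 0 ∈ H) (ht : swp 1 ∈ H) (a11 : a ^ 11 = 1) (a1 : a ≠ 1) : ∃ d : F, d ≠ 0 ∧ aff 1 d ∈ H := by
  have := Fact.mk (CharP.char_is_prime F (ringChar F))
  have sm : ∀ {G : Type} [Group G], (∀ g : G, g ^ 60 = 1) → ¬ Nonempty (H ≃* G) := fun h ⟨e⟩ => a1
    ((pow_eq_one_iff_of_coprime (by norm_num : Nat.Coprime 60 11)).1 ⟨by
      simpa only [← map_pow, e.map_eq_one_iff, Subtype.ext_iff, coe_pow, coe_one, aff_zero_pow, aff_eq_one_iff, and_true]
        using h (e ⟨_, ha⟩), a11⟩)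
  rcases dickson_pgl (AlgebraicClosure F) (ringChar F) H with ⟨z, h⟩ | ⟨x, y, _, h, e⟩ |
    ⟨-, h | h | h⟩ | ⟨-, h⟩ | ⟨_, -, h⟩
  · exact absurd h (no_fix ha ht a1 z)
  · obtain ⟨f⟩ := h.dihedral_dih
    have := dih_sol ‹ℕ›
    exact absurd (Group.isSolvable_of_isSolvable_injective (f := f.toMonoidHom.comp (inclusion e))
      (f.injective.comp (inclusion_injective e))) hH
  · exact (sm ex_A4 h).elim
  · exact (sm ex_S4 h).elim
  · exact (sm ex_A5 h).elim
  · exact (sm ex_A5 h).elim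
  obtain ⟨y, hy, y1, k⟩ := unip_of_sub hq h ha (by simp [aff_eq_one_iff, a1]) (z := inf) (by simp)
  obtain ⟨d, rfl⟩ := mem_unip_inf.1 k
  exact ⟨d, fun e => y1 (by simp [e]), hy⟩

/-- Simplified port of `C6S.dick2` (`Lib/C6/SevE.lean`): `mk a`, `mk b` have order `11` (`a ^ 11 = 1` as `a` has the
distinct eigenvalues `η, 1`: `a ^ n = !![η ^ n, η ^ n - 1; 0, 1]`), which kills `A₄, S₄, A₅` (exponent `60`);
the fixed points of `a` are `∞, -1`, those of `b` are `0, -11` (distinct as `10 ≠ 0`); in the dihedral case `mk a`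
and `mk b` commute, which forces `η² = 1`; the subfield case ends as in `dick2`. -/
theorem dick11 (hq : ¬ IsSquare (Fintype.card F)) (h10 : (10 : F) ≠ 0) (h11 : (11 : F) ≠ 0) {η c : F} (h1 : η ^ 11 = 1)
    (h0 : η ≠ 1) (hc : 11 * c = η - 1) {Γ : Subgroup (GL (Fin 2) F)} {a b : GL (Fin 2) F} (ha : a ∈ Γ) (hb : b ∈ Γ)
    (ea : a.1 = !![η, η - 1; 0, 1]) (eb : b.1 = !![1, 0; c, η]) :
    ∃ y ∈ Γ, ∃ d : F, d ≠ 0 ∧ y.1 = !![1, d; 0, 1] := by
  have := Fact.mk (CharP.char_is_prime F (ringChar F))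
  have e1 : η - 1 ≠ 0 := sub_ne_zero.2 h0
  have c0 : c ≠ 0 := by rintro rfl; exact e1 (by rw [← hc, mul_zero])
  have k : ∀ m : ℕ, η ^ m = 1 → m.Coprime 11 → False := fun m e c => h0 ((pow_eq_one_iff_of_coprime c).1 ⟨e, h1⟩)
  have h2 : η ^ 2 ≠ 1 := fun e => k 2 e (by norm_num)
  have ap : ∀ n : ℕ, (a ^ n).1 = !![η ^ n, η ^ n - 1; 0, 1] := fun n => by
    induction n with
    | zero => simp [one_fin_two]
    | succ n ih => rw [pow_succ, Units.val_mul, ih, ea]; simp [pow_succ]; ring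
  have a2 : mk a * mk a ≠ 1 := by rw [← map_mul, Ne, pgl_mk_eq_one_iff]; simp [ea]; grind
  have sm : ∀ {G : Type} [Group G], (∀ g : G, g ^ 60 = 1) → ¬ Nonempty (Γ.map mk ≃* G) := fun h ⟨e⟩ => k 60 (by
    have : mk a ^ 60 = 1 := by
      simpa only [← map_pow e, e.map_eq_one_iff, Subtype.ext_iff, coe_pow, coe_one] using h (e ⟨_, mem_map_of_mem _ ha⟩)
    rw [← map_pow, pgl_mk_eq_one_iff, ap] at this
    simpa using this.2.2) (by norm_num)
  rcases dickson_pgl (AlgebraicClosure F) (ringChar F) (Γ.map mk) with ⟨z, h⟩ | ⟨x, y, _, h, e⟩ |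
    ⟨-, h | h | h⟩ | ⟨-, h⟩ | ⟨_, -, h⟩
  · have h1 := mem_stabilizer_iff.1 (h (mem_map_of_mem _ ha))
    have h2 := mem_stabilizer_iff.1 (h (mem_map_of_mem _ hb))
    rcases eq_inf_or_eq_pt z with rfl | ⟨x, rfl⟩
    · simp [pgl_mk_smul, gl_smul_inf_eq_inf, eb, c0] at h2
    · simp [pgl_mk_smul, gl_smul_pt_eq_pt, ea, eb] at h1 h2
      grind
  · have k : ∀ g ∈ Γ, mk g * mk g ≠ 1 → toK _ (mk g) ∈ fix2 x y := fun g hg g2 =>
      mem_fix2_of_mul_self_ne h.ne (e (mem_map_of_mem _ hg)) fun k => g2 (toK_injective (by rw [map_mul, k, map_one]))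
    have := (commute_of_mem_fix2 h.ne (k a ha a2) (k b hb (by
      rw [← map_mul, Ne, pgl_mk_eq_one_iff]; simp [eb]; grind))).eq
    simp only [← map_mul] at this
    rw [toK_injective.eq_iff, pgl_mk_eq_mk_iff] at this
    simp [ea, eb] at this
    obtain ⟨w, -, -, r1, r2, -⟩ := this
    obtain rfl : η = w := mul_left_cancel₀ c0 (r2.trans (mul_comm _ _))
    exact absurd (mul_left_cancel₀ e1 (by linear_combination -r1)) h2
  · exact (sm ex_A4 h).elim
  · exact (sm ex_S4 h).elim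
  · exact (sm ex_A5 h).elim
  · exact (sm ex_A5 h).elim
  obtain ⟨_, ⟨y, hy, rfl⟩, y1, k⟩ := unip_of_sub hq h (mem_map_of_mem _ ha) (fun e => a2 (by simp [e])) (z := inf)
    (by simp [pgl_mk_smul, gl_smul_inf_eq_inf, ea])
  obtain ⟨d, hd⟩ := mem_unip_inf.1 k
  obtain ⟨u, u0, e1, e2, e3, e4⟩ := (pgl_mk_eq_mk_iff _ _).1 hd.symm
  have e : y.1 = u • !![1, d; 0, 1] := by
    ext i j; fin_cases i <;> fin_cases j <;> simp [e1, e2, e3, e4]
  refine ⟨y ^ (Fintype.card F - 1), pow_mem hy _, -d, fun k => y1 (by simpa [hd, aff_eq_one_iff] using k), ?_⟩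
  rw [Units.val_pow_eq_pow_val, e, _root_.smul_pow, up_pow, FiniteField.pow_card_sub_one_eq_one u u0,
    Nat.cast_sub Fintype.card_pos]
  simp

end Cfsg.Lib.C6E
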