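import Cfsg.Agent.Lib.C6.ElC
import Cfsg.Agent.Lib.C6.ElE
import Cfsg.Agent.Lib.PF.Main

/-! Homologies of order eleven, and the centraliser of `u`. -/

set_option autoImplicit false

namespace Cfsg.Lib.C6E

open scoped MatrixGroups
open Subgroup Matrix MulAction Cfsg.Geo Cfsg.Lib.C6
open Cfsg.Lib.Asch hiding tr
open Cfsg.Lib.Linear (mem_specialLinear)
open Cfsg.Lib.PSL2 (gl2 aff swp pgl_mk_eq_mk_iff pgl_mk_eq_one_iff)

variable {F : Type*} [Field F] {ζ γ : F}

local notation "G11" => GL (Fin 11) F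
local notation "M11" => Matrix (Fin 11) (Fin 11) F
local notation "mk" => (ProjGenLinGroup.mk : GL (Fin 2) _ →* PGL(2, _))

/-- Copy of `C6S.NR.exists_rho` (`Lib/C6/SevE.lean`; read it, do not import it) with `7 ↦ 11`. -/
theorem NR.exists_rho {M : Subgroup G11} (N : NR M) {n : ℕ} (A : Matrix (Fin 11) (Fin (n + 1)) F)
    (Φ : Matrix (Fin (n + 1)) (Fin 11) F) (hd : (Φ * A).det ≠ 0) (a0 : ∀ i, A i 0 = (1 : M11) i 0) :
    ∃ Γ : Subgroup (GL (Fin (n + 1)) F), (∀ (y : GL _ F) Y, y.1 = 1 + Y * (Φ * A) → ∀ g ∈ M, g.1 = 1 + A * Y * Φ →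
      y ∈ Γ) ∧ ∀ y ∈ Γ, y.1 0 0 = 1 → (∀ i j, i ≠ 0 → (y.1 - 1) i j = 0) → y = 1 := by
  obtain ⟨B, h1, h2⟩ : ∃ B : Matrix (Fin (n + 1)) (Fin 11) F, B * A = 1 ∧ Φ * A * B = Φ := ⟨(Φ * A)⁻¹ * Φ, by
    rw [Matrix.mul_assoc, nonsing_inv_mul _ hd.isUnit], by
    rw [← Matrix.mul_assoc, mul_nonsing_inv _ hd.isUnit, Matrix.one_mul]⟩
  let ρ : GL (Fin (n + 1)) F →* G11 := MonoidHom.toHomUnits
    { toFun := fun y => 1 + A * (y.1 - 1) * B
      map_one' := by simp
      map_mul' := fun a b => by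
        simp only [Units.val_mul, Matrix.mul_sub, Matrix.sub_mul, mul_add, add_mul, Matrix.mul_assoc,
          ← Matrix.mul_assoc B A, h1, Matrix.mul_one, Matrix.one_mul]
        abel }
  have hρ : ∀ y, (ρ y).1 = 1 + A * (y.1 - 1) * B := fun _ => rfl
  refine ⟨M.comap ρ, fun y Y e g hg e1 => ?_, fun y hy e1 e2 => Units.ext (sub_eq_zero.1 ?_)⟩
  · rw [mem_comap, show ρ y = g from Units.ext (by
      rw [hρ, e, e1, add_sub_cancel_left, ← Matrix.mul_assoc A Y, Matrix.mul_assoc _ _ B, h2])]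
    exact hg
  have k : ∀ i j, (A * (y.1 - 1) : Matrix _ _ F) i j = (1 : M11) i 0 * (y.1 - 1) 0 j := fun i j => by
    rw [mul_apply, Finset.sum_eq_single 0 (fun l _ hl => by rw [e2 l j hl, mul_zero]) (by simp), a0]
  have := N.eq_one hy (by
    rw [hρ, Matrix.add_apply, mul_apply, Finset.sum_eq_zero fun l _ => ?_]
    · simp
    have := congrFun (congrFun h1 l) 0
    simp only [mul_apply, a0, one_apply, mul_ite, mul_one, mul_zero, Finset.sum_ite_eq', Finset.mem_univ,
      if_true] at this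
    rw [k, this]
    split_ifs with e <;> simp [e, e1]) fun i j e => by
      rw [hρ, Matrix.add_apply, mul_apply]; simp [k, e]
  simpa only [Matrix.mul_add, Matrix.add_mul, ← Matrix.mul_assoc, h1, Matrix.mul_one, Matrix.one_mul,
    Matrix.mul_assoc _ B A, Units.val_one, add_eq_left, hρ] using congrArg (B * ·.1 * A) this

namespace Ov

variable {x y u w h t : GL (Fin 11) F} {M : Subgroup (GL (Fin 11) F)} (D : Ov ζ γ x y u w h t M)
include D

/-- Copy of `C6S.Ov.hom_w`. -/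
theorem hom_w {g : G11} (hg : g ∈ M) {η c : F} (e : g.1 = 1 + single 0 0 η) (hc : 11 * c = η) :
    ∃ g ∈ M, g.1 = 1 + of fun _ _ => c := by
  refine ⟨_, mul_mem (mul_mem D.mw hg) (inv_mem D.mw), ?_⟩
  have := D.g2
  rw [← cj_coe, e, cj_add, cj_one_mat, cj_def, show w⁻¹ = t * w from inv_eq_of_mul_eq_one_left (by
    rw [mul_assoc, ← sq, D.ww, D.tt]), Units.val_mul, D.ht, Matrix.neg_mul, PEquiv.toMatrix_toPEquiv_mul, D.hw]
  congr 1
  ext i j
  rw [mul_apply, Finset.sum_eq_single 0 (fun l _ hl => by simp [hl]) (by simp)]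
  simp only [Matrix.neg_apply, submatrix_apply, mul_single_apply_same, Matrix.smul_apply, W11, of_apply, id]
  have := el_ne D.prim
  simp [rn]
  grind

/-- Port of the proof of `C6S.Ov.dg` (`Lib/C6/SevF.lean`): for `d = ±1` with `diagonal d ∈ M` the product of the ten
conjugates by `h ^ n`, `n < 10`, is `diag (1, ε, …, ε)` with `ε = ∏_{i ≠ 0} d i = d 0 * ∏ d` (use
`Finset.prod` over `n` and `decide` that `n ↦ (r2 ^ n) i` is a bijection onto the non-zero residues, or expand); times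
the scalar `ε` it is `diag (ε, 1, …, 1)`.  If the reflection is not in `M`, `ε = 1`; apply this to the shifts of
`d` by `y ^ m`: `d i = ∏ d` for all `i`. -/
theorem dg (hr : ∀ g ∈ M, g.1 ≠ 1 + single 0 0 (-2)) {g : G11} (hg : g ∈ M) {d : Fin 11 → F} (e : g.1 = diagonal d)
    (d2 : ∀ i, d i ^ 2 = 1) (i j : Fin 11) : d i = d j := by
  have k0 : ∀ {a : G11} {σ}, a ∈ M → Pm a σ → ∀ {d : Fin 11 → F}, (∃ g ∈ M, g.1 = diagonal d) →
      ∃ g ∈ M, g.1 = diagonal (d ∘ σ) := fun ha e _ ⟨g, hg, e1⟩ =>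
    ⟨_, mul_mem (mul_mem ha hg) (inv_mem ha), by rw [← cj_coe, e, e1, submatrix_diagonal_equiv]⟩
  have k1 : ∀ {d d' : Fin 11 → F}, (∃ g ∈ M, g.1 = diagonal d) → (∃ g ∈ M, g.1 = diagonal d') →
      ∃ g ∈ M, g.1 = diagonal (d * d') := fun ⟨a, ha, e⟩ ⟨b, hb, e'⟩ =>
    ⟨_, mul_mem ha hb, by rw [Units.val_mul, e, e', diagonal_mul_diagonal]; rfl⟩
  have k : ∀ d : Fin 11 → F, (∃ g ∈ M, g.1 = diagonal d) → (∀ i, d i ^ 2 = 1) → d 0 = ∏ i, d i := fun d hd d2 => by
    have k2 : ∀ n, ∃ g ∈ M, g.1 = diagonal fun i => ∏ m ∈ Finset.range n, d ((r2 ^ m) i) := fun n => by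
      induction n with
      | zero => exact ⟨1, one_mem _, by simp⟩
      | succ n ih =>
        simp only [Finset.prod_range_succ]
        exact k1 ih (k0 (pow_mem D.mh n) (D.ph.pow n) hd)
    have p2 : (d 0 * ∏ i, d i) * (d 0 * ∏ i, d i) = 1 := by
      rw [← sq, mul_pow, ← Finset.prod_pow]; simp [d2]
    obtain ⟨a, ha, e⟩ := k1 (k2 10)
      (d' := fun _ => d 0 * ∏ i, d i) ⟨_, D.sc (scGL_mem ⟨_, _, p2, p2⟩), by rw [coe_scGL, smul_one_eq_diagonal]⟩
    have k3 : ∀ i, i ≠ 0 → ∏ m ∈ Finset.range 10, d ((r2 ^ m) i) = d 0 * ∏ i, d i := fun i i0 => by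
      rw [← Finset.prod_image (s := Finset.range 10) (g := fun m => (r2 ^ m) i) (f := d) (by
          clear * - i0; revert i; simp only [Set.InjOn, Finset.mem_coe]; decide +kernel),
        show (Finset.range 10).image (fun m => (r2 ^ m) i) = Finset.univ.erase 0 by
          clear * - i0; revert i; decide +kernel,
        ← Finset.mul_prod_erase _ d (Finset.mem_univ 0), ← mul_assoc, ← sq, d2, one_mul]
    have k4 : ∏ m ∈ Finset.range 10, d ((r2 ^ m) 0) = 1 := by
      rw [Finset.prod_congr rfl fun m _ => congrArg d (Equiv.Perm.pow_apply_eq_self_of_apply_eq_self rfl m),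
        Finset.prod_const, Finset.card_range]
      exact (pow_mul _ 2 5).trans (by rw [d2, one_pow])
    rcases mul_self_eq_one_iff.1 p2 with e1 | e1
    · rw [← one_mul (∏ i, d i), ← d2 0, sq, mul_assoc, e1, mul_one]
    refine (hr a ha ?_).elim
    rw [e]
    ext i j
    by_cases ij : i = j
    · subst ij
      by_cases i0 : i = 0
      · simp [i0, k4, e1]; norm_num
      · simp [i0, k3 i i0, e1, Ne.symm i0]
    · simp [ij, single_apply]; grind
  have : ∀ i, d i = ∏ i, d i := fun i => by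
    obtain ⟨m, rfl⟩ := (by decide : ∀ i : Fin 11, ∃ m : Fin 11, (r1 ^ m.1) 0 = i) i
    simpa [Equiv.prod_comp] using k _ (k0 (pow_mem D.my m) (D.py.pow m) ⟨g, hg, e⟩) fun i => d2 _
  rw [this i, this j]

variable [Fintype F] (O : Fd F) (N : NR M)
include O N

/-- If `η ≠ 1` replace `g` by the power `g ^ (11 ^ k)` with `η' = η ^ (11 ^ k) ≠ 1`, `η' ^ 11 = 1`
(`(1 + single 0 0 (η - 1)) ^ m = 1 + single 0 0 (η ^ m - 1)`, it is `diagonal (update 1 0 η)`).  `η' = det = c ^ 11`,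
so `c ^ 121 = 1`, `c ^ 11 ≠ 1` and `5 ≠ 0` by `O.five`; hence `10 ≠ 0`.  Now copy `C6S.Ov.hom` (`Φ * A = !![1, 1; 1, 11]`)
with `dick11` for `dick2`. -/
theorem hom (hd : Dt M) {g : G11} (hg : g ∈ M) {η : F} (e : g.1 = 1 + single 0 0 (η - 1)) {n : ℕ}
    (h1 : η ^ 11 ^ n = 1) : η = 1 := by
  have k0 : ∀ η : F, (1 : M11) + single 0 0 (η - 1) = diagonal (Function.update 1 0 η) := fun η => by
    ext i j
    by_cases ij : i = j
    · subst ij; by_cases i0 : i = 0 <;> simp [i0, Ne.symm]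
    · simp [ij, single_apply]; grind
  induction n generalizing g η with
  | zero => simpa using h1
  | succ n ih =>
  replace h1 : η ^ 11 = 1 := ih (pow_mem hg 11) (by
    rw [Units.val_pow_eq_pow_val, e, k0, k0, diagonal_pow]
    congr 1
    ext i
    by_cases i0 : i = 0 <;> simp [i0]) (by rw [← pow_mul, ← pow_succ', h1])
  by_contra e1
  have h10 : (10 : F) ≠ 0 := by
    rw [show (10 : F) = 2 * 5 by norm_num]
    refine mul_ne_zero O.two fun h5 => e1 ?_
    obtain ⟨c, hc⟩ := hd g hg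
    rw [e, k0, det_diagonal, Finset.prod_update_of_mem (Finset.mem_univ _)] at hc
    simp only [Pi.one_apply, Finset.prod_const_one, mul_one] at hc
    rw [hc] at h1 ⊢
    exact O.five h5 c (by rw [← h1, ← pow_mul])
  obtain ⟨c, hc⟩ : ∃ c : F, 11 * c = η - 1 := ⟨_, mul_div_cancel₀ _ (el_ne D.prim)⟩
  obtain ⟨g1, h2, e2⟩ := D.hom_w hg e hc
  let A : Matrix (Fin 11) (Fin 2) F := of fun i => ![(1 : M11) i 0, 1]
  let Φ : Matrix (Fin 2) (Fin 11) F := of ![(1 : M11) 0, 1]
  have k : Φ * A = !![1, 1; 1, 11] := by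
    ext i j
    fin_cases i <;> fin_cases j <;> simp [A, Φ, mul_apply, one_apply]
  obtain ⟨Γ, k1, k2⟩ := N.exists_rho A Φ (by
    rw [k, det_fin_two]; simp; exact fun e => h10 (by grind)) fun _ => rfl
  have z0 : η ≠ 0 := by rintro rfl; simp at h1
  obtain ⟨v, v1, d, d0, v2⟩ := dick11 O.hq h10 (el_ne D.prim) h1 e1 hc
    (a := gl2 η (η - 1) 0 1 (by simpa)) (b := gl2 1 0 c η (by simpa))
    (k1 _ (single 0 0 (η - 1)) (by
      ext i j; fin_cases i <;> fin_cases j <;> simp [k, mul_apply, Fin.sum_univ_two]) g hg (by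
      rw [e]; congr 1; ext i j; simp [A, Φ, mul_apply, Fin.sum_univ_two, single_apply, one_apply]; grind))
    (k1 _ (single 1 1 c) (by
      ext i j; fin_cases i <;> fin_cases j <;> simp [k, mul_apply, Fin.sum_univ_two]; grind) g1 h2 (by
      rw [e2]; congr 1; ext i j; simp [A, Φ, mul_apply, Fin.sum_univ_two, single_apply])) rfl rfl
  rw [k2 v v1 (by simp [v2]) fun i j e => by fin_cases i <;> fin_cases j <;> simp [v2] at e ⊢] at v2
  exact d0 (by simpa using (congrFun (congrFun v2 0) 1).symm)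

/-- Let `r = 1 + single i i (-2) ∈ M` (`r² = 1`) and `g ∈ C_M(u)` with block `c • !![1, d; 0, 1]` on `i, -i`.  By
`D.zu`, `r g r = g - 2 c d E_{i,-i} = (1 - 2 d E_{i,-i}) g`, so `1 + single i (rn i) (-2 d) = r g r g⁻¹ ∈ M`; `D.move`
conjugates it to `1 + single 0 1 (-2 d)`, and `NR.eq_one` gives `d = 0`. -/
theorem no_unip {r g : G11} (hr : r ∈ M) (hg : g ∈ M) {i : Fin 11} (i0 : i ≠ 0) (er : r.1 = 1 + single i i (-2))
    (e : g * u = u * g) (e1 : g.1 (rn i) i = 0) (e2 : g.1 (rn i) (rn i) = g.1 i i) : g.1 i (rn i) = 0 := by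
  have ir : rn i ≠ i := by clear * - i0; revert i; decide
  have col : ∀ l, l ≠ i → g.1 l i = 0 := fun l hl => by
    by_cases k : l = rn i
    · rw [k, e1]
    · exact D.zu e hl.symm fun k' => k (by rw [k', rr])
  have c0 : g.1 i i ≠ 0 := fun k => g.det_ne_zero (det_eq_zero_of_column_eq_zero i fun l => by
    by_cases hl : l = i
    exacts [hl ▸ k, col l hl])
  obtain ⟨d, hd⟩ : ∃ d, d * g.1 i i = -2 * g.1 i (rn i) := ⟨_, div_mul_cancel₀ _ c0⟩
  have k : (r * g * r * g⁻¹).1 = 1 + single i (rn i) d := g.isUnit.mul_right_cancel (by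
    rw [← Units.val_mul, inv_mul_cancel_right, Units.val_mul, Units.val_mul, er]
    ext a b
    have h1 := col a
    have h2 := D.zu e (i := i) (j := b)
    have h3 := D.zu e (i := rn i) (j := b)
    rw [rr] at h3
    simp only [add_mul, mul_add, one_mul, mul_one, Matrix.add_apply]
    by_cases ha : a = i <;> by_cases hb : b = i <;> simp [ha, hb] <;> grind)
  obtain ⟨m, hm, e3⟩ := D.move ir.symm (k := 0) (l := 1) (by decide)
  have k1 : (m * (r * g * r * g⁻¹) * m⁻¹).1 = 1 + single 0 1 d := by rw [← cj_coe, k, cj_add, cj_one_mat, e3]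
  rw [N.eq_one (mul_mem (mul_mem hm (mul_mem (mul_mem (mul_mem hr hg) hr) (inv_mem hg))) (inv_mem hm)) (by simp [k1])
    fun a b h0 => by rw [k1]; simp [h0.symm]] at k1
  have := congrFun (congrFun k1 0) 1
  simp at this
  have := O.two
  grind

omit [Fintype F] O N in
theorem exists_blk {i : Fin 11} (i0 : i ≠ 0) : ∃ (φ : ↥(M ⊓ centralizer {u}) →* GL (Fin 2) F) (a : Fˣ),
    (∀ g, (φ g).1 = !![g.1.1 i i, g.1.1 i (rn i); g.1.1 (rn i) i, g.1.1 (rn i) (rn i)]) ∧
    aff a 0 ∈ (MonoidHom.comp mk φ).range ∧ a ^ 11 = 1 ∧ a ≠ 1 ∧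
    mk (φ ⟨t, D.mt, mem_centralizer_singleton_iff.2 D.tu⟩) = swp 1 := by
  have z0 := D.prim.ne_zero (by norm_num)
  have ir : rn i ≠ i := by clear * - i0; revert i; decide
  let φ := resS (M ⊓ centralizer {u}) ![i, rn i] (by clear * - i0; revert i; decide) fun g hg k j e =>
    D.zu (mem_centralizer_singleton_iff.1 hg.2) (by clear * - e; revert i j k; decide +kernel)
      (by clear * - e; revert i j k; decide +kernel)
  have hφ : ∀ g, (φ g).1 = !![g.1.1 i i, g.1.1 i (rn i); g.1.1 (rn i) i, g.1.1 (rn i) (rn i)] := fun g => by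
    ext i j; fin_cases i <;> fin_cases j <;> rfl
  clear_value φ
  exact ⟨φ, Units.mk0 (ζ ^ (2 * i.1)) (pow_ne_zero _ z0), hφ,
    ⟨⟨x, D.mx, mem_centralizer_singleton_iff.2 D.ux.symm⟩, (pgl_mk_eq_mk_iff _ _).2 ⟨ζ ^ i.1, pow_ne_zero _ z0, by
      simp [hφ, D.hx, ir, ir.symm, ← pow_add, two_mul]
      exact (pow_zero ζ).symm.trans (z_eq D.prim (by clear * -; revert i; decide))⟩⟩,
    Units.ext (by simpa [← pow_mul] using z_eq D.prim (n := 0) (by simp)),
    fun e => z_ne D.prim (m := 2 * i.1) (n := 0) (by clear * - i0; revert i; decide)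
      (by simpa using congrArg Units.val e),
    (pgl_mk_eq_mk_iff _ _).2 ⟨-1, by simp, by simp [hφ, D.ht, PEquiv.toMatrix_apply, rr, ir, ir.symm]⟩⟩

/-- If the reflection `1 + single 0 0 (-2)` is not in `M`, copy `C6S.Ov.solv` (with `dg`).  Otherwise all
`1 + single i i (-2) ∈ M` (conjugate by `y ^ m`, `D.py.pow`).  For `i ≠ 0` let `φ i = resS _ ![i, rn i]` (as in
`C6S.Ov.ku`) and `H i = (mk.comp (φ i)).range ∋ aff (ζ ^ (2 i)) 0` (from `x`), `swp 1` (from `t`).  If `H i` is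
not solvable, `unip_of_nsolv` and `pgl_mk_eq_mk_iff` contradict `no_unip`.  So all `H i` are solvable; an element in
the kernel of all `mk.comp (φ i)` is diagonal (`D.zu`), so the kernel of the product map
`M ⊓ C(u) →* ∀ i : {i // i ≠ 0}, H i` is abelian (`isSolvable_of_ker_le_range`; a finite product of solvable groups is
solvable: take the maximum of the derived lengths, or show `derivedSeries n ≤ ker` for each `i`). -/
theorem solv : Group.IsSolvable ↥(M ⊓ centralizer {u}) := by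
  have c2 := O.two
  by_cases hr : ∀ g ∈ M, g.1 ≠ 1 + single 0 0 (-2)
  · have z := fun g (hg : g ∈ M ⊓ centralizer {u}) {i j} => D.zu (i := i) (j := j) (mem_centralizer_singleton_iff.1 hg.2)
    haveI := PF.isSolvable_of_odd (commutator ↥(M ⊓ centralizer {u})) (Nat.not_even_iff_odd.1 fun e => by
      obtain ⟨⟨s, hs⟩, o⟩ := exists_prime_orderOf_dvd_card' 2 e.two_dvd
      have s2 := pow_orderOf_eq_one (⟨s, hs⟩ : commutator _)
      replace s2 : s.1.1 * s.1.1 = 1 := by rw [o, sq] at s2; exact congrArg (·.1.1.1) s2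
      have k : ∀ {κ : Type} [Fintype κ] [DecidableEq κ] (f : κ → Fin 11), Function.Injective f →
          (∀ k j, k ∉ Set.range f → f j ≠ k ∧ f j ≠ rn k) → (s.1.1.submatrix f f).det = 1 := fun f h1 h2 =>
        congrArg Units.val (Abelianization.commutator_subset_ker (GeneralLinearGroup.det.comp
          (resS _ f h1 fun g hg k j e => z g hg (h2 k j e).1 (h2 k j e).2)) hs)
      have k0 : s.1.1 0 0 = 1 := (det_fin_one _).symm.trans (k ![0] (by decide) (by decide +kernel))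
      have k1 : ∀ i j, j ≠ i → s.1.1 i j = 0 := fun i j ij => by
        by_cases e : j = rn i
        · subst e
          have h1 := k ![i, rn i] (by revert i; decide) (by clear * -; revert i; decide +kernel)
          have h2 : ∀ j, (1 : M11) i j = s.1.1 i i * s.1.1 i j + s.1.1 i (rn i) * s.1.1 (rn i) j := fun j => by
            rw [← s2, mul_apply, Fintype.sum_eq_add i (rn i) ij.symm fun l hl => by rw [z _ s.2 hl.1 hl.2, zero_mul]]
          have h3 := h2 i
          have h4 := h2 (rn i)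
          rw [det_fin_two] at h1
          simp [ij.symm] at h1 h3 h4
          clear * - h1 h3 h4 c2
          grind
        · exact z _ s.2 ij e
      have k2 : s.1.1 = diagonal s.1.1.diag := ext fun i j => by
        by_cases e : i = j
        · simp [e]
        · simp [e, k1 i j (Ne.symm e)]
      have k3 := D.dg hr s.2.1 k2 fun i => by
        rw [k2, diagonal_mul_diagonal] at s2
        simpa [sq] using congrFun (congrFun s2 i) i
      rw [show (⟨s, hs⟩ : commutator _) = 1 from Subtype.ext (Subtype.ext (Units.ext (by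
        rw [k2, show s.1.1.diag = 1 from funext fun i => (k3 i 0).trans k0]; rfl)))] at o
      simp at o)
    exact Group.isSolvable_of_ker_le_range (commutator _).subtype Abelianization.of (by simp)
  push Not at hr
  obtain ⟨r, hr, er⟩ := hr
  have k : ∀ i : {i : Fin 11 // i ≠ 0}, ∃ n, ∀ g ∈ derivedSeries ↥(M ⊓ centralizer {u}) n,
      g.1.1 i (rn i) = 0 := fun ⟨i, i0⟩ => by
    obtain ⟨φ, a, hφ, h1, h2, h3, h4⟩ := D.exists_blk i0
    by_cases hs : Group.IsSolvable (MonoidHom.comp mk φ).range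
    · obtain ⟨n, hn⟩ := hs.solvable
      refine ⟨n, fun g hg => ?_⟩
      have := hn.le (map_derivedSeries_le_derivedSeries (MonoidHom.comp mk φ).rangeRestrict n (mem_map_of_mem _ hg))
      simpa [hφ] using ((pgl_mk_eq_one_iff _).1 (congrArg Subtype.val (mem_bot.1 this))).1
    obtain ⟨d, d0, g, hg⟩ := unip_of_nsolv O.hq hs h1 ⟨_, h4⟩ h2 h3
    obtain ⟨c, c0, e1, e2, e3, e4⟩ := (pgl_mk_eq_mk_iff _ _).1 hg.symm
    obtain ⟨m, rfl⟩ := (by decide : ∀ i : Fin 11, ∃ m : Fin 11, (r1 ^ m.1).symm 0 = i) i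
    have := D.no_unip O N (mul_mem (mul_mem (pow_mem D.my m) hr) (inv_mem (pow_mem D.my m))) g.2.1 i0 (by
      rw [← cj_coe, er, cj_add, cj_one_mat, D.py.pow]
      congr 1
      ext a b
      simp [single_apply, Equiv.symm_apply_eq]) (mem_centralizer_singleton_iff.1 g.2.2)
      (by simpa [hφ] using e3) (by simp [hφ] at e1 e4; rw [e1, e4])
    simp [hφ, this, c0, d0] at e2
  choose n hn using k
  obtain ⟨m, hm⟩ := (Set.finite_range n).bddAbove
  have k1 : ∀ g ∈ derivedSeries ↥(M ⊓ centralizer {u}) m, g.1.1 = diagonal g.1.1.diag := fun g hg => ext fun i j => by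
    by_cases e : i = j
    · simp [e]
    rw [diagonal_apply_ne _ e]
    by_cases e' : j = rn i
    · exact e' ▸ hn ⟨i, by rintro rfl; exact e e'.symm⟩ g (derivedSeries_antitone _ (hm ⟨_, rfl⟩) hg)
    · exact D.zu (mem_centralizer_singleton_iff.1 g.2.2) (Ne.symm e) e'
  refine ⟨m + 1, commutator_eq_bot_iff_le_centralizer.2 fun a ha b hb => Subtype.ext (Units.ext ?_)⟩
  simp only [coe_mul, Units.val_mul]
  rw [k1 a ha, k1 b hb, diagonal_mul_diagonal, diagonal_mul_diagonal]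
  simp only [mul_comm]

/-- Copy of `k1` in `C6S.Ov.ku` with `solv`, `solv_dih`, `D.sy`. -/
theorem blk {n : G11} (hn : n ∈ M) (e1 : n * u = u * n) (e2 : n * t = t * n) {i : Fin 11} (i0 : i ≠ 0) :
    n.1 i i * n.1 i (rn i) = 0 := by
  haveI := D.solv O N
  obtain ⟨φ, a, hφ, h1, h2, h3, h4⟩ := D.exists_blk i0
  haveI := Group.isSolvable_of_surjective (MonoidHom.comp mk φ).rangeRestrict_surjective
  have := solv_dih h1 ⟨_, h4⟩ ⟨⟨n, hn, mem_centralizer_singleton_iff.2 e1⟩, rfl⟩ h2 h3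
    (h4 ▸ (show Commute (⟨t, _⟩ : ↥(M ⊓ centralizer {u})) _ from Subtype.ext e2.symm).map (MonoidHom.comp mk φ))
  rw [MonoidHom.comp_apply, ← map_pow, pgl_mk_eq_one_iff] at this
  have h1 := D.sy e2 i i
  have := this.1
  have := O.two
  simp [sq, hφ, h1] at *
  grind

end Ov

end Cfsg.Lib.C6E
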