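import Cfsg.Agent.Lib.C6.ElT
import Cfsg.Agent.Lib.Inv.KleinSylow

/-! Abstract groups with an element of order eleven. -/

set_option autoImplicit false

namespace Cfsg.Lib.C6E

open scoped MatrixGroups
open Subgroup Matrix MulAction Cfsg.Geo Cfsg.Lib.C6
open Cfsg.Lib.Asch hiding tr
open Cfsg.Lib.Linear (mem_specialLinear)

open scoped Pointwise in
theorem cop11_aux {T : Type*} [Group T] [Finite T] {φ : MulAut T} (h : φ ^ 11 = 1) {r m : ℕ} [hr : Fact r.Prime]
    (h0 : ¬ 11 ∣ Nat.card T) (hm : ¬ r ^ (m + 1) ∣ Nat.card T)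
    (ho : ∀ a ≤ m, ∀ b ≤ m, r ^ a % 11 = r ^ b % 11 → a = b) : ¬ r ∣ (φ.toMonoidHom.eqLocus (.id T)).index := by
  have := Fact.mk Nat.prime_eleven
  have hp : IsPGroup 11 (zpowers φ) := by
    obtain ⟨k, -, e⟩ := (Nat.dvd_prime_pow (m := 1) Nat.prime_eleven).1 (orderOf_dvd_of_pow_eq_one h)
    exact IsPGroup.of_card (by rw [Nat.card_zpowers, e])
  obtain ⟨S, hS⟩ := hp.nonempty_fixed_point_of_prime_not_dvd_card (Sylow r T) fun e =>
    h0 (e.trans ((Sylow.card_dvd_index (Classical.arbitrary _)).trans (index_dvd_card _)))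
  have k : ∀ s ∈ (S : Subgroup T), φ s ∈ (S : Subgroup T) := fun s hs => by
    have e : φ • (S : Subgroup T) = S := congrArg Sylow.toSubgroup (hS ⟨φ, mem_zpowers φ⟩)
    exact e ▸ smul_mem_pointwise_smul s φ _ hs
  classical
  have := Fintype.ofFinite S
  let f : Function.End (S : Subgroup T) := fun s => ⟨φ s, k s s.2⟩
  have hk : ∀ (n : ℕ) (s : (S : Subgroup T)), ((f ^ n) s).1 = (φ ^ n) s.1 := fun n => by
    induction n with
    | zero => exact fun _ => rfl
    | succ n ih => exact fun s => by rw [pow_succ', pow_succ', MulAut.mul_apply, ← ih]; rfl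
  have hf : f ^ 11 ^ 1 = 1 := funext fun s => Subtype.ext (by rw [pow_one, hk, h]; rfl)
  have e1 := Equiv.Perm.card_fixedPoints_modEq hf
  have e2 : Nat.card (Function.fixedPoints f) = Nat.card ↥((S : Subgroup T) ⊓ φ.toMonoidHom.eqLocus (.id T)) :=
    Nat.card_congr
      { toFun := fun s => ⟨s.1.1, s.1.2, congrArg Subtype.val s.2⟩
        invFun := fun s => ⟨⟨s.1, s.2.1⟩, Subtype.ext s.2.2⟩
        left_inv := fun _ => rfl
        right_inv := fun _ => rfl }
  rw [← Nat.card_eq_fintype_card, ← Nat.card_eq_fintype_card, e2] at e1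
  obtain ⟨a, ha⟩ := S.isPGroup'.exists_card_eq
  obtain ⟨b, hb⟩ := (S.isPGroup'.to_inf_left (K := φ.toMonoidHom.eqLocus (.id T))).exists_card_eq
  have le : ∀ {c : ℕ} {H : Subgroup T}, Nat.card H = r ^ c → c ≤ m := fun {c H} e => by
    by_contra! l
    exact hm ((pow_dvd_pow r l).trans (e ▸ H.card_subgroup_dvd_card))
  rw [ha, hb] at e1
  have e3 := eq_of_le_of_card_ge (inf_le_left : (S : Subgroup T) ⊓ φ.toMonoidHom.eqLocus (.id T) ≤ S)
    (by rw [ha, hb, ho a (le ha) b (le hb) e1])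
  exact fun e => S.not_dvd_index (e.trans (index_dvd_of_le (inf_eq_left.1 e3)))

/-- For `r ∈ {2, 3, 5}` the group `zpowers φ` (an `11`-group) acts on `Sylow r T` (`Sylow.pointwiseMulAction`), whose
cardinality divides `|T|`, so is prime to `11`: there is a fixed Sylow subgroup `S`
(`IsPGroup.nonempty_fixed_point_of_prime_not_dvd_card`).  Put `C = φ.toMonoidHom.eqLocus (.id T)`.  `φ` permutes `S`
and `|S| ≡ |S ⊓ C| (mod 11)` (`Equiv.Perm.card_fixedPoints_modEq`, compare `C6.card_modEq`); both are powers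
`r ^ a`, `r ^ b`, `b ≤ a ≤ 9, 4, 4`, and `2, 3, 5` have orders `10, 5, 5` modulo `11`: `a = b`, `S ≤ C`.  So
no prime divides the index of `C`. -/
theorem cop11 {T : Type*} [Group T] [Finite T] (hT : Nat.card T ∣ 2 ^ 9 * 3 ^ 4 * 5 ^ 4) {φ : MulAut T}
    (h : φ ^ 11 = 1) : φ = 1 := by
  have := Fact.mk Nat.prime_three
  have := Fact.mk Nat.prime_five
  have h0 : ¬ 11 ∣ Nat.card T := fun e => absurd (e.trans hT) (by norm_num)
  have h1 : (φ.toMonoidHom.eqLocus (.id T)).index = 1 := Nat.eq_one_iff_not_exists_prime_dvd.2 fun p hp hd => by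
    have e := hd.trans ((index_dvd_card _).trans hT)
    rcases (Nat.Prime.dvd_mul hp).1 e with e | e
    · rcases (Nat.Prime.dvd_mul hp).1 e with e | e
      · obtain rfl := (Nat.prime_dvd_prime_iff_eq hp Nat.prime_two).1 (hp.dvd_of_dvd_pow e)
        exact cop11_aux (m := 9) h h0 (fun e => absurd (e.trans hT) (by norm_num)) (by decide) hd
      · obtain rfl := (Nat.prime_dvd_prime_iff_eq hp Nat.prime_three).1 (hp.dvd_of_dvd_pow e)
        exact cop11_aux (m := 4) h h0 (fun e => absurd (e.trans hT) (by norm_num)) (by decide) hd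
    · obtain rfl := (Nat.prime_dvd_prime_iff_eq hp Nat.prime_five).1 (hp.dvd_of_dvd_pow e)
      exact cop11_aux (m := 4) h h0 (fun e => absurd (e.trans hT) (by norm_num)) (by decide) hd
  exact MulEquiv.ext fun t => (index_eq_one.1 h1).ge (mem_top t)

/-- `U = zpowers u` is a Sylow `11`-subgroup (`121 ∤ 7920`).  `N = N(U)`, `C = C(u)`; `N / C` embeds in
`(ZMod 11)ˣ` (every `n ∈ N` has `n u n⁻¹ = u ^ k`); `k` is a power of `4` (otherwise `k = -4 ^ j` and
`h ^ (-j) n` inverts `u`), so `N = C ⟨h⟩`, `|N| = 5 |C|`.  `|C|` is odd (an involution of `C` times `u` has order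
`22`) and divisible by `11`.  `n₁₁ = |X : N| ≡ 1 (mod 11)`, `n₁₁ ≠ 1`, `55 n₁₁ ∣ 7920`: `n₁₁ = 144` (then
`|X| = 7920`) or `n₁₁ = 12`, and then a Sylow `2`-subgroup `S` has order `4`.  If `N(S) ≤ C(S)`, Burnside
(`MonoidHom.ker_transferSylow_isComplement'`) gives a normal subgroup `L` of odd order and index `4`; `u ∈ L`, and
`X = L N` (Frattini, or all Sylow `11`-subgroups lie in `L`), so `12 = |L : L ⊓ N|` divides the odd number `|L|`.
Otherwise some `n ∈ N(S)` acts non-trivially on the abelian group `S`; `N(S) / C(S)` has odd order, so `n` fixes no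
involution of `S` (if it fixed the involution `z`, `n²` would centralise `S`): `S` is a four-group and `n`
permutes its three involutions transitively.  Every involution is conjugate into `S`. -/
theorem ab {X : Type*} [Group X] [Finite X] {u h : X} (ou : orderOf u = 11) (hu : h * u * h⁻¹ = u ^ 4)
    (ni : ¬ IsConj u u⁻¹) (nn : ¬ (zpowers u).Normal) (hd : Nat.card X ∣ 7920) (n22 : ∀ g : X, orderOf g ≠ 22) :
    Nat.card X = 7920 ∨ ∀ a b : X, orderOf a = 2 → orderOf b = 2 → IsConj a b := by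
  have := Fact.mk Nat.prime_eleven
  have cu : Nat.card (zpowers u) = 11 := by rw [Nat.card_zpowers, ou]
  have hp : IsPGroup 11 (zpowers u) := IsPGroup.of_card (n := 1) cu
  have hi : ¬ 11 ∣ (zpowers u).index := fun e => by
    have := (Nat.mul_dvd_mul_left 11 e).trans (by rwa [← cu, card_mul_index] : _ ∣ 7920)
    omega
  have u11 : u ^ 11 = 1 := ou ▸ pow_orderOf_eq_one u
  have n1 := card_sylow_modEq_one 11 X
  have fr := fun (L : Subgroup X) (_ : L.Normal) => Sylow.normalizer_sup_eq_top' (N := L) (hp.toSylow hi)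
  rw [(hp.toSylow hi).card_eq_index_normalizer] at n1
  change (normalizer (zpowers u : Set X)).index ≡ 1 [MOD 11] at n1
  replace fr : ∀ L : Subgroup X, L.Normal → zpowers u ≤ L → normalizer (zpowers u : Set X) ⊔ L = ⊤ := fr
  have n0 : (normalizer (zpowers u : Set X)).index ≠ 1 := fun e => nn (normalizer_eq_top_iff.1 (index_eq_one.1 e))
  have uN : zpowers u ≤ normalizer (zpowers u : Set X) := le_normalizer
  have hN : h ∈ normalizer (zpowers u : Set X) := Transfer.mem_normalizer_of_conj_le (by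
    rw [Transfer.conj_zpowers, hu]; exact zpowers_le.2 (pow_mem (mem_zpowers u) 4))
  have od : ¬ 2 ∣ Nat.card (normalizer (zpowers u : Set X)) := fun e => by
    obtain ⟨⟨t, ht⟩, ot⟩ := exists_prime_orderOf_dvd_card' 2 e
    rw [orderOf_mk] at ot
    have tt : t * t = 1 := by rw [← pow_two, ← ot, pow_orderOf_eq_one]
    obtain ⟨k, hk, e1⟩ : ∃ k < 11, u ^ k = t * u * t⁻¹ := by
      obtain ⟨k, e⟩ := mem_powers_iff_mem_zpowers.2 ((mem_normalizer_iff.1 ht u).1 (mem_zpowers u))
      exact ⟨k % 11, Nat.mod_lt _ (by decide), by rw [← ou, pow_mod_orderOf]; exact e⟩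
    have e2 : u ^ (k * k) = u ^ 1 := by
      rw [pow_mul, e1, conj_pow, e1, pow_one, ← mul_assoc, ← mul_assoc, tt, mul_assoc, ← _root_.mul_inv_rev, tt]; simp
    rw [pow_eq_pow_iff_modEq, ou] at e2
    obtain rfl | rfl : k = 1 ∨ k = 10 := by interval_cases k <;> simp [Nat.ModEq] at e2 ⊢
    · have c : Commute t u := mul_inv_eq_iff_eq_mul.1 (by rw [← e1, pow_one])
      exact n22 (t * u) (by rw [c.orderOf_mul_eq_mul_orderOf_of_coprime (by rw [ot, ou]; decide), ot, ou])
    · exact ni (isConj_iff.2 ⟨t, by rw [← e1, eq_inv_iff_mul_eq_one, ← pow_succ, u11]⟩)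
  have d5 : 5 ∣ Nat.card (normalizer (zpowers u : Set X)) := by
    refine Dvd.dvd.trans ?_ (Subgroup.orderOf_dvd_natCard _ hN)
    have k : ∀ m : ℕ, h ^ m * u * (h ^ m)⁻¹ = u ^ 4 ^ m := fun m => by
      induction m with
      | zero => simp
      | succ m ih => rw [pow_succ', _root_.mul_inv_rev, mul_assoc h, mul_assoc h, ← mul_assoc (h ^ m * u), ih,
          ← mul_assoc, ← conj_pow, hu, ← pow_mul, pow_succ']
    have e := k (orderOf h)
    rw [pow_orderOf_eq_one, one_mul, inv_one, mul_one, ← pow_one u, ← pow_mul, pow_eq_pow_iff_modEq, ou, one_mul,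
      ← Nat.div_add_mod (orderOf h) 5, pow_add, pow_mul] at e
    have e2 : (4 ^ 5) ^ (orderOf h / 5) * 4 ^ (orderOf h % 5) ≡ 1 ^ (orderOf h / 5) * 4 ^ (orderOf h % 5) [MOD 11] :=
      (Nat.ModEq.pow _ (by decide)).mul_right _
    have e3 := e.trans e2
    rw [one_pow, one_mul] at e3
    have := Nat.mod_lt (orderOf h) (by decide : 5 > 0)
    refine Nat.dvd_of_mod_eq_zero ?_
    generalize orderOf h % 5 = c at *
    interval_cases c <;> simp [Nat.ModEq] at e3 ⊢
  have d11 : 11 ∣ Nat.card (normalizer (zpowers u : Set X)) := cu ▸ card_dvd_of_le uN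
  have cm := card_mul_index (normalizer (zpowers u : Set X))
  generalize normalizer (zpowers u : Set X) = N at *
  obtain ⟨c, hc⟩ := Nat.Coprime.mul_dvd_of_dvd_of_dvd (by decide) d5 d11
  have d144 : c * N.index ∣ 144 := Nat.dvd_of_mul_dvd_mul_left (by decide : 0 < 55) (by
    rw [← mul_assoc, ← hc, cm]; exact hd)
  have l := Nat.le_of_dvd (by decide) (Dvd.dvd.trans (Dvd.intro_left c rfl) d144)
  obtain e | e : N.index = 144 ∨ N.index = 12 := by
    have := Dvd.dvd.trans (Dvd.intro_left c rfl) d144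
    generalize N.index = n at *
    unfold Nat.ModEq at n1
    interval_cases n <;> omega
  · refine Or.inl (Nat.dvd_antisymm hd ?_)
    rw [← cm, hc, e]
    exact Dvd.intro c (by ring)
  refine Or.inr fun a b oa ob => ?_
  obtain ⟨S⟩ : Nonempty (Sylow 2 X) := inferInstance
  have c4 : Nat.card (S : Subgroup X) = 4 := by
    rw [S.card_eq_multiplicity, ← cm, e, Nat.factorization_mul Nat.card_pos.ne' (by decide), Finsupp.add_apply,
      Nat.factorization_eq_zero_of_not_dvd od, show 12 = 2 ^ 2 * 3 from rfl,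
      Nat.factorization_mul (by decide) (by decide), Nat.prime_two.factorization_pow, Finsupp.add_apply,
      Nat.factorization_eq_zero_of_not_dvd (by decide : ¬ 2 ∣ 3)]
    simp
  have nc : ¬ HasNormalPComplement 2 X := fun ⟨P, L, hn, hL⟩ => by
    have i4 : L.index = 4 := by rw [hL.symm.index_eq_card, ← c4]; exact Nat.card_congr (Sylow.equiv P S).toEquiv
    have NL : N ≤ L := relIndex_eq_one.1 (Nat.eq_one_of_dvd_coprimes (a := 4) (Nat.Coprime.pow_left (m := 2) 2
      ((Nat.Prime.coprime_iff_not_dvd Nat.prime_two).2 od)) (i4 ▸ relIndex_dvd_index_of_normal L N)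
      (index_dvd_card _))
    have := fr L hn (uN.trans NL)
    rw [sup_eq_right.2 NL] at this
    rw [this, index_top] at i4
    omega
  exact Inv.k4_sylow_isConj S ⟨c4, (not_isCyclic_iff_exponent_eq_prime Nat.prime_two c4).1 fun e =>
    nc (Inv.hasNormalPComplement_of_isCyclic S e)⟩ nc oa ob

/-- Apply `ab` to `X`; if `|X| = 7920` then `X = ⊤` and `|A| = 7920`. -/
theorem Au.conj {A : Type*} [Group A] [Finite A] (hA : Au A) {X : Subgroup A} {u h a b : A} (mu : u ∈ X) (mh : h ∈ X)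
    (ma : a ∈ X) (mb : b ∈ X) (ou : orderOf u = 11) (hu : h * u * h⁻¹ = u ^ 4)
    (ni : ∀ c ∈ X, c * u * c⁻¹ ≠ u⁻¹) (nn : ∃ c ∈ X, ¬ Commute u (c * u * c⁻¹)) (oa : orderOf a = 2)
    (ob : orderOf b = 2) : ∃ c ∈ X, c * a * c⁻¹ = b := by
  have k : ∀ {x y : A} (hx : x ∈ X) (hy : y ∈ X), IsConj (⟨x, hx⟩ : X) ⟨y, hy⟩ → ∃ c ∈ X, c * x * c⁻¹ = y :=
    fun _ _ e => let ⟨c, e⟩ := isConj_iff.1 e; ⟨c, c.2, congrArg Subtype.val e⟩
  rcases ab (X := X) (u := ⟨u, mu⟩) (h := ⟨h, mh⟩) (by rwa [orderOf_mk]) (Subtype.ext hu)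
    (fun e => let ⟨c, hc, e⟩ := k mu (inv_mem mu) e; ni c hc e)
    (fun e => by
      obtain ⟨c, hc, n⟩ := nn
      obtain ⟨j, hj⟩ := e.conj_mem _ (mem_zpowers _) ⟨c, hc⟩
      exact n ((show u ^ j = c * u * c⁻¹ from congrArg Subtype.val hj) ▸ Commute.self_zpow u j))
    (X.card_subgroup_dvd_card.trans hA.dvd) (fun g => orderOf_coe g ▸ hA.n22 g) with e | e
  · have e1 : Nat.card A = 7920 := Nat.dvd_antisymm hA.dvd (e ▸ X.card_subgroup_dvd_card)
    obtain ⟨c, hc⟩ := isConj_iff.1 (hA.one e1 a b oa ob)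
    exact ⟨c, (eq_top_of_card_eq X (e.trans e1.symm)).ge (mem_top c), hc⟩
  · exact k ma mb (e _ _ (by rwa [orderOf_mk]) (by rwa [orderOf_mk]))

end Cfsg.Lib.C6E
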