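import Cfsg.Agent.Lib.C6.ElG
import Cfsg.Agent.Lib.Linear.MaxDecomp
import Cfsg.Agent.Lib.PGroup.Critical

/-! Elements of order eleven in the geometric maximal subgroups of `SL₅(q)`. -/

set_option autoImplicit false

namespace Cfsg.Lib.C6E

open scoped MatrixGroups
open Subgroup Matrix MulAction Cfsg.Geo Cfsg.Lib.C6
open Cfsg.Lib.Asch hiding tr
open Cfsg.Lib.Linear (mem_specialLinear)

variable {F K : Type*} [Field F] [Field K]

local notation "G5" => GL (Fin 5) F

theorem eq_one_of_cop {G : Type*} [Group G] {g : G} (h : g ^ 11 = 1) (hc : ¬ 11 ∣ Nat.card G) : g = 1 :=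
  orderOf_eq_one_iff.1 (((Nat.dvd_prime Nat.prime_eleven).1 (orderOf_dvd_of_pow_eq_one h)).resolve_right
    fun e => hc (e ▸ orderOf_dvd_natCard g))

theorem dec_fix {D : Fin 5 → Submodule F (Fin 5 → F)} (hD : IsMDecomposition 1 D) {a : G5}
    (ha : a ∈ decompositionStabilizer D) (a11 : a ^ 11 = 1) (i : Fin 5) : ∀ v ∈ D i, a.1 *ᵥ v ∈ D i := by
  have h0 : ∀ i, D i ≠ ⊥ := fun i => Submodule.one_le_finrank_iff.1 (hD.finrank_eq i).ge
  obtain ⟨φ, hφ⟩ := exists_permHom
    (fun (g : decompositionStabilizer D) i j => (D i).map (Matrix.toLin' ((g : G5) : Matrix _ _ F)) = D j)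
    (fun g => g.2) (fun g i j j' h3 h4 => hD.indep.injective h0 (h3.symm.trans h4)) fun g g' i j k h3 h4 => by
      rw [Subgroup.coe_mul, Units.val_mul, Matrix.toLin'_mul, Submodule.map_comp, h3, h4]
  have := hφ ⟨a, ha⟩ i
  rw [eq_one_of_cop (g := φ ⟨a, ha⟩) (by rw [← map_pow, show (⟨a, ha⟩ : decompositionStabilizer D) ^ 11 = 1 from
    Subtype.ext a11, map_one]) (by rw [Nat.card_perm, Nat.card_fin]; decide)] at this
  exact fun v hv => this.le ⟨v, hv, rfl⟩

/-- `exists_permHom` as in `Amb.not_dec` (`Lib/Asch/Amb.lean`): `a ^ 11 = 1` and `|S₅| = 120`, so `a`, `b` fix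
every line `D i` and act on it by scalars; hence `a b` and `b a` agree on every `D i`, and the `D i` span.
(Alternatively `Linear.exists_decompositionStabilizer_eq` and monomial matrices.) -/
theorem c_dec {D : Fin 5 → Submodule F (Fin 5 → F)} (hD : IsMDecomposition 1 D) {a b : G5}
    (ha : a ∈ decompositionStabilizer D) (hb : b ∈ decompositionStabilizer D) (a11 : a ^ 11 = 1) (b11 : b ^ 11 = 1) :
    a * b = b * a := by
  have k : ∀ i, D i ≤ LinearMap.ker (Matrix.toLin' ((a * b).1 - (b * a).1)) := fun i w hw => by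
    obtain ⟨v, -, hv⟩ := finrank_eq_one_iff'.1 (hD.finrank_eq i)
    obtain ⟨c, hc⟩ := hv ⟨w, hw⟩
    obtain ⟨α, h1⟩ := hv ⟨_, dec_fix hD ha a11 i v v.2⟩
    obtain ⟨β, h2⟩ := hv ⟨_, dec_fix hD hb b11 i v v.2⟩
    replace hc : c • v.1 = w := congrArg Subtype.val hc
    replace h1 : α • v.1 = a.1 *ᵥ v.1 := congrArg Subtype.val h1
    replace h2 : β • v.1 = b.1 *ᵥ v.1 := congrArg Subtype.val h2
    rw [LinearMap.mem_ker, ← hc, map_smul, Matrix.toLin'_apply, sub_mulVec, Units.val_mul, Units.val_mul,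
      ← mulVec_mulVec, ← mulVec_mulVec, ← h1, ← h2, mulVec_smul, mulVec_smul, ← h1, ← h2, smul_comm α, sub_self,
      smul_zero]
  have := hD.iSup_eq_top.ge.trans (iSup_le k)
  rw [top_le_iff, LinearMap.ker_eq_top, LinearEquiv.map_eq_zero_iff, sub_eq_zero] at this
  exact Units.ext this

/-- As `D3.cube_mem_fld` (`Lib/D3/Inv.lean`): `(nrm_subalgebraNormalizer K).hom` maps into a group of order `5`
(`IsFieldSubalgebra.card_aut`), so it kills `a`; `Nrm.hom_eq_one`, `IsFieldSubalgebra.mem_of_commute` give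
`a, b ∈ K`, and `K` is commutative. -/
theorem c_fld [Fintype F] {A : Subalgebra F (Matrix (Fin 5) (Fin 5) F)} (hA : IsFieldSubalgebra 5 A) {a b : G5}
    (ha : a ∈ subalgebraNormalizer A) (hb : b ∈ subalgebraNormalizer A) (a11 : a ^ 11 = 1) (b11 : b ^ 11 = 1) :
    a * b = b * a := by
  have k : ∀ {g : G5}, g ∈ subalgebraNormalizer A → g ^ 11 = 1 → g.1 ∈ A := fun {g} hg h =>
    IsFieldSubalgebra.mem_of_commute (ι := Fin 5) hA (((nrm_subalgebraNormalizer A).hom_eq_one (g := ⟨g, hg⟩)).1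
      (eq_one_of_cop (by rw [← map_pow, show (⟨g, hg⟩ : subalgebraNormalizer A) ^ 11 = 1 from Subtype.ext h, map_one])
        (by rw [IsFieldSubalgebra.card_aut hA]; decide)))
  exact Units.ext (hA.comm _ (k ha a11) _ (k hb b11))

/-- `R` is abelian modulo scalars (copy the proof of `cm` in `C6S.isMaximalIn_of`, `Lib/C6/SevD.lean`, with `7 ↦ 5`),
`env R = ⊤` (`env_eq_top_of_absIrred`), so `R.map pr` has order `25` (`relIndex_scalars`; a `5`-group of order
`≤ 5 ^ 4` is enough).  `cop11` for the automorphism induced by `pr a` (`nrm_map`, `normalizerMonoidHom`): `pr a`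
centralises `R.map pr`, so `pr a ∈ R.map pr` (`cent`), a `5`-group (`pgrp`); `pr a ^ 11 = 1`, so `pr a = 1`. -/
theorem c_ext [Fintype F] {R : Subgroup G5} (hR : IsLinearSymplecticTypeData 5 R) {a : G5}
    (ha : a ∈ subgroupNormalizer R) (a11 : a ^ 11 = 1) : Sc a := by
  have := Fact.mk Nat.prime_five
  have hs := hR.symplecticType
  have hZ : Nat.card (Subgroup.center R) = 5 := by
    obtain ⟨_, _, -, -, h | h | h⟩ := hR.field
    exacts [h.2.2.1, by omega, by omega]
  have hS := schur_of_absIrr hR.absIrred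
  have hc : ∀ r : R, r ^ 5 = 1 := fun r =>
    (congrArg (_ ^ ·) hs.exponent_eq.symm).trans (Monoid.pow_exponent_eq_one r)
  have k := PGroup.frattini_le_center_of_char_abelian_le_center hs.pGroup fun A _ hA => by
    have := hs.cyclic_of_characteristic (A ⊔ Subgroup.center R) inferInstance ⟨⟨by
      rintro ⟨x, hx⟩ ⟨y, hy⟩
      obtain ⟨a, ha, u, hu, rfl⟩ := mem_sup_of_normal_right.1 hx
      obtain ⟨b, hb, v, hv, rfl⟩ := mem_sup_of_normal_right.1 hy
      have : Commute a b := congrArg Subtype.val (hA.is_comm.comm ⟨a, ha⟩ ⟨b, hb⟩)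
      exact Subtype.ext ((this.mul_right (Subgroup.mem_center_iff.1 hv a)).mul_left
        (Commute.symm (Subgroup.mem_center_iff.1 hu _))).eq⟩⟩
    refine (le_sup_left (b := Subgroup.center R)).trans (eq_of_le_of_card_ge le_sup_right
      (hZ.trans_ge (Nat.le_of_dvd (by norm_num) ?_))).ge
    rw [← IsCyclic.exponent_eq_card]
    exact Monoid.exponent_dvd_of_forall_pow_eq_one fun e => Subtype.ext (hc e)
  have cm : ∀ a ∈ R, ∀ b ∈ R, pr a * pr b = pr b * pr a := fun a ha b hb =>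
    sc_comm_iff.1 ((C6.mem_center_iff hS).1
      (k (PGroup.commutatorElement_mem_frattini hs.pGroup ⟨a, ha⟩ ⟨b, hb⟩)))
  have top := env_eq_top_of_absIrred hR.absIrred
  have c25 : Nat.card (R.map pr) = 5 ^ 2 := by
    have := relIndex_scalars top (commutator_le.2 fun a ha b hb => mem_scalars (sc_comm_iff.2 (cm a ha b hb)))
    rw [← relIndex_ker, pr, QuotientGroup.ker_mk', this, Fintype.card_fin]
  have hn := nrm_map (zpowers_le.2 ha : zpowers a ≤ normalizer (R : Set G5)) ⟨a, mem_zpowers a, rfl⟩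
  have p11 : pr a ^ 11 = 1 := by rw [← map_pow, a11, map_one]
  have e := cop11 (φ := normalizerMonoidHom _ ⟨pr a, hn⟩) (by rw [c25]; norm_num)
    (by rw [← map_pow, show (⟨pr a, hn⟩ : normalizer _) ^ 11 = 1 from Subtype.ext p11, map_one])
  obtain ⟨r, hr, e1⟩ := cent top cm (g := a) fun r hr => mul_inv_eq_iff_eq_mul.1
    (congrArg Subtype.val (MulEquiv.congr_fun e ⟨pr r, r, hr, rfl⟩))
  exact pr_eq_one.1 (congrArg Subtype.val (eq_one_of_cop (G := R.map pr) (g := ⟨pr a, r, hr, e1⟩)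
    (Subtype.ext p11) (by rw [c25]; decide)))

/-- `f = polar Q` is an `SForm` (`sform_of_quad`, `quadSim_le_sim`); the multiplier `c` of `a` has `c ^ 11 = 1`
(iterate) and, with the Gram matrix `G`, `aᵀ G a = c G`, `c ^ 5 = det a ^ 2 = 1`.  So `c = 1`, `a ∈ iso f`,
`adj a = a⁻¹` (`SForm.adj_eq_inv_iff`), and `SForm.trace_adj` (compare `D3.it_sim`). -/
theorem c_orth [Fintype F] {Q : (Fin 5 → F) → F} (hQ : IsNondegenerateQuadraticForm Q) {a : G5}
    (ha : a ∈ quadSimilarityGroup Q) (da : a.1.det = 1) (a11 : a ^ 11 = 1) : (a⁻¹).1.trace = a.1.trace := by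
  have hf := sform_of_quad hQ
  obtain ⟨c, -, hc⟩ := hf.adj_coe (quadSim_le_sim Q ha)
  have di : (a⁻¹).1.det = 1 := by rw [Matrix.coe_units_inv, Matrix.det_nonsing_inv, da]; simp
  have h1 := congrArg Matrix.det (hf.gram_adj a.1)
  rw [Matrix.det_mul, Matrix.det_mul, Matrix.det_transpose, mul_comm, mul_right_inj' hf.det_ne,
    ← RingHom.mapMatrix_apply, ← RingHom.map_det, hc, Matrix.det_smul, di, da] at h1
  have h2 : c ^ 5 = 1 := by simpa using h1.symm
  have h3 := hf.isAdj.pow a.1 11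
  rw [← Units.val_pow_eq_pow_val, a11, hc, smul_pow, ← Units.val_pow_eq_pow_val, inv_pow, a11, inv_one,
    Units.val_one, hf.isAdj.one] at h3
  have h4 : c ^ 11 = 1 := smul_one_inj (ι := Fin 5) (h3.symm.trans (one_smul F _).symm)
  have h5 : c = 1 := by
    rw [show 11 = 5 * 2 + 1 from rfl, pow_succ, pow_mul, h2, one_pow, one_mul] at h4; exact h4
  rw [h5, one_smul] at hc
  rw [← hc, hf.trace_adj, RingHom.id_apply]

/-- An automorphism of order two: `|F| = |F₀| ^ 2` for the fixed field (see `D3.cj_uni`, `Unitary.IsBar`). -/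
theorem c_uni [Fintype F] {σ : F ≃+* F} {f : (Fin 5 → F) → (Fin 5 → F) → F} (hf : IsUnitaryForm σ f) :
    IsSquare (Fintype.card F) := by
  obtain ⟨q, hq⟩ := Unitary.exists_isBar_of_invol (σ := (σ : F →+* F))
    (fun e => hf.ne_refl (RingEquiv.ext (RingHom.congr_fun e))) hf.involutive
  exact ⟨q, by rw [← Nat.card_eq_fintype_card, hq.card, sq]⟩

/-- As `C6S.cube_range` and its use in `C6S.desc` (`Lib/C6/SevA.lean`; `D3.mem_subfieldSubgroup` in `Lib/D3/Desc.lean`)
with `3 ↦ 5`: `x = c • emb g`, `c ^ 5 * det g = 1`, so `x ^ 5 = emb ((det g)⁻¹ • g ^ 5)`; the range is a subgroup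
and `x` is a power of `x ^ 5`. -/
theorem mem_range_emb {k : Subfield F} {B x : G5} (h : x ∈ subfieldSubgroup k B) (h1 : x.1.det = 1) {m : ℕ}
    (hm : Nat.Coprime 5 m) (hx : x ^ m = 1) : x ∈ (emb k.subtype B).range := by
  obtain ⟨j, hj⟩ := exists_pow_eq_self_of_coprime (x := x) (hm.coprime_dvd_right (orderOf_dvd_of_pow_eq_one hx))
  refine hj ▸ pow_mem ?_ j
  obtain ⟨y, hy, rfl⟩ := h
  obtain ⟨_, ⟨g, rfl⟩, z, hz, rfl⟩ := Subgroup.mem_sup_of_normal_right.1 hy
  obtain ⟨c, hc⟩ := (mem_scalars_iff z).1 hz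
  obtain rfl : z = scGL _ c := Units.ext (by rw [hc, coe_scGL])
  have cm := fun y : G5 => commute_of_mem_scalars (scGL_mem c) y
  have e : (MulAut.conj B).toMonoidHom (GeneralLinearGroup.map k.subtype g * scGL _ c) =
      scGL _ c * emb k.subtype B g := by
    change B * (_ * _) * B⁻¹ = _ * (B * _ * B⁻¹)
    rw [← mul_assoc, mul_assoc _ (scGL _ c), ← (cm B⁻¹).eq, ← mul_assoc, (cm _).eq]
  rw [e] at h1 ⊢
  rw [Units.val_mul, Matrix.det_mul, det_emb, show (scGL (Fin 5) c).1.det = c ^ 5 by simp [coe_scGL]] at h1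
  refine ⟨scGL _ (Matrix.GeneralLinearGroup.det g)⁻¹ * g ^ 5, ?_⟩
  rw [(cm _).symm.mul_pow, map_mul, map_pow, emb_scGL, ← scGL_pow]
  exact congrArg (scGL _ · * _) (Units.ext (by simpa using (eq_inv_of_mul_eq_one_left h1).symm))

/-- Everything descends along the injective homomorphism `emb f B` (`tr_emb`, `emb_mem_sl`).  Irreducibility: if
`⊥ ≠ W ≠ ⊤` is invariant under `u, w` over `K`, choose `φ ≠ 0` with `φ ⬝ᵥ x = 0` on `W`
(`Linear.exists_dot_of_notMem`); `W' = span F {B *ᵥ (f ∘ x) | x ∈ W}` is invariant under `emb u`, `emb w` (so under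
their closure: `Inv` only needs the generators of a finite or arbitrary group, use `closure_induction`; for inverses
`u⁻¹ = u ^ 10`, `w⁻¹ = w`), non-zero, and killed by the non-zero functional `(f ∘ φ) ᵥ* B⁻¹`. -/
theorem Tr5.desc {f : K →+* F} {B : G5} {Γ : Subgroup G5} {u w v : GL (Fin 5) K}
    (T : Tr5 Γ (emb f B u) (emb f B w) (emb f B v)) : Tr5 (Γ.comap (emb f B)) u w v := by
  refine ⟨fun g hg => emb_mem_sl.1 (T.le hg), T.mu, T.mw, T.mv, emb_injective (by rw [map_pow, T.u11, map_one]),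
    emb_injective (by rw [map_mul, T.w2, map_one]), emb_injective (by rw [map_mul, T.v2, map_one]),
    emb_injective (by simpa only [map_mul, map_inv, map_pow] using T.hu), fun W hW => ?_,
    fun e => T.tu (by rw [← map_inv, tr_emb, tr_emb, e]), f.injective (by rw [← tr_emb (B := B), T.tw, map_one]),
    fun e => T.nc (by simpa only [map_mul, map_inv] using congrArg (emb f B) e)⟩
  by_contra! n
  obtain ⟨x, hx, x0⟩ := (Submodule.ne_bot_iff W).1 n.1
  obtain ⟨y, hy⟩ : ∃ y, y ∉ W := by by_contra! e; exact n.2 (Submodule.eq_top_iff'.2 e)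
  obtain ⟨φ, h1, h2⟩ := Linear.exists_dot_of_notMem hy
  have dot : ∀ z : Fin 5 → K, ((f ∘ φ) ᵥ* (B⁻¹).1) ⬝ᵥ (B.1 *ᵥ (f ∘ z)) = f (φ ⬝ᵥ z) := fun z => by
    rw [← dotProduct_mulVec, inv_mulVec_mulVec, RingHom.map_dotProduct]
  rcases T.irr (Submodule.span F ((fun z : Fin 5 → K => B.1 *ᵥ (f ∘ z)) '' W)) (fun g hg z hz => by
    rw [← Set.image_pair, ← MonoidHom.map_closure] at hg
    obtain ⟨g, hg, rfl⟩ := hg
    refine (Submodule.span_le (p := Submodule.comap (Matrix.toLin' (emb f B g).1)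
      (Submodule.span F ((fun z : Fin 5 → K => B.1 *ᵥ (f ∘ z)) '' W)))).2 ?_ hz
    rintro _ ⟨z, hz, rfl⟩
    refine Submodule.subset_span ⟨g.1 *ᵥ z, hW g hg z hz, ?_⟩
    rw [Matrix.toLin'_apply, coe_emb, cj_def, ← mulVec_mulVec, ← mulVec_mulVec, inv_mulVec_mulVec]
    exact congrArg _ (funext fun i => RingHom.map_mulVec f _ _ i)) with e | e
  · have := e.le (Submodule.subset_span ⟨x, hx, rfl⟩)
    exact Linear.GL_mulVec_ne_zero B (fun e => x0 (funext fun i => f.injective (by simpa using congrFun e i))) this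
  · have k : Submodule.span F ((fun z : Fin 5 → K => B.1 *ᵥ (f ∘ z)) '' W) ≤
        LinearMap.ker (dotProductBilin F F ((f ∘ φ) ᵥ* (B⁻¹).1)) := Submodule.span_le.2 (by
      rintro _ ⟨z, hz, rfl⟩
      exact (dot z).trans (by rw [h1 z hz, map_zero]))
    have := (dot y).symm.trans (k (e.ge Submodule.mem_top))
    rw [h2, map_one] at this
    exact one_ne_zero this

end Cfsg.Lib.C6E
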