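import Cfsg.Agent.Lib.C6.ElZ

/-! The interface in dimension five: subgroups of `SL₅(q)` containing the Weil representation of `L₂(11)`. -/

set_option autoImplicit false

namespace Cfsg.Lib.C6E

open scoped MatrixGroups
open Subgroup Matrix MulAction Cfsg.Geo Cfsg.Lib.C6
open Cfsg.Lib.Asch hiding tr
open Cfsg.Lib.Linear (mem_specialLinear)

variable {F K : Type*} [Field F] [Field K]

local notation "G5" => GL (Fin 5) F

/-- `u` of order eleven, involutions `w`, `v` (the images of generators of `SL₂(11)`). -/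
structure Tr5 (Γ : Subgroup G5) (u w v : G5) : Prop where
  le : Γ ≤ specialLinear (Fin 5) F
  mu : u ∈ Γ
  mw : w ∈ Γ
  mv : v ∈ Γ
  u11 : u ^ 11 = 1
  w2 : w * w = 1
  v2 : v * v = 1
  hu : v * w * u * (v * w)⁻¹ = u ^ 4
  irr : Irr (closure {u, w})
  tu : (u⁻¹).1.trace ≠ u.1.trace
  tw : w.1.trace = 1
  nc : u * (w * u * w⁻¹) ≠ w * u * w⁻¹ * u

/-- `a` is conjugate to `w` in `Γ`. -/
def Cj (Γ : Subgroup G5) (w a : G5) : Prop := ∃ c ∈ Γ, c * w * c⁻¹ = a

/-- `a` is conjugate to `w`, or there is a frame of conjugates of `w`. -/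
def Cn (Γ : Subgroup G5) (w a : G5) : Prop :=
  Cj Γ w a ∨ ∃ g : Fin 4 → G5, (∀ i, Cj Γ w (g i)) ∧ ∀ i j, i ≠ j → Cj Γ w (g i * g j)

/-- Extension of scalars followed by a change of basis. -/
def emb (f : K →+* F) (B : G5) : GL (Fin 5) K →* G5 :=
  (MulAut.conj B).toMonoidHom.comp (GeneralLinearGroup.map f)

/-- The properties of `Aut L₂(11)` and `Aut M₁₁` that are used. -/
structure Au (A : Type*) [Group A] : Prop where
  dvd : Nat.card A ∣ 7920
  n22 : ∀ g : A, orderOf g ≠ 22
  one : Nat.card A = 7920 → ∀ a b : A, orderOf a = 2 → orderOf b = 2 → IsConj a b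

section emb
variable {f : K →+* F} {B : GL (Fin 5) F} {g : GL (Fin 5) K}

theorem coe_emb : (emb f B g).1 = cj B (g.1.map f) := rfl

theorem emb_injective : Function.Injective (emb f B) := fun _ _ e =>
  Units.ext (Matrix.map_injective f.injective (cj_injective B (congrArg Units.val e)))

theorem tr_emb : (emb f B g).1.trace = f g.1.trace := by
  rw [coe_emb, trace_cj]; exact (AddMonoidHom.map_trace f.toAddMonoidHom g.1).symm

theorem det_emb : (emb f B g).1.det = f g.1.det := by
  rw [coe_emb, cj_def, Matrix.det_units_conj, RingHom.map_det]; rfl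

theorem emb_scGL (c : Kˣ) : emb f B (scGL _ c) = scGL _ (Units.map f.toMonoidHom c) := Units.ext (by
  rw [coe_emb, coe_scGL, coe_scGL, ← cj_one_mat B, ← cj_smul]
  congr 1; ext i j; simp [Matrix.one_apply, apply_ite f])

theorem emb_mem_sl : emb f B g ∈ specialLinear (Fin 5) F ↔ g ∈ specialLinear (Fin 5) K := by
  rw [mem_specialLinear, mem_specialLinear]
  exact (congrArg (· = 1) det_emb).to_iff.trans (map_eq_one_iff f f.injective)

theorem Cn.emb {Γ : Subgroup G5} {w a : GL (Fin 5) K} (h : Cn (Γ.comap (emb f B)) w a) :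
    Cn Γ (emb f B w) (emb f B a) := by
  have k : ∀ {a}, Cj (Γ.comap (C6E.emb f B)) w a → Cj Γ (C6E.emb f B w) (C6E.emb f B a) := fun ⟨c, hc, e⟩ =>
    ⟨_, hc, by rw [← e, map_mul, map_mul, map_inv]⟩
  exact h.imp k fun ⟨g, h1, h2⟩ => ⟨fun i => C6E.emb f B (g i), fun i => k (h1 i), fun i j ij => by
    simpa only [map_mul] using k (h2 i j ij)⟩

end emb

/-- Elements of `SL₅` of order prime to five which agree modulo scalars agree. -/
theorem eq_of_pr {a b : G5} (da : a.1.det = 1) (db : b.1.det = 1) {m : ℕ} (hm : Nat.Coprime 5 m) (ha : a ^ m = 1)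
    (hb : b ^ m = 1) (e : pr a = pr b) : a = b := by
  have k := pr_eq.1 e
  refine mul_inv_eq_one.1 (by_contra fun n => not_sc_of_coprime (r := m) ?_ n ?_ (by simpa using hm.symm) k)
  · rw [← mul_left_inj (b ^ m), ← (Commute.mul_pow (k.comm b)), inv_mul_cancel_right, ha, hb, one_mul]
  · rw [Units.val_mul, det_mul, da, one_mul, Matrix.coe_units_inv, det_nonsing_inv, db, Ring.inverse_one]

end Cfsg.Lib.C6E
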