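import Cfsg.Agent.Lib.C6.Basic
import Cfsg.Agent.Lib.Asch.LinMax
import Cfsg.Agent.Lib.Linear.Tv
import Cfsg.Agent.Lib.PSL2.Proper

/-! Light generic matrix tools for `11^{1+2}.SL₂(11)` (copies of tools of `C6/Five*`, `C6/Sev*`). -/

set_option autoImplicit false

namespace Cfsg.Lib.C6E

open scoped MatrixGroups
open Subgroup Matrix MulAction Cfsg.Geo Cfsg.Lib.C6 Cfsg.Lib.PSL2
open Cfsg.Lib.Asch hiding tr

variable {F : Type*} [Field F]

section
variable {ι : Type} [Fintype ι] [DecidableEq ι] {g t x : GL ι F}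

/-- The map to the projective group. -/
def pr : GL ι F →* GL ι F ⧸ scalars ι F := QuotientGroup.mk' _

theorem sc_of_mem (h : g ∈ scalars ι F) : Sc g := let ⟨c, hc⟩ := (mem_scalars_iff g).1 h; ⟨c, hc⟩

variable [Nonempty ι]

theorem pr_eq_one : pr g = 1 ↔ Sc g :=
  (QuotientGroup.eq_one_iff g).trans ⟨sc_of_mem, fun ⟨c, hc⟩ =>
    (mem_scalars_iff g).2 ⟨Units.mk0 c (ne_zero_of_eq_smul hc), hc⟩⟩

theorem pr_eq : pr g = pr t ↔ Sc (g * t⁻¹) := by
  rw [← pr_eq_one, map_mul, map_inv, mul_inv_eq_one]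

theorem mem_scalars (h : Sc g) : g ∈ scalars ι F :=
  (QuotientGroup.eq_one_iff _).1 (pr_eq_one.2 h)

theorem sc_comm_iff : Sc (g * x * g⁻¹ * x⁻¹) ↔ pr g * pr x = pr x * pr g := by
  rw [← pr_eq, map_mul, map_mul, map_inv, mul_inv_eq_iff_eq_mul]

end

theorem exists_supp {M α : Type*} [AddCommGroup M] [Module F M] (c : α → M →ₗ[F] F)
    (A : Submodule F M) {a : α} (s : Finset α)
    (h : ∀ b ∈ s, ∃ l : α → F, l b ≠ l a ∧ ∀ v ∈ A, ∃ v' ∈ A, ∀ x, c x v' = l x * c x v) {v : M}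
    (hv : v ∈ A) (h0 : c a v ≠ 0) : ∃ v ∈ A, c a v ≠ 0 ∧ ∀ b ∈ s, c b v = 0 := by
  classical
  induction s using Finset.induction_on with
  | empty => exact ⟨v, hv, h0, by simp⟩
  | insert b s _ ih =>
    obtain ⟨v, hv, h0, h1⟩ := ih fun b hb => h b (Finset.mem_insert_of_mem hb)
    obtain ⟨l, l1, l2⟩ := h b (Finset.mem_insert_self _ _)
    obtain ⟨v', hv', e⟩ := l2 v hv
    refine ⟨v' - l b • v, sub_mem hv' (A.smul_mem _ hv), ?_, fun x hx => ?_⟩
    · rw [map_sub, map_smul, e, smul_eq_mul, ← sub_mul]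
      exact mul_ne_zero (sub_ne_zero.2 l1.symm) h0
    · rcases Finset.mem_insert.1 hx with rfl | hx
      · simp [e]
      · simp [e, h1 x hx]

section
variable {ι : Type} [Fintype ι] [DecidableEq ι] {g : GL ι F} {d : ι → F}

theorem diag_ne (h : g.1 = diagonal d) (i : ι) : d i ≠ 0 := fun e =>
  (isUnit_iff_isUnit_det _ |>.1 g.isUnit).ne_zero (by
    rw [h, det_diagonal]; exact Finset.prod_eq_zero (Finset.mem_univ i) e)

theorem cj_diag (h : g.1 = diagonal d) (Z : Matrix ι ι F) (k l : ι) :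
    cj g Z k l = d k / d l * Z k l := by
  have := congrFun (congrFun (cj_mul_self g Z) k) l
  rw [h, mul_diagonal, diagonal_mul] at this
  rw [div_mul_eq_mul_div, ← this, mul_div_cancel_right₀ _ (diag_ne h l)]

theorem exists_suppM (A : Submodule F (Matrix ι ι F)) {i j : ι} (P : ι → ι → Prop)
    (h : ∀ k l, ¬ P k l → ∃ (g : GL ι F) (d : ι → F), g.1 = diagonal d ∧ d k * d j ≠ d i * d l ∧
      ∀ Z ∈ A, cj g Z ∈ A) {Z : Matrix ι ι F} (hZ : Z ∈ A) (h0 : Z i j ≠ 0) :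
    ∃ Z ∈ A, Z i j ≠ 0 ∧ ∀ k l, Z k l ≠ 0 → P k l := by
  classical
  obtain ⟨Z, h1, h2, h3⟩ := exists_supp (fun b : ι × ι => entryLinearMap F F b.1 b.2) A (a := (i, j))
    (Finset.univ.filter fun b => ¬ P b.1 b.2) (fun b hb => by
      obtain ⟨g, d, e, k1, k2⟩ := h b.1 b.2 (by simpa using hb)
      exact ⟨fun b => d b.1 / d b.2, fun k => k1 ((div_eq_div_iff (diag_ne e _) (diag_ne e _)).1 k),
        fun Z hZ => ⟨_, k2 Z hZ, fun x => cj_diag e Z _ _⟩⟩) hZ h0
  exact ⟨Z, h1, h2, fun k l e => by_contra fun n => e (h3 (k, l) (by simpa))⟩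

end

/-- Restriction to an invariant coordinate subspace. -/
def resS {ι κ : Type} [Fintype ι] [DecidableEq ι] [Fintype κ] [DecidableEq κ] (G : Subgroup (GL ι F))
    (f : κ → ι) (hf : Function.Injective f) (h : ∀ g ∈ G, ∀ k j, k ∉ Set.range f → g.1 k (f j) = 0) :
    G →* GL κ F := MonoidHom.toHomUnits
  { toFun := fun g => g.1.1.submatrix f f
    map_one' := submatrix_one f hf
    map_mul' := fun a b => by
      ext i j
      simp only [coe_mul, Units.val_mul, submatrix_apply, mul_apply]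
      exact (Fintype.sum_of_injective f hf _ _ (fun k hk => by rw [h _ b.2 k j hk, mul_zero])
        fun _ => rfl).symm }

/-- Restriction to an invariant subspace. -/
def resJ {ι κ : Type} [Fintype ι] [DecidableEq ι] [Fintype κ] [DecidableEq κ] (G : Subgroup (GL ι F))
    (A : Matrix ι κ F) (B : Matrix κ ι F) (h1 : B * A = 1)
    (h : ∀ g ∈ G, A * (B * g.1 * A) = g.1 * A) : G →* GL κ F := MonoidHom.toHomUnits
  { toFun := fun g => B * g.1.1 * A
    map_one' := by simpa using h1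
    map_mul' := fun a b => by
      rw [coe_mul, Units.val_mul, Matrix.mul_assoc _ A, h _ b.2]
      simp only [Matrix.mul_assoc] }

/-- `g` acts on matrices by the permutation `σ` of the indices. -/
def Pm {ι : Type} [Fintype ι] [DecidableEq ι] (g : GL ι F) (σ : Equiv.Perm ι) : Prop :=
  ∀ Z, cj g Z = Z.submatrix σ σ

section
variable {ι : Type} [Fintype ι] [DecidableEq ι] {g g' : GL ι F} {σ τ : Equiv.Perm ι}

theorem pm_of {c : F} (h : g.1 = c • σ.permMatrix F) : Pm g σ := fun Z =>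
  g.isUnit.mul_right_cancel (by
    rw [cj_mul_self, h, Matrix.mul_smul, Matrix.smul_mul, PEquiv.toMatrix_toPEquiv_mul,
      PEquiv.mul_toMatrix_toPEquiv]
    simp)

theorem Pm.mul (h : Pm g σ) (h' : Pm g' τ) : Pm (g * g') (τ * σ) := fun Z => by
  rw [cj_mul, h, h']; rfl

theorem Pm.pow (h : Pm g σ) (n : ℕ) : Pm (g ^ n) (σ ^ n) := by
  induction n with
  | zero => exact fun Z => by simp
  | succ n ih => rw [pow_succ, pow_succ']; exact ih.mul h

end

theorem exists_ab {G : Type*} [Group G] [Finite G] (O : Subgroup G) [O.Normal] [Group.IsSolvable O]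
    {Z : Subgroup G} (h : ¬ O ≤ Z) : ∃ K : Subgroup G, K.Normal ∧ ¬ K ≤ Z ∧ ⁅K, K⁆ ≤ Z := by
  obtain ⟨K, hK, ⟨k1, k2⟩, k3⟩ := Finite.exists_le_minimal (p := fun K : Subgroup G => K.Normal ∧ ¬ K ≤ Z)
    ⟨‹_›, h⟩
  refine ⟨K, k1, k2, by_contra fun k => ?_⟩
  haveI := Group.isSolvable_of_isSolvable_injective (inclusion_injective hK)
  haveI : Nontrivial K := (nontrivial_iff_ne_bot K).2 (by rintro rfl; exact k2 bot_le)
  have := (map_subtype_lt_map_subtype).2 (Group.IsSolvable.commutator_lt_top_of_nontrivial K)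
  rw [map_subtype_commutator, ← MonoidHom.range_eq_map, range_subtype] at this
  exact this.not_ge (k3 ⟨inferInstance, k⟩ this.le)

section
variable {ι : Type} [Fintype ι] [DecidableEq ι] [Nonempty ι] {g a : GL ι F} {L : Subgroup (GL ι F)}

theorem cj_of_pr (k : pr g * pr a = pr a * pr g) : ∃ c : F, c ^ Fintype.card ι = 1 ∧ cj g a.1 = c • a.1 := by
  obtain ⟨c, hc⟩ := sc_comm_iff.2 k
  refine ⟨c, ?_, by rw [cj_coe, ← smul_one_mul, ← hc, ← Units.val_mul, inv_mul_cancel_right]⟩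
  have := congrArg det hc
  rw [← GeneralLinearGroup.val_det_apply] at this
  simpa using this.symm

omit [Nonempty ι] in
theorem cj_pow {X : Matrix ι ι F} {c : F} (h : cj g X = c • X) (n : ℕ) : cj (g ^ n) X = c ^ n • X := by
  induction n with
  | zero => simp
  | succ n ih => rw [pow_succ, cj_mul, h, cj_smul, ih, smul_smul, pow_succ']

theorem pr_of_smul {c : F} (h : g.1 = c • a.1) : pr g = pr a :=
  pr_eq.2 ⟨c, by rw [Units.val_mul, h, smul_mul_assoc, Units.mul_inv]⟩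

variable (top : env L = ⊤) (cm : ∀ a ∈ L, ∀ b ∈ L, pr a * pr b = pr b * pr a)
include top cm

theorem cent (k : ∀ r ∈ L, pr g * pr r = pr r * pr g) : ∃ r ∈ L, pr r = pr g := by
  obtain ⟨r, hr, e⟩ : ∃ r ∈ L, (g * r).1.trace ≠ 0 := by
    by_contra! e
    exact g.ne_zero (eq_zero_of_trace_mul_span (span_eq_top_of_adjoin top) _ (by
      rintro _ ⟨r, hr, rfl⟩; exact e r hr))
  refine ⟨r⁻¹, inv_mem hr, (pr_eq.2 (by
    rw [inv_inv]
    refine sc_of_mem (mem_scalars_of_commute top fun s hs => ?_)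
    obtain ⟨c, -, e1⟩ := cj_of_pr (show pr s * pr (g * r) = pr (g * r) * pr s by
      rw [map_mul, ← mul_assoc, ← k s hs, mul_assoc, cm s hs r hr, mul_assoc])
    have e2 := congrArg trace e1
    rw [trace_cj, trace_smul] at e2
    rw [(mul_left_eq_self₀.1 e2.symm).resolve_right e, one_smul] at e1
    exact Units.ext ((cj_eq_self_iff _ _).1 e1).symm)).symm⟩

theorem pgrp : IsPGroup (Fintype.card ι) (L.map pr) := by
  rintro ⟨_, a, ha, rfl⟩
  refine ⟨1, Subtype.ext ?_⟩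
  rw [pow_one, coe_pow, ← map_pow]
  refine pr_eq_one.2 (sc_of_mem (mem_scalars_of_commute top fun s hs => ?_))
  obtain ⟨c, e, e1⟩ := cj_of_pr (cm a ha s hs)
  exact Units.ext ((cj_eq_self_iff _ _).1 (by rw [cj_pow e1, e, one_smul]))

omit top cm in
theorem nrm_map [Finite F] {H : Subgroup (GL ι F)} (h : H ≤ normalizer (L : Set (GL ι F))) :
    H.map pr ≤ normalizer (L.map pr : Set (GL ι F ⧸ scalars ι F)) := by
  rintro _ ⟨g, hg, rfl⟩
  refine mem_normalizer_fintype ?_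
  rintro _ ⟨s, hs, rfl⟩
  exact ⟨_, conj_mem (h hg) hs, by simp⟩

end

theorem vs {ι : Type} [DecidableEq ι] (i j : ι) (c : F) :
    vecMulVec (Pi.single i 1) (Pi.single j c) = single i j c := by
  ext a b
  simp [single_apply, vecMulVec_apply, Pi.single_apply, ← ite_and, eq_comm, and_comm]

local notation "mk" => (ProjGenLinGroup.mk : GL (Fin 2) _ →* PGL(2, _))

theorem up_pow (b : F) (n : ℕ) : !![1, b; 0, 1] ^ n = !![1, n * b; 0, 1] := by
  induction n with
  | zero => simp [one_fin_two]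
  | succ n ih => rw [pow_succ, ih]; simp [add_mul, add_comm]

theorem no_fix {H : Subgroup PGL(2, F)} {a b : Fˣ} (ha : aff a 0 ∈ H) (hb : swp b ∈ H) (a1 : a ≠ 1) (z : P1 F) :
    ¬ H ≤ stabilizer _ z := fun h => by
  have k := mem_stabilizer_iff.1 (h hb)
  rcases eq_or_eq_of_mem_fix2 (x := inf) (y := pt 0) (by simp) (g := aff a 0)
    (mem_fix2.2 ⟨by simp, by simp⟩) (by simp [aff_eq_one_iff, a1]) (h ha) with rfl | rfl <;>
    simp at k

theorem mem_of_quad [Fintype F] (hq : ¬ IsSquare (Fintype.card F)) (k : Subfield F) {a b c : k} {x : F}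
    (h : a * x ^ 2 + b * x + c = 0) (h0 : ¬ (a = 0 ∧ b = 0 ∧ c = 0)) : x ∈ k := by
  have hx : IsIntegral k x := Algebra.IsIntegral.isIntegral x
  have k0 : Polynomial.aeval x (.C a * .X ^ 2 + .C b * .X + .C c : Polynomial k) = 0 := by
    simp only [map_add, map_mul, map_pow, Polynomial.aeval_C, Polynomial.aeval_X]; exact h
  have k1 : (minpoly k x).natDegree ≤ 2 := (Polynomial.natDegree_le_of_dvd (minpoly.dvd k x k0) fun e => h0
      ⟨by simpa using congrArg (·.coeff 2) e, by simpa using congrArg (·.coeff 1) e,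
        by simpa using congrArg (·.coeff 0) e⟩).trans Polynomial.natDegree_quadratic_le
  have k2 : (minpoly k x).natDegree ≠ 2 := fun e => hq (by
    obtain ⟨m, hm⟩ := minpoly.degree_dvd hx
    haveI := Fintype.ofFinite k
    exact ⟨Fintype.card k ^ m, by rw [Module.card_eq_pow_finrank (K := k), hm, e, two_mul, pow_add]⟩)
  obtain ⟨y, rfl⟩ := minpoly.natDegree_eq_one_iff.1 (by have := minpoly.natDegree_pos hx; omega :
    (minpoly k x).natDegree = 1)
  exact y.2

theorem unip_of_sub [Fintype F] (hq : ¬ IsSquare (Fintype.card F)) {H : Subgroup PGL(2, F)} {r : ℕ}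
    (h : IsSubfieldType H r) {a : PGL(2, F)} (ha : a ∈ H) (a1 : a ≠ 1) {z : P1 F} (hz : a • z = z) :
    ∃ y ∈ H, y ≠ 1 ∧ y ∈ unip z := by
  obtain ⟨k, c, -, -, h⟩ := isSubfieldType_iff.1 h
  obtain ⟨⟨a, rfl⟩, k1⟩ : a ∈ (subHom k.subtype c).range ∧ (pslSub k).map (subHom k.subtype c) ≤ H := by
    rcases h with rfl | rfl
    exacts [⟨map_le_range _ _ ha, le_rfl⟩, ⟨ha, map_le_range _ _⟩]
  obtain ⟨z, rfl⟩ : ∃ z0, c • emb k.subtype z0 = z := by
    rw [subHom_apply, mul_smul, mul_smul, smul_eq_iff_eq_inv_smul] at hz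
    rcases eq_inf_or_eq_pt (c⁻¹ • z) with e | ⟨x, e⟩
    · exact ⟨inf, by rw [emb_inf, ← e, smul_inv_smul]⟩
    obtain ⟨A, rfl⟩ := exists_mk a
    rw [e, pglMap, ProjGenLinGroup.map_mk, pgl_mk_smul, gl_smul_pt_eq_pt] at hz
    exact ⟨pt ⟨x, mem_of_quad hq k (a := A 1 0) (b := A 1 1 - A 0 0) (c := -A 0 1) (by
      simp at hz ⊢; linear_combination -hz) fun e => a1 (by
        rw [(pgl_mk_eq_one_iff A).2 ⟨neg_eq_zero.1 e.2.2, e.1, (sub_eq_zero.1 e.2.1).symm⟩, map_one])⟩,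
      by rw [emb_pt, k.subtype_apply, ← e, smul_inv_smul]⟩
  obtain ⟨d, rfl⟩ := exists_smul_inf z
  have k2 : d * aff 1 1 * d⁻¹ ∈ unip (d • inf) := conj_mem_unip_iff.2 (aff_mem_unip_inf.2 rfl)
  exact ⟨_, k1 (mem_map_of_mem _ (unip_le_pslSub _ k2)), by
    simp [map_eq_one_iff _ (subHom_injective _ _), aff_eq_one_iff],
    conj_mem_unip_iff.2 ((pglMap_mem_unip_iff _).2 k2)⟩

end Cfsg.Lib.C6E
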