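import Cfsg.Agent.Lib.PSL2.SmallIso

/-! Subgroups of `PGL₂(p)` for the normaliser of `5^{1+2}`. -/

set_option autoImplicit false

namespace Cfsg.Lib.C6F

open scoped MatrixGroups
open Subgroup Matrix MulAction Cfsg.Lib.PSL2

theorem a5_pow : ∀ x : alternatingGroup (Fin 5), x ^ 2 = 1 ∨ x ^ 3 = 1 ∨ x ^ 5 = 1 := by
  decide +kernel

theorem a5_conj0 : ∃ a : alternatingGroup (Fin 5), ∀ b : alternatingGroup (Fin 5), b ≠ 1 →
    b * b = 1 → ∃ c, c * a = b * c := by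
  refine ⟨⟨Equiv.swap 0 1 * Equiv.swap 2 3, Equiv.Perm.mem_alternatingGroup.2 (by decide)⟩, ?_⟩
  decide +kernel

section Abs

variable {X : Type*} [Group X] {H : Subgroup X} {a b n t : X}

theorem pow_of_a5 (e : H ≃* alternatingGroup (Fin 5)) (ha : a ∈ H) :
    a ^ 2 = 1 ∨ a ^ 3 = 1 ∨ a ^ 5 = 1 := by
  have k : ∀ m : ℕ, e ⟨a, ha⟩ ^ m = 1 → a ^ m = 1 := fun m h => congrArg Subtype.val
    (e.injective (by rw [map_pow, h, map_one]) : (⟨a, ha⟩ : H) ^ m = 1)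
  exact (a5_pow (e ⟨a, ha⟩)).imp (k _) (Or.imp (k _) (k _))

theorem conj_of_a5 (e : H ≃* alternatingGroup (Fin 5)) (ha : a ∈ H) (hb : b ∈ H) (a1 : a ≠ 1)
    (b1 : b ≠ 1) (a2 : a * a = 1) (b2 : b * b = 1) : ∃ c ∈ H, c * a * c⁻¹ = b := by
  obtain ⟨o, ho⟩ := a5_conj0
  have k : ∀ (a : X) (ha : a ∈ H), a ≠ 1 → a * a = 1 → ∃ c : H, c * e.symm o = ⟨a, ha⟩ * c :=
    fun a ha a1 a2 => by
      obtain ⟨c, hc⟩ := ho (e ⟨a, ha⟩) (fun k => a1 (congrArg Subtype.val (e.map_eq_one_iff.1 k)))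
        (by rw [← map_mul, e.map_eq_one_iff]; exact Subtype.ext a2)
      exact ⟨e.symm c, e.injective (by simpa using hc)⟩
  obtain ⟨c, hc⟩ := k a ha a1 a2
  obtain ⟨d, hd⟩ := k b hb b1 b2
  have hc' : c.1 * (e.symm o).1 = a * c := congrArg Subtype.val hc
  have hd' : d.1 * (e.symm o).1 = b * d := congrArg Subtype.val hd
  refine ⟨d * c.1⁻¹, mul_mem d.2 (inv_mem c.2), ?_⟩
  rw [← mul_inv_eq_iff_eq_mul.2 hc', ← mul_inv_eq_iff_eq_mul.2 hd']
  group

theorem sq_of_a5 (e : H ≃* alternatingGroup (Fin 5)) (ht : t ∈ H) (hn : n ∈ H) (t1 : t ≠ 1)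
    (t2 : t ^ 2 = 1) (c : Commute t n) : n ^ 2 = 1 := by
  have k := pow_of_a5 e (mul_mem ht hn)
  simp only [c.mul_pow, t2, one_mul, pow_succ t 2, show t ^ 5 = (t ^ 2) ^ 2 * t by group,
    one_pow] at k
  have k1 : ∀ {i : ℕ}, t * n ^ i = 1 → n ^ (2 * i) = 1 := fun {i} h => by
    rw [mul_comm, pow_mul, eq_inv_of_mul_eq_one_right h, inv_pow, t2, inv_one]
  have k2 : ∀ {i j : ℕ}, n ^ i = 1 → n ^ j = 1 → Nat.gcd i j ∣ 2 → n ^ 2 = 1 := fun h1 h2 h3 =>
    orderOf_dvd_iff_pow_eq_one.1 ((Nat.dvd_gcd (orderOf_dvd_of_pow_eq_one h1)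
      (orderOf_dvd_of_pow_eq_one h2)).trans h3)
  rcases pow_of_a5 e hn with h | h | h
  · exact h
  · rcases k with k | k | k
    exacts [k, absurd (by simpa [h] using k) t1, k2 h (k1 k) (by norm_num)]
  · rcases k with k | k | k
    exacts [k, k2 h (k1 k) (by norm_num), absurd (by simpa [h] using k) t1]

theorem not_solv (ha : a ∈ H) (hb : b ∈ H) (a5 : a ^ 5 = 1) (b2 : b ^ 2 = 1) (ab : (a * b) ^ 3 = 1)
    (a1 : a ≠ 1) : ¬ Group.IsSolvable H := fun hs => by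
  obtain ⟨m, hm⟩ := hs.solvable
  have k : ∀ m, (⟨a, ha⟩ : H) ∈ derivedSeries H m ∧ (⟨b, hb⟩ : H) ∈ derivedSeries H m := fun m => by
    induction m with
    | zero => exact ⟨trivial, trivial⟩
    | succ m ih =>
      let f : derivedSeries H m →* _ := Abelianization.of
      have h1 : f ⟨_, ih.1⟩ ^ 5 = 1 := by
        rw [← map_pow, ← f.map_one]; congr 1; exact Subtype.ext (Subtype.ext a5)
      have h2 : f ⟨_, ih.2⟩ ^ 2 = 1 := by
        rw [← map_pow, ← f.map_one]; congr 1; exact Subtype.ext (Subtype.ext b2)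
      have h3 : (f ⟨_, ih.1⟩ * f ⟨_, ih.2⟩) ^ 3 = 1 := by
        rw [← map_mul, ← map_pow, ← f.map_one]; congr 1; exact Subtype.ext (Subtype.ext ab)
      have k : ∀ x, f x = 1 → x.1 ∈ derivedSeries H (m + 1) := fun x hx => by
        rw [derivedSeries_succ, ← map_subtype_commutator]
        exact mem_map_of_mem _ ((Abelianization.ker_of (derivedSeries H m)).le hx)
      have h4 : f ⟨_, ih.1⟩ = 1 := by
        have := congrArg (· ^ 2) h3
        simp only [← pow_mul, mul_pow, show 3 * 2 = 5 + 1 from rfl, pow_succ _ 5, h1] at this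
        rwa [← pow_succ, show 5 + 1 = 2 * 3 from rfl, pow_mul, h2, one_pow, one_pow, mul_one,
          one_mul] at this
      refine ⟨k _ h4, k ⟨_, ih.2⟩ ?_⟩
      rwa [h4, one_mul, pow_succ, h2, one_mul] at h3
  exact a1 (congrArg Subtype.val (mem_bot.1 (hm.le (k m).1) : (⟨a, ha⟩ : H) = 1))

end Abs

variable {F : Type*} [Field F] [Finite F] {p : ℕ} [hp : Fact p.Prime] [CharP F p]
  {H N : Subgroup PGL(2, F)} {z : P1 F}

omit [CharP F p] in
theorem psl_le (hF : Nat.card F = p) (h1 : H ⊓ unip z ≠ ⊥) (h2 : ¬ H ≤ stabilizer _ z) :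
    pslSub F ≤ H := by
  have k : unip z ≤ H := by
    have := card_dvd_of_le (inf_le_right : H ⊓ unip z ≤ _)
    rw [card_unip, hF, Nat.dvd_prime hp.out] at this
    exact inf_eq_right.1 (eq_of_le_of_card_ge inf_le_right (by
      rw [card_unip, hF, this.resolve_left fun e => h1 (card_eq_one.1 e)]))
  obtain ⟨g, hg, e⟩ := SetLike.not_le_iff_exists.1 h2
  rw [← unip_sup_unip (Ne.symm e)]
  refine sup_le k ?_
  rw [unip_smul]
  rintro _ ⟨u, hu, rfl⟩
  exact mul_mem (mul_mem hg (k hu)) (inv_mem hg)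

theorem psl_le_of_norm (h : 4 ≤ Nat.card F) (hN : ∀ g ∈ pslSub F, ∀ n ∈ N, g * n * g⁻¹ ∈ N)
    (h1 : N ≠ ⊥) : pslSub F ≤ N := by
  have := isSimpleGroup_psl h
  rcases (show (N.comap toP).Normal from ⟨fun n hn g => by
    simpa using hN _ (toP_mem g) _ hn⟩).eq_bot_or_eq_top with e | e
  · exfalso
    obtain ⟨⟨g, hg⟩, h2⟩ := Subgroup.ne_bot_iff_exists_ne_one.1 h1
    refine h2 (Subtype.ext (eq_one_of_fix_inf_zero_one ?_ ?_ ?_))
    all_goals
      refine mem_stabilizer_iff.1 ?_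
      rw [← normalizer_unip]
      refine Subgroup.centralizer_le_normalizer _ fun u hu => ?_
      obtain ⟨x, hx⟩ : u * g * u⁻¹ * g⁻¹ ∈ pslSub F := by
        simpa [mul_assoc] using mul_mem (unip_le_pslSub _ hu)
          (pslSub_normal.conj_mem _ (inv_mem (unip_le_pslSub _ hu)) g)
      have h3 : x ∈ N.comap toP := by
        rw [Subgroup.mem_comap, hx]; exact mul_mem (hN _ (unip_le_pslSub _ hu) _ hg) (inv_mem hg)
      rw [e, Subgroup.mem_bot] at h3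
      rw [h3, map_one, eq_mul_inv_iff_mul_eq, one_mul, eq_mul_inv_iff_mul_eq] at hx
      exact hx.symm
  · rintro _ ⟨g, rfl⟩
    exact (e ▸ Subgroup.mem_top g : g ∈ N.comap toP)

theorem cop_or (hF : Nat.card F = p) (h2 : ∀ z : P1 F, ¬ H ≤ stabilizer _ z) :
    pslSub F ≤ H ∨ (Nat.card H).Coprime p := by
  rw [coprime_card_iff_inf_unip, or_iff_not_imp_right, not_forall]
  exact fun ⟨z, hz⟩ => psl_le hF hz (h2 z)

theorem dih_or {a : PGL(2, F)} (h : (Nat.card H).Coprime p) (ha : a ∈ H) (a5 : a ^ 5 = 1)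
    (a1 : a ≠ 1) : (∃ x y : P1 (AlgebraicClosure F), x ≠ y ∧ H ≤ dih F x y) ∨
      Nonempty (H ≃* alternatingGroup (Fin 5)) := by
  haveI : Fact (Nat.Prime 5) := ⟨Nat.prime_five⟩
  have k := orderOf_eq_prime a5 a1 ▸ orderOf_dvd_natCard H ha
  rcases dickson_pgl_coprime (AlgebraicClosure F) p H h with ⟨x, y, _, h, e⟩ | ⟨⟨e⟩⟩ | ⟨⟨e⟩⟩ | e
  · exact .inl ⟨x, y, h.ne, e⟩
  · rw [Nat.card_congr e.toEquiv, card_alt_four] at k; omega
  · rw [Nat.card_congr e.toEquiv, card_perm_four] at k; omega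
  · exact .inr e

theorem dick {a b : PGL(2, F)} (hF : Nat.card F = p) (ha : a ∈ H) (hb : b ∈ H) (a5 : a ^ 5 = 1)
    (b2 : b ^ 2 = 1) (ab : (a * b) ^ 3 = 1) (a1 : a ≠ 1) :
    pslSub F ≤ H ∨ Nonempty (H ≃* alternatingGroup (Fin 5)) := by
  have k := not_solv ha hb a5 b2 ab a1
  refine (cop_or hF fun z e => k (isSolvable_of_le_comap (φ := MonoidHom.id _)
    (A := stabilizer _ z) Function.injective_id e)).imp_right fun h => ?_
  exact (dih_or h ha a5 a1).resolve_left fun ⟨x, y, h, e⟩ => k (isSolvable_of_le_dih h e)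

theorem sq_of_cop {a t n : PGL(2, F)} (h : (Nat.card H).Coprime p) (ha : a ∈ H) (ht : t ∈ H)
    (hn : n ∈ H) (a5 : a ^ 5 = 1) (t2 : t ^ 2 = 1) (c1 : ¬ Commute t a) (c : Commute t n) :
    n ^ 2 = 1 := by
  have a1 : a ≠ 1 := fun e => c1 (e ▸ Commute.one_right t)
  rcases dih_or h ha a5 a1 with ⟨x, y, h, e⟩ | ⟨⟨e⟩⟩
  · have sw : ∀ g ∈ H, toK _ g ∉ fix2 x y → g * g = 1 := fun g hg k => toK_injective (by
      have := swap_of_mem_pairStab (e hg) k
      rw [map_mul, mul_self_of_swap h this.1 this.2, map_one])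
    have k1 : toK _ t ∉ fix2 x y := fun k => c1 (toK_injective (F := F) (K := AlgebraicClosure F) (by
      have := commute_of_mem_fix2 h k (mem_fix2_of_mul_self_ne h (e ha) fun k => a1 (by
        rw [← map_mul, map_eq_one_iff _ toK_injective] at k
        simpa [pow_succ, k] using a5))
      rw [map_mul, map_mul, this.eq]))
    by_cases k : toK _ n ∈ fix2 x y
    · have := sw _ (mul_mem ht hn) fun k2 => k1 (by simpa using mul_mem k2 (inv_mem k))
      rwa [← sq, c.mul_pow, t2, one_mul] at this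
    · rw [sq, sw n hn k]
  · exact sq_of_a5 e ht hn (fun e => c1 (e ▸ Commute.one_left a)) t2 c

local notation "mk" => (ProjGenLinGroup.mk : GL (Fin 2) F →* PGL(2, F))

omit [Finite F] in
theorem up_pow (b : F) (n : ℕ) : !![1, b; 0, 1] ^ n = !![1, n * b; 0, 1] := by
  induction n with
  | zero => simp [one_fin_two]
  | succ n ih => rw [pow_succ, ih]; simp [add_mul, add_comm]

omit [Finite F] in
theorem mk_up {A : GL (Fin 2) F} {c : F} (h : A.1 = !![1, c; 0, 1]) : mk A = aff 1 c :=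
  congrArg mk (Units.ext h)

omit [Finite F] in
theorem no_fix {a b : Fˣ} (ha : aff a 0 ∈ H) (hb : swp b ∈ H) (a1 : a ≠ 1) (z : P1 F) :
    ¬ H ≤ stabilizer _ z := fun h => by
  have k := mem_stabilizer_iff.1 (h hb)
  rcases eq_or_eq_of_mem_fix2 (x := inf) (y := pt 0) (by simp) (g := aff a 0)
    (mem_fix2.2 ⟨by simp, by simp⟩) (by simp [aff_eq_one_iff, a1]) (h ha) with rfl | rfl <;>
    simp at k

omit [Finite F] in
theorem eq_one_of_mk {A : GL (Fin 2) F} {k : ℕ} (h : A ^ p ^ k = 1) (e : mk A = 1) : A = 1 := by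
  obtain ⟨h1, h2, h3⟩ := (pgl_mk_eq_one_iff A).1 e
  have k1 : A.1 = A 0 0 • 1 := by
    ext i j; fin_cases i <;> fin_cases j <;> simp [h1, h2, ← h3]
  have k2 := congrArg (fun B : GL (Fin 2) F => B.1 0 0) h
  simp only [Units.val_pow_eq_pow_val] at k2
  rw [k1, _root_.smul_pow, one_pow] at k2
  have k3 : (A 0 0 - 1) ^ p ^ k = 0 := by rw [sub_pow_char_pow]; simpa [sub_eq_zero] using k2
  exact Units.ext (by rw [k1, sub_eq_zero.1 (pow_eq_zero_iff (by simp [hp.out.ne_zero]) |>.1 k3)]; simp)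

theorem exists_nat (hF : Nat.card F = p) (c : F) : ∃ n : ℕ, (n : F) = c := by
  have : Fintype F := Fintype.ofFinite F
  let e := ZMod.ringEquivOfPrime F hp.out (Nat.card_eq_fintype_card.symm.trans hF)
  obtain ⟨a, rfl⟩ := e.surjective c
  exact ⟨a.val, by rw [← map_natCast e, ZMod.natCast_zmod_val]⟩

variable {G : Type*} [Group G] [Finite G]

theorem exists_up (hF : Nat.card F = p) (φ : G →* GL (Fin 2) F) {g : G} (h : mk (φ g) = aff 1 1) :
    ∃ (m k : ℕ) (c : F), c ≠ 0 ∧ (g ^ m) ^ p ^ k = 1 ∧ (φ (g ^ m)).1 = !![1, c; 0, 1] := by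
  obtain ⟨k, m, h1, h2⟩ := Nat.exists_eq_pow_mul_and_not_dvd (orderOf_pos g).ne' p hp.out.ne_one
  obtain ⟨u, u0, e1, e2, e3, e4⟩ := (pgl_mk_eq_mk_iff _ _).1 h.symm
  have e : (φ g).1 = u • !![1, 1; 0, 1] := by
    ext i j; fin_cases i <;> fin_cases j <;> simp [e1, e2, e3, e4]
  have u1 : u ^ (p - 1) = 1 := by
    simpa [hF] using congrArg Units.val (units_pow_card_sub_one (Units.mk0 u u0))
  refine ⟨(p - 1) * m, k, ((p - 1) * m : ℕ), ?_, ?_, ?_⟩
  · rw [Ne, CharP.cast_eq_zero_iff F p, hp.out.dvd_mul]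
    rintro (k | k)
    exacts [by have := Nat.le_of_dvd (by have := hp.out.two_le; omega) k; have := hp.out.pos; omega,
      h1 k]
  · rw [← pow_mul, mul_assoc, mul_comm m, ← h2, mul_comm, pow_mul, pow_orderOf_eq_one, one_pow]
  · rw [map_pow, Units.val_pow_eq_pow_val, e, _root_.smul_pow, up_pow, pow_mul, u1]; simp

theorem coprime_K (hF : Nat.card F = p) (h4 : 4 ≤ p) (φ ψ : G →* GL (Fin 2) F) {x t : G}
    {a b : Fˣ} (x1 : mk (φ x) = aff a 0) (x2 : mk (ψ x) = aff b 0) (t1 : mk (φ t) = swp 1)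
    (t2 : mk (ψ t) = swp 1) (a1 : a ≠ 1) (b1 : b ≠ 1) (ab : a ≠ b) (ab' : a * b ≠ 1)
    (n1 : ∀ g c, ψ g = 1 → (φ g).1 = !![1, c; 0, 1] → c = 0)
    (n2 : ∀ g c, φ g = 1 → (ψ g).1 = !![1, c; 0, 1] → c = 0) :
    (Nat.card (MonoidHom.comp mk φ).range).Coprime p := by
  have o : aff (1 : Fˣ) 1 ∈ pslSub F := unip_le_pslSub _ (aff_mem_unip_inf.2 rfl)
  refine (cop_or hF (no_fix (MonoidHom.mem_range.2 ⟨x, x1⟩) (MonoidHom.mem_range.2 ⟨t, t1⟩) a1)).resolve_left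
    fun h => ?_
  obtain ⟨g, hg⟩ := h o
  obtain ⟨m, k, c, c0, h1, h2⟩ := exists_up hF φ hg
  generalize g ^ m = v at h1 h2
  have v1 : mk (ψ v) ≠ 1 := fun e => c0 (n1 v c (eq_one_of_mk (by rw [← map_pow, h1, map_one]) e) h2)
  obtain ⟨z, hz⟩ := exists_le_unip_of_isPGroup p (H := zpowers (mk (ψ v))) (IsPGroup.of_card_dvd_pow
    (n := k) (by
      rw [Nat.card_zpowers]
      exact orderOf_dvd_of_pow_eq_one (by rw [← map_pow, ← map_pow, h1, map_one, map_one])))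
  have hz := hz (mem_zpowers _)
  have h3 := psl_le hF (H := (MonoidHom.comp mk ψ).range) (z := z)
    (fun e => v1 (mem_bot.1 (e.le ⟨⟨v, rfl⟩, hz⟩))) 
    (no_fix (MonoidHom.mem_range.2 ⟨x, x2⟩) (MonoidHom.mem_range.2 ⟨t, t2⟩) b1 z)
  have h4 : φ.ker.map (MonoidHom.comp mk ψ) = ⊥ := by
    by_contra e
    obtain ⟨j, hj, e⟩ := psl_le_of_norm (hF ▸ h4) (fun g hg n hn => by
      obtain ⟨g, rfl⟩ := h3 hg
      obtain ⟨n, hn, rfl⟩ := hn
      exact ⟨_, φ.normal_ker.conj_mem n hn g, by simp⟩) e o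
    obtain ⟨m, -, c, c0, -, h2⟩ := exists_up hF ψ e
    exact c0 (n2 _ c (pow_mem hj m) h2)
  obtain ⟨n, hn⟩ := exists_nat hF a
  have h5 : aff b 0 * mk (ψ v) * (aff b 0)⁻¹ = mk (ψ v) ^ n := by
    have : x * v * x⁻¹ * (v ^ n)⁻¹ ∈ φ.ker := by
      obtain ⟨u, u0, e1, e2, e3, e4⟩ := (pgl_mk_eq_mk_iff _ _).1 x1.symm
      rw [MonoidHom.mem_ker, map_mul, map_inv, mul_inv_eq_one, map_mul, map_inv,
        mul_inv_eq_iff_eq_mul, map_mul, map_pow]
      ext i j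
      rw [Units.val_mul, Units.val_mul, Units.val_pow_eq_pow_val, h2, up_pow, hn]
      fin_cases i <;> fin_cases j <;> simp [mul_apply, e1, e2, e3, e4]
      ring
    have := mem_bot.1 (h4.le (mem_map_of_mem _ this))
    simpa [x2, mul_inv_eq_one] using this
  have h6 := smul_eq_of_conj_mem_unip hz v1 (h5 ▸ pow_mem hz n)
  have w : ∀ {b : Fˣ} {y : PGL(2, F)}, y ∈ unip (inf : P1 F) → y ≠ 1 →
      aff b 0 * y * (aff b 0)⁻¹ = y ^ n → a = b := fun {b y} hy y1 e => by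
    obtain ⟨d, rfl⟩ := mem_unip_inf.1 hy
    rw [aff_conj_aff_one, aff_one_pow, aff_inj, hn] at e
    exact Units.ext (mul_right_cancel₀ (fun k => y1 (by simp [k])) e.2).symm
  rcases eq_or_eq_of_mem_fix2 (x := inf) (y := pt 0) (by simp) (g := aff b 0)
    (mem_fix2.2 ⟨by simp, by simp⟩) (by simp [aff_eq_one_iff, b1]) h6 with rfl | rfl
  · exact ab (w hz v1 h5)
  · have s : swp (1 : Fˣ) * aff b 0 * (swp 1)⁻¹ = aff b⁻¹ 0 := by
      rw [mul_inv_eq_iff_eq_mul, swp, aff, aff, ← map_mul, ← map_mul, pgl_mk_eq_mk_iff]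
      exact ⟨b⁻¹, by simp, by simp⟩
    refine ab' (eq_inv_iff_mul_eq_one.1 (w (y := swp 1 * mk (ψ v) * (swp 1)⁻¹) ?_ (mt conj_eq_one_iff.1 v1) ?_))
    · simpa using (conj_mem_unip_iff (c := swp 1)).2 hz
    · rw [← s, conj_pow, ← h5]; group

end Cfsg.Lib.C6F
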