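import Cfsg.Agent.Lib.BG.T01_Cyclic
import Cfsg.Agent.Lib.Coprime.Generation
import Cfsg.Agent.Lib.ZStar.Main
import Cfsg.Agent.Lib.PF.Main

/-! Group-theoretic lemmas on elementary abelian `3`-subgroups with small centralisers. -/

set_option autoImplicit false

namespace Cfsg.Lib.C6T

open Subgroup Cfsg.Lib.BG

variable {G : Type*} [Group G] [Finite G] {A C E H K : Subgroup G} {s t x y z : G}

theorem card_le_ker_mul {X Y : Type*} [Group X] [Finite X] [Group Y] (f : X →* Y)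
    (L : Subgroup X) : Nat.card L ≤ Nat.card f.ker * Nat.card (L.map f) := by
  rw [← relIndex_ker, ← (f.ker.subgroupOf L).card_mul_index]
  exact Nat.mul_le_mul_right _ (Nat.card_le_card_of_injective
    (fun a => ⟨a.1.1, a.2⟩) fun a b e => Subtype.ext (Subtype.ext (Subtype.mk.inj e)))

theorem card_le_cube' {X : Type*} [CommGroup X] [Finite X] (φ : X →* X) (e3 : ∀ a : X, a ^ 3 = 1)
    (e2 : ∀ a, φ (φ (φ a)) = a) : Nat.card X ≤ Nat.card (φ / MonoidHom.id X).ker ^ 3 := by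
  set f := φ / MonoidHom.id X
  have k3 : ((⊤ : Subgroup X).map f).map f ≤ f.ker := by
    rintro _ ⟨_, ⟨a, -, rfl⟩, rfl⟩
    have e1 : ∀ a, f a = φ a / a := fun _ => rfl
    rw [MonoidHom.mem_ker]
    simp only [e1, map_div, e2]
    calc _ = (φ a) ^ 3 / (φ (φ a)) ^ 3 := Additive.ofMul.injective (by
          simp only [ofMul_div, ofMul_pow]; abel)
      _ = 1 := by rw [e3, e3]; simp
  have a1 := card_le_ker_mul f ⊤
  have a2 := card_le_ker_mul f ((⊤ : Subgroup X).map f)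
  have a3 := card_le_of_le k3
  rw [card_top] at a1
  calc _ ≤ _ := a1
    _ ≤ Nat.card f.ker * (Nat.card f.ker * Nat.card f.ker) := by gcongr; exact a2.trans (by gcongr)
    _ = _ := by ring

theorem card_le_cube (ab : IsMulCommutative E) (e3 : ∀ e ∈ E, e ^ 3 = 1) (hy : y ∈ 𝐍(E))
    (y3 : y ^ 3 = 1) : Nat.card E ≤ Nat.card ↥(E ⊓ 𝐂[y]) ^ 3 := by
  letI : CommGroup E := { (inferInstance : Group E) with mul_comm := ab.is_comm.comm }
  let φ : E ≃* E := E.normalizerMonoidHom ⟨y, hy⟩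
  refine (card_le_cube' φ.toMonoidHom (fun a => Subtype.ext (e3 a a.2)) fun a => Subtype.ext (by
    change y * (y * (y * a * y⁻¹) * y⁻¹) * y⁻¹ = a
    calc _ = y ^ 3 * a * (y ^ 3)⁻¹ := by simp [pow_succ, mul_assoc]
      _ = _ := by rw [y3]; group)).trans (Nat.pow_le_pow_left ?_ _)
  refine Nat.card_le_card_of_injective (fun a => ⟨a.1.1, a.1.2, mem_cent1.2
    (mul_inv_eq_iff_eq_mul.1 (congrArg Subtype.val (div_eq_one.1 a.2))).symm⟩) fun a b e => ?_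
  exact Subtype.ext (Subtype.ext (congrArg (fun x : ↥(E ⊓ 𝐂[y]) => x.1) e))

omit [Finite G] in
theorem pgroup_three (e3 : ∀ e ∈ E, e ^ 3 = 1) : IsPGroup 3 E :=
  fun a => ⟨1, Subtype.ext (by simpa using e3 a a.2)⟩

theorem card_zpowers_le (t3 : t ^ 3 = 1) : Nat.card (zpowers t) ≤ 3 := by
  rw [Nat.card_zpowers]; exact Nat.le_of_dvd (by norm_num) (orderOf_dvd_of_pow_eq_one t3)

theorem not_cyclic (e3 : ∀ e ∈ E, e ^ 3 = 1) (hc : 3 < Nat.card E) : ¬ IsCyclic E := fun h => by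
  obtain ⟨a, ha, rfl⟩ := cyclic_iff.1 h
  exact hc.not_ge (card_zpowers_le (e3 a ha))

omit [Finite G] in
theorem conj_eq_of_zpowers (t3 : t ^ 3 = 1) (t1 : t ≠ 1) (h : x * t * x⁻¹ ∈ zpowers t)
    (hi : x * t * x⁻¹ ≠ t⁻¹) : x * t = t * x := by
  obtain ⟨k, hk⟩ := mem_zpowers_iff.1 h
  rw [zpow_eq_zpow_emod' _ t3] at hk
  have := Int.emod_nonneg k (show ((3 : ℕ) : ℤ) ≠ 0 by norm_num)
  have := Int.emod_lt_of_pos k (show (0 : ℤ) < (3 : ℕ) by norm_num)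
  generalize k % ((3 : ℕ) : ℤ) = j at *
  obtain rfl | rfl | rfl : j = 0 ∨ j = 1 ∨ j = 2 := by omega
  · exact absurd (by simpa using hk.symm) t1
  · exact mul_inv_eq_iff_eq_mul.1 (by simpa using hk.symm)
  · exact absurd (hk.symm.trans (eq_inv_of_mul_eq_one_left (by rw [← t3]; group))) hi

/-- A `3²` acting with the same small fixed-point group for each of its elements. -/
theorem le_of_semireg (ab : IsMulCommutative A) (a3 : ∀ a ∈ A, a ^ 3 = 1) (hc : 3 < Nat.card A)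
    (hAC : A ≤ 𝐍(C)) (hK : ∀ a ∈ A, a ≠ 1 → C ⊓ 𝐂[a] ≤ K) (hAt : A ≤ 𝐂[t]) (tC : t ∈ C)
    (t3 : t ^ 3 = 1) (t1 : t ≠ 1)
    (hT : ∀ c ∈ C, c ∈ K → (∃ k, c ^ 3 ^ k = 1) → c * t = t * c → c ∈ zpowers t)
    (hi : ∀ c ∈ C, c * t * c⁻¹ ≠ t⁻¹) : C ≤ K := by
  haveI : Fact (Nat.Prime 3) := ⟨Nat.prime_three⟩
  have T3 : ∀ e ∈ zpowers t, e ^ 3 = 1 := by
    rintro _ ⟨k, rfl⟩
    rw [← zpow_natCast, ← zpow_mul, mul_comm, zpow_mul, zpow_natCast, t3, one_zpow]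
  have TC : zpowers t ≤ C := (zpowers_le).2 tC
  have AT : A ≤ 𝐍(zpowers t) := norm_of_cent (cent_zpowers t ▸ hAt)
  have BC : (zpowers t ⊔ A) ⊓ C = zpowers t := by
    rw [modular_left TC AT, sup_eq_left]
    intro a ha
    by_cases a1 : a = 1
    · exact a1 ▸ one_mem _
    · exact hT a ha.2 (hK a ha.1 a1 ⟨ha.2, self_mem_cent1 a⟩) ⟨1, a3 a ha.1⟩ (mem_cent1.1 (hAt ha.1))
  obtain ⟨S, hS, hB⟩ := Syl.exists_ge (pgroup_sup (pgroup_three T3) (pgroup_three a3) AT)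
    (sup_le_sup_right TC A)
  have e : zpowers t ⊔ A = S := by
    by_contra k
    obtain ⟨u, hu, u1, -, u2⟩ := PGroup.exists_mem_normalizer_of_lt hS.pgroup (lt_of_le_of_ne hB k)
    obtain ⟨c, hc', a, ha, rfl⟩ := (mem_sup_left_norm hAC).1 (hS.le hu)
    have c1 : c ∈ 𝐍(zpowers t ⊔ A) := (mul_mem_cancel_right (le_norm _ (mem_sup_right ha))).1 u2
    have c2 : c ∈ S := (mul_mem_cancel_right (hB (mem_sup_right ha))).1 hu
    refine u1 (mul_mem (mem_sup_left (hT c hc' ?_ ((hS.pgroup ⟨c, c2⟩).imp fun k e =>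
      congrArg Subtype.val e) (conj_eq_of_zpowers t3 t1 (BC.le ⟨conj_mem_of_norm c1
        (mem_sup_left (mem_zpowers t)), conj_mem_of_norm (le_norm _ hc') tC⟩) (hi c hc'))))
      (mem_sup_right ha))
    let f : A → zpowers t := fun a => ⟨c * a * c⁻¹ * a.1⁻¹, BC.le ⟨mul_mem (conj_mem_of_norm c1
      (mem_sup_right a.2)) (mem_sup_right (A.inv_mem a.2)), by
        simpa [mul_assoc] using mul_mem hc' (conj_mem_of_norm (hAC a.2) (inv_mem hc'))⟩⟩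
    by_contra k1
    refine hc.not_ge ((Nat.card_le_card_of_injective f fun a b e => ?_).trans (card_zpowers_le t3))
    by_contra k2
    have e : c * a * c⁻¹ * a.1⁻¹ = c * b * c⁻¹ * b.1⁻¹ := congrArg Subtype.val e
    refine k1 (hK _ (mul_mem (inv_mem b.2) a.2) (fun e => k2 (Subtype.ext (inv_mul_eq_one.1 e).symm))
      ⟨hc', mem_cent1.2 ?_⟩)
    calc _ = (c * b * c⁻¹)⁻¹ * (c * a * c⁻¹ * a.1⁻¹) * a * c := by group
      _ = _ := by rw [e]; group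
  have hP : Syl 3 (zpowers t) C := BC ▸ (e ▸ hS).inf le_sup_left
    (sup_le (le_norm_of_le TC) hAC)
  have sd := Burnside_normal_complement hP fun c hc' => cent_zpowers t ▸ mem_cent1.2
    (conj_eq_of_zpowers t3 t1 (conj_mem_of_norm hc'.2 (mem_zpowers t)) (hi c hc'.1))
  obtain ⟨a, ha, a1⟩ := exists_ne_one (A := A) fun e => by simp [e] at hc
  refine sd.sup ▸ sup_le (Coprime.le_of_forall_centralizer_le ab (not_cyclic a3 hc)
    (norm_pcore hAC _) ?_ fun a ha a1 => (inf_le_inf_right _ (pcore_le _ _)).trans (hK a ha a1))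
    ((zpowers_le).2 (hK a ha a1 ⟨tC, mem_cent1_symm (hAt ha)⟩))
  obtain ⟨k, hk⟩ := (pgroup_three a3).exists_card_eq
  rw [hk]
  exact (Nat.prime_three.coprime_iff_not_dvd.2 fun h => pcore_pi {3}ᶜ C 3 Nat.prime_three h rfl).pow_left _

theorem normal_of_zstar (ab : IsMulCommutative E) (e3 : ∀ e ∈ E, e ^ 3 = 1) (hc : 3 < Nat.card E)
    (cE : 𝐂(E) ≤ E) (loc : ∀ x ∈ E, x ≠ 1 → 𝐂[x] ≤ 𝐍(E))
    (tr : ∀ x ∈ E, ∀ y ∈ E, x ≠ 1 → y ≠ 1 → ∃ n, n * x * n⁻¹ = y) (s2 : s * s = 1)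
    (sN : s ∈ 𝐍(E)) (su : ∀ g, g⁻¹ * s * g ∈ 𝐍(E) → g ∈ 𝐍(E)) (z2 : z * z = 1) (zN : z ∈ 𝐍(E))
    (zi : ∀ g, g * z * g⁻¹ ∈ 𝐍(E) → ∀ e ∈ E, g * z * g⁻¹ * e * (g * z * g⁻¹)⁻¹ = e⁻¹) :
    E.Normal := by
  haveI : Fact (Nat.Prime 3) := ⟨Nat.prime_three⟩
  have p2 : ∀ {s : G}, s * s = 1 → IsPGroup 2 (zpowers s) := fun {s} e =>
    IsPGroup.iff_card.2 (by
      rw [Nat.card_zpowers]
      exact ((Nat.dvd_prime_pow Nat.prime_two (m := 1)).1 (orderOf_dvd_of_pow_eq_one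
        (by rw [pow_one, sq, e]))).imp fun _ h => h.2)
  have odd : ¬ 2 ∣ 𝐍(E).index := fun k => by
    have := (p2 s2).card_modEq_card_fixedPoints (G ⧸ 𝐍(E))
    rw [(Nat.card_eq_one_iff_exists (α := MulAction.fixedPoints _ _)).2 ⟨⟨((1 : G) : G ⧸ 𝐍(E)), fun a => QuotientGroup.eq.2 (by
      simpa using (zpowers_le).2 sN a.2)⟩, fun ⟨a, ha⟩ => Subtype.ext (by
        obtain ⟨g, rfl⟩ := QuotientGroup.mk_surjective a
        have := (QuotientGroup.eq.1 (ha ⟨s, mem_zpowers s⟩).symm :)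
        exact QuotientGroup.eq.2 (by simpa using su g (by simpa [mul_assoc] using this)))⟩] at this
    exact absurd ((Nat.modEq_zero_iff_dvd.2 k).symm.trans this) (by decide)
  obtain ⟨P, hP, zP⟩ := Syl.exists_ge (p2 z2) ((zpowers_le).2 zN)
  obtain ⟨S, rfl⟩ := Syl.top_iff_sylow.1 (Syl.mk' (M := ⊤) le_top hP.pgroup (by
    rw [relIndex_top_right, ← relIndex_mul_index hP.le]
    exact fun k => (Nat.prime_two.dvd_mul.1 k).elim hP.not_dvd' odd))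
  have zi' : ∀ e ∈ E, z * e * z⁻¹ = e⁻¹ := by simpa using zi 1 (by simpa)
  obtain ⟨a, ha, a1⟩ := exists_ne_one (A := E) fun e => by simp [e] at hc
  have inv : ∀ e ∈ E, e⁻¹ * e⁻¹ = e := fun e he => by
    rw [← mul_inv_rev, inv_eq_iff_mul_eq_one, ← e3 e he, pow_three']
  have iso := ZStar.isolated_of_sylow S (orderOf_eq_prime (by rw [sq, z2]) fun e => a1 (by
    have := zi' a ha
    rw [e] at this
    rw [← inv a ha, mul_inv_eq_one]; simpa using this.symm)) fun g hg => by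
    have k := cE (mem_cent.2 fun e he => (mul_inv_eq_iff_eq_mul.1 (show
      z⁻¹ * (g * z * g⁻¹) * e * (z⁻¹ * (g * z * g⁻¹))⁻¹ = e by
        calc _ = z⁻¹ * (g * z * g⁻¹ * e * (g * z * g⁻¹)⁻¹) * z := by group
          _ = _ := by rw [zi g (hP.le hg) e he, ← zi' e he]; group)).symm)
    obtain ⟨n, hn⟩ := hP.pgroup ⟨_, mul_mem (inv_mem (zP (mem_zpowers z))) hg⟩
    exact (inv_mul_eq_one.1 ((pow_eq_one_iff_of_coprime
      ((by norm_num : Nat.Coprime 3 2).pow_right n)).1 ⟨e3 _ k, congrArg Subtype.val hn⟩)).symm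
  have EO : E ≤ oddCore G := fun e he => by
    have := ZStar.zstar iso e
    rwa [zi' e he, inv e he] at this
  obtain ⟨M, hM, MO⟩ := Core.exists_isMinNormal_le (N := oddCore G) inferInstance
    (ne_bot_of_mem (EO ha) a1)
  haveI := hM.normal
  obtain ⟨q, hq, m1, m2⟩ := hM.isElementaryAbelian
    (PF.isSolvable_of_odd _ (odd_of_le (Core.odd_card_oddCore G) MO))
  have EM : E ≤ 𝐍(M) := le_normalizer_of_normal
  by_cases q3 : q = 3
  · subst q3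
    obtain ⟨x, hx, x1⟩ := exists_ne_one
      (PGroup.inf_centralizer_ne_bot (pgroup_three m2) (pgroup_three e3) EM hM.ne_bot)
    have : E ≤ M := fun y hy => by
      by_cases y1 : y = 1
      · exact y1 ▸ one_mem _
      obtain ⟨n, rfl⟩ := tr x (cE hx.2) y hy x1 y1
      exact hM.normal.conj_mem _ hx.1 n
    exact le_antisymm ((abelian_cent' m1 le_rfl this).trans cE) this ▸ hM.normal
  haveI : Fact q.Prime := ⟨hq⟩
  have co : (Nat.card E).Coprime (Nat.card M) := IsPGroup.coprime_card_of_ne 3 q (Ne.symm q3) _ _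
    (pgroup_three e3) fun a => ⟨1, Subtype.ext (by simpa using m2 a a.2)⟩
  have d := disjoint_of_coprime co.symm
  exact absurd (eq_bot_mono d (le_inf le_rfl ((cent_of_norm_of_disjoint
    (Coprime.le_of_forall_centralizer_le ab (not_cyclic e3 hc) EM co fun a ha a1 =>
      inf_le_right.trans (loc a ha a1)) EM d).trans cE))) hM.ne_bot

omit [Finite G] in
theorem norm_sub (hE : E ≤ H) {g : H} : g ∈ 𝐍(E.subgroupOf H) ↔ g.1 ∈ 𝐍(E) :=
  ⟨fun k => mem_normalizer_iff.2 fun a => ⟨fun ha => (mem_normalizer_iff.1 k ⟨a, hE ha⟩).1 ha,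
    fun ha => (mem_normalizer_iff.1 k ⟨a, by
      simpa [mul_assoc] using mul_mem (mul_mem (inv_mem g.2) (hE ha)) g.2⟩).2 ha⟩,
    fun k => mem_normalizer_iff.2 fun a => mem_normalizer_iff.1 k a.1⟩

theorem le_norm_of_zstar (hE : E ≤ H) (ab : IsMulCommutative E) (e3 : ∀ e ∈ E, e ^ 3 = 1)
    (hc : 3 < Nat.card E) (cE : H ⊓ 𝐂(E) ≤ E) (loc : ∀ x ∈ E, x ≠ 1 → H ⊓ 𝐂[x] ≤ 𝐍(E))
    (tr : ∀ x ∈ E, ∀ y ∈ E, x ≠ 1 → y ≠ 1 → ∃ n ∈ H, n * x * n⁻¹ = y) (hs : s ∈ H)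
    (s2 : s * s = 1) (sN : s ∈ 𝐍(E)) (su : ∀ g ∈ H, g⁻¹ * s * g ∈ 𝐍(E) → g ∈ 𝐍(E)) (hz : z ∈ H)
    (z2 : z * z = 1) (zN : z ∈ 𝐍(E))
    (zi : ∀ g ∈ H, g * z * g⁻¹ ∈ 𝐍(E) → ∀ e ∈ E, g * z * g⁻¹ * e * (g * z * g⁻¹)⁻¹ = e⁻¹) :
    H ≤ 𝐍(E) := fun g hg =>
  haveI : (E.subgroupOf H).Normal := normal_of_zstar (G := H) (s := ⟨s, hs⟩)
    (z := ⟨z, hz⟩) (abelian_iff.2 (le_cent_iff.2 fun a ha b hb =>
      Subtype.ext (le_cent_iff.1 (abelian_cent ab) _ ha _ hb)))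
    (fun e he => Subtype.ext (e3 _ he))
    (by rwa [Nat.card_congr (subgroupOfEquivOfLe hE).toEquiv])
    (fun c hc => cE ⟨c.2, mem_cent.2 fun e he =>
      congrArg Subtype.val (mem_cent.1 hc ⟨e, hE he⟩ he)⟩)
    (fun x hx x1 c hc => (norm_sub hE).2 (loc _ hx (fun e => x1 (Subtype.ext e))
      ⟨c.2, mem_cent1.2 (congrArg Subtype.val (mem_cent1.1 hc))⟩))
    (fun x hx y hy x1 y1 => (tr _ hx _ hy (fun e => x1 (Subtype.ext e))
      fun e => y1 (Subtype.ext e)).elim fun n hn => ⟨⟨n, hn.1⟩, Subtype.ext hn.2⟩)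
    (Subtype.ext s2) ((norm_sub hE).2 sN)
    (fun g k => (norm_sub hE).2 (su _ g.2 ((norm_sub hE).1 k))) (Subtype.ext z2)
    ((norm_sub hE).2 zN) fun g k e he =>
      Subtype.ext (zi _ g.2 ((norm_sub hE).1 k) _ he)
  (norm_sub hE (g := ⟨g, hg⟩)).1 (le_normalizer_of_normal (mem_top _))

end Cfsg.Lib.C6T
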